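import Cfsg.Agent.MS.BaseA

/-! notes/MS.md, section AutP. -/

set_option autoImplicit false
set_option maxRecDepth 100000

namespace Cfsg.Agent.MS

open Subgroup H29 H42

variable {A : Type*} [Group A] [Finite A] {d : AD A}

namespace AutP

/-- codes for the elements `U l f k s^i` -/
structure Tc where
  l : F4
  f : F4
  k : F4
  i : Bool
  deriving DecidableEq

/-- codes for the elements `U l f k s^i p^n` -/
structure Cc where
  t : Tc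
  n : Fin 3
  deriving DecidableEq

def allF (P : F4 → Bool) : Bool := P F4.o && (P F4.i && (P F4.w && P F4.v))

theorem allF_iff {P : F4 → Bool} : allF P = true ↔ ∀ x, P x = true := by
  simp only [allF, Bool.and_eq_true]
  exact ⟨fun h x => by cases x <;> simp [h], fun h => ⟨h _, h _, h _, h _⟩⟩

instance instAllT (P : Tc → Prop) [DecidablePred P] : Decidable (∀ x, P x) :=
  decidable_of_iff (allF (fun l => allF fun f => allF fun k =>
    decide (P ⟨l, f, k, false⟩) && decide (P ⟨l, f, k, true⟩)) = true) (by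
    simp only [allF_iff, Bool.and_eq_true, decide_eq_true_eq]
    exact ⟨fun h ⟨l, f, k, i⟩ => by cases i; exacts [(h l f k).1, (h l f k).2], fun h _ _ _ => ⟨h _, h _⟩⟩)

instance instAllC (P : Cc → Prop) [DecidablePred P] : Decidable (∀ x, P x) :=
  decidable_of_iff (∀ t, P ⟨t, 0⟩ ∧ P ⟨t, 1⟩ ∧ P ⟨t, 2⟩)
    ⟨fun h ⟨t, n⟩ => by fin_cases n; exacts [(h t).1, (h t).2.1, (h t).2.2], fun h _ => ⟨h _, h _, h _⟩⟩

instance instExT (P : Tc → Prop) [DecidablePred P] : Decidable (∃ x, P x) :=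
  decidable_of_iff (¬ ∀ x, ¬ P x) (by simp)

def fr (i : Bool) (x : F4) : F4 := cond i (F4.mul x x) x

def tm (x y : Tc) : Tc :=
  ⟨F4.add x.l (fr x.i y.l), F4.add x.f (fr x.i y.f),
    F4.add (F4.add (F4.add x.k (fr x.i y.k)) (F4.mul (F4.mul x.l x.l) (F4.mul (fr x.i y.l) (fr x.i y.l))))
      (F4.mul (fr x.i y.l) x.f), xor x.i y.i⟩

def en : F4 → ℕ
  | F4.o => 0 | F4.i => 1 | F4.w => 2 | F4.v => 3

def de (n : ℕ) : F4 := cond (Nat.testBit n 1) (cond (Nat.testBit n 0) F4.v F4.w) (cond (Nat.testBit n 0) F4.i F4.o)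

def lk (T : ℕ) (x : Tc) : ℕ :=
  Nat.shiftRight T (Nat.mul 7 (Nat.add (Nat.add (en x.l) (Nat.mul 4 (en x.f))) (Nat.add (Nat.mul 16 (en x.k)) (cond x.i 64 0))))

def stT : ℕ := nat_lit 0xdc6fe0d5d6dc49cc5fa01454da41fc2f61d7d2d459ec1f211650d251d67b49857796dcc64b0944f590d4f63bc887739ecce60b8846f198c4557fc09d47de4dc44d8454d5f805753f419f43d65de40d0556d1f0155f6b69cde694d8ce592d0474b2907f2be8cfe29cc8ee19ac0670ba80
def btT : ℕ := nat_lit 0x52fa5cd58ee7c9d3f858dd9ec78972baddd78aefd9f3b8d9df9acf9970bed5c7aaaf58f1bcd1cfba8f1850fe54c5aea748d1fc50cdbe870866d23c14c861c5cd84185e7d03814692bd16cc69d5edc4995c790b914496b506ec2954efc0914c594b1064d63404e82144cf80104e5d4300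

def st (x : Tc) : Tc :=
  ⟨de (lk stT x), de (Nat.shiftRight (lk stT x) 2), de (Nat.shiftRight (lk stT x) 4), Nat.testBit (lk stT x) 6⟩

def sg (x : Tc) : ℕ := cond (Nat.testBit (lk btT x) 6) 2 1

def t1 : Tc := ⟨0, 0, 0, false⟩

def wd (n : ℕ) (a b c e : Tc) : Tc :=
  tm (tm (tm (tm (tm (tm (cond (Nat.testBit n 0) a t1) (cond (Nat.testBit n 1) b t1)) (cond (Nat.testBit n 2) c t1))
    (cond (Nat.testBit n 3) e t1)) (cond (Nat.testBit n 4) ⟨0, 0, 1, false⟩ t1))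
    (cond (Nat.testBit n 5) ⟨F4.w, F4.w, 0, false⟩ t1)) (cond (Nat.testBit n 6) ⟨0, F4.v, 0, false⟩ t1)

theorem wd_spec : ∀ x, x = wd (lk btT x) ⟨0, 0, F4.v, false⟩ ⟨1, 1, 0, false⟩ ⟨0, 1, 0, false⟩ ⟨0, 0, 0, true⟩ ∧
    st x = wd (lk btT x) ⟨1, 1, 0, false⟩ ⟨1, 1, F4.v, false⟩ ⟨0, 0, 0, true⟩ ⟨0, 1, 0, true⟩ ∧ sg (st x) = sg x := by
  decide +kernel

def mu (x y : Cc) : Cc :=
  ⟨tm x.t (cond (Nat.beq x.n.val 0) y.t (cond (Nat.beq x.n.val 1) (st y.t) (st (st y.t)))),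
    ⟨Nat.mod (Nat.add (Nat.mul x.n.val (sg y.t)) y.n.val) 3, Nat.mod_lt _ (by decide)⟩⟩

def evT (d : AD A) (x : Tc) : A := d.U x.l x.f x.k * cond x.i d.s 1

def ev (d : AD A) (x : Cc) : A := evT d x.t * d.p ^ x.n.val

variable (h : AF d)
include h

theorem evT_mul (x y : Tc) : evT d (tm x y) = evT d x * evT d y := by
  obtain ⟨l, f, k, i⟩ := x
  obtain ⟨l', f', k', i'⟩ := y
  have e : d.s * d.U l' f' k' = d.U (l' * l') (f' * f') (k' * k') * d.s := by rw [← h.sU]; group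
  cases i <;> cases i'
  · show d.U _ _ _ * 1 = d.U _ _ _ * 1 * (d.U _ _ _ * 1)
    rw [mul_one, mul_one, mul_one, h.mul]; rfl
  · show d.U _ _ _ * d.s = d.U _ _ _ * 1 * (d.U _ _ _ * d.s)
    rw [mul_one, ← mul_assoc, h.mul]; rfl
  · show d.U _ _ _ * d.s = d.U _ _ _ * d.s * (d.U _ _ _ * 1)
    rw [mul_one, mul_assoc, e, ← mul_assoc, h.mul]; rfl
  · show d.U _ _ _ * 1 = d.U _ _ _ * d.s * (d.U _ _ _ * d.s)
    rw [mul_assoc, ← mul_assoc d.s, e, mul_assoc, h.s2, mul_one, mul_one, h.mul]; rfl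

theorem evT_one : evT d t1 = 1 := by
  show d.U 0 0 0 * 1 = 1
  rw [h.U_one, mul_one]

theorem p3' : d.p ^ 3 = 1 := by rw [pow_three', h.p3]

theorem step (x : Tc) : d.p * evT d x = evT d (st x) * d.p ^ sg x := by
  obtain ⟨e1, e2, -⟩ := wd_spec x
  have c : ∀ (b : Bool) (u u' : Tc), d.p * evT d u * d.p⁻¹ = evT d u' →
      d.p * evT d (cond b u t1) = evT d (cond b u' t1) * d.p := fun b u u' e => by
    cases b
    · show d.p * evT d t1 = evT d t1 * d.p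
      rw [evT_one h, mul_one, one_mul]
    · exact mul_inv_eq_iff_eq_mul.1 e
  have m : ∀ {u u' v v' : Tc} {y : A}, d.p * evT d u = evT d u' * d.p → d.p * evT d v = evT d v' * y →
      d.p * evT d (tm u v) = evT d (tm u' v') * y := fun e e' => by
    rw [evT_mul h, evT_mul h, ← mul_assoc, e, mul_assoc, e', mul_assoc]
  rw [e2]
  conv_lhs => rw [e1]
  refine m (m (m (m (m (m (c _ _ _ ?_) (c _ _ _ ?_)) (c _ _ _ ?_)) (c _ _ _ ?_)) (c _ _ _ ?_)) (c _ _ _ ?_)) ?_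
  · simpa [evT] using h.py1
  · simpa [evT] using h.py2
  · simpa [evT, h.U_one] using h.pa
  · simpa [evT, h.U_one] using h.ps
  · simpa [evT] using h.pz
  · simpa [evT] using h.pe
  · rw [sg]
    cases Nat.testBit (lk btT x) 6
    · show d.p * evT d t1 = evT d t1 * d.p ^ 1
      rw [evT_one h, mul_one, one_mul, pow_one]
    · show d.p * (d.U 0 F4.v 0 * 1) = d.U 0 F4.v 0 * 1 * d.p ^ 2
      have e := mul_inv_eq_iff_eq_mul.1 h.cp
      have e3 : d.p ^ 2 = d.p⁻¹ := eq_inv_of_mul_eq_one_left (by rw [← pow_succ, p3' h])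
      rw [mul_one, e3, eq_mul_inv_iff_mul_eq, mul_assoc, e, mul_inv_cancel_left]

theorem ev_mul (x y : Cc) : ev d (mu x y) = ev d x * ev d y := by
  obtain ⟨t, n⟩ := x
  obtain ⟨u, m⟩ := y
  have k : d.p ^ n.val * evT d u = evT d (cond (Nat.beq n.val 0) u (cond (Nat.beq n.val 1) (st u) (st (st u)))) *
      d.p ^ (n.val * sg u) := by
    fin_cases n
    · simp
    · show d.p ^ 1 * _ = evT d (st u) * d.p ^ (1 * sg u)
      rw [pow_one, one_mul, step h]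
    · show d.p ^ 2 * _ = evT d (st (st u)) * d.p ^ (2 * sg u)
      rw [pow_two, mul_assoc, step h, ← mul_assoc, step h, (wd_spec u).2.2, mul_assoc, ← pow_add, two_mul]
  show evT d (tm t _) * d.p ^ ((n.val * sg u + m.val) % 3) = evT d t * d.p ^ n.val * (evT d u * d.p ^ m.val)
  rw [← pow_eq_pow_mod _ (p3' h), evT_mul h, mul_assoc (evT d t), mul_assoc (evT d t), ← mul_assoc (d.p ^ n.val), k,
    pow_add, mul_assoc]

theorem p_ne : d.p ≠ 1 := fun e => h.s_ne 0 1 0 (by rw [← h.pa, e]; group)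

theorem evT_mem (x : Tc) : evT d x ∈ T1 d := by
  obtain ⟨l, f, k, i⟩ := x
  cases i
  · exact h.mem_T1.2 ⟨l, f, k, Or.inl (mul_one _)⟩
  · exact h.mem_T1.2 ⟨l, f, k, Or.inr rfl⟩

theorem evT_inj {x y : Tc} (e : evT d x = evT d y) : x = y := by
  obtain ⟨l, f, k, i⟩ := x
  obtain ⟨l', f', k', i'⟩ := y
  have n : ∀ l f k l' f' k', d.U l f k * 1 ≠ d.U l' f' k' * d.s := fun l f k l' f' k' e => by
    rw [mul_one, ← inv_mul_eq_iff_eq_mul, h.U_inv, h.mul] at e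
    exact h.s_ne _ _ _ e
  cases i <;> cases i'
  · obtain ⟨rfl, rfl, rfl⟩ := h.U_inj (mul_right_cancel e); rfl
  · exact absurd e (n _ _ _ _ _ _)
  · exact absurd e.symm (n _ _ _ _ _ _)
  · obtain ⟨rfl, rfl, rfl⟩ := h.U_inj (mul_right_cancel e); rfl

theorem ev_inj {x y : Cc} (e : ev d x = ev d y) : x = y := by
  obtain ⟨t, n⟩ := x
  obtain ⟨u, m⟩ := y
  have e' : evT d t * d.p ^ n.val = evT d u * d.p ^ m.val := e
  have o : orderOf d.p = 3 := orderOf_eq_prime (p3' h) (p_ne h)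
  have q : d.p ^ n.val * (d.p ^ m.val)⁻¹ ∈ T1 d := by
    rw [show d.p ^ n.val * (d.p ^ m.val)⁻¹ = (evT d t)⁻¹ * evT d u by
      rw [mul_inv_eq_iff_eq_mul, mul_assoc, ← e', inv_mul_cancel_left]]
    exact mul_mem (inv_mem (evT_mem h t)) (evT_mem h u)
  have q1 := Subgroup.orderOf_dvd_natCard _ q
  have q2 := Subgroup.orderOf_dvd_natCard _
    (mul_mem (pow_mem (mem_zpowers d.p) n.val) (inv_mem (pow_mem (mem_zpowers d.p) m.val)))
  rw [h.card_T1] at q1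
  rw [Nat.card_zpowers, o] at q2
  have q3 : d.p ^ n.val = d.p ^ m.val :=
    mul_inv_eq_one.1 (orderOf_eq_one_iff.1 (Nat.eq_one_of_dvd_coprimes (by norm_num : Nat.Coprime 128 3) q1 q2))
  have q4 : n = m := Fin.ext (pow_injOn_Iio_orderOf (by rw [o]; exact n.2) (by rw [o]; exact m.2) q3)
  subst q4
  rw [evT_inj h (mul_right_cancel e')]

theorem ev_surj {x : A} (hx : x * d.U 0 0 1 = d.U 0 0 1 * x) : ∃ c, ev d c = x := by
  obtain ⟨l, f, k, i, n, rfl⟩ := h.cz x hx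
  refine ⟨⟨⟨l, f, k, decide (i % 2 = 1)⟩, ⟨n % 3, Nat.mod_lt _ (by decide)⟩⟩, ?_⟩
  show d.U l f k * _ * d.p ^ (n % 3) = _
  rw [← pow_eq_pow_mod _ (p3' h), pow_eq_pow_mod i (show d.s ^ 2 = 1 by rw [pow_two, h.s2])]
  rcases Nat.mod_two_eq_zero_or_one i with e | e <;> simp [e]

theorem Uz (l f k : F4) : d.U l f k * d.U 0 0 1 = d.U 0 0 1 * d.U l f k := by
  rw [h.mul, h.mul]
  congr 1 <;> ring

theorem pz' : d.p * d.U 0 0 1 = d.U 0 0 1 * d.p := mul_inv_eq_iff_eq_mul.1 h.pz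

theorem ev_z (c : Cc) : ev d c * d.U 0 0 1 = d.U 0 0 1 * ev d c := by
  refine (Commute.mul_left (Commute.mul_left (Uz h _ _ _) ?_) (Commute.pow_left (pz' h) _)).eq
  cases c.t.i
  · exact Commute.one_left _
  · have := h.sU 0 0 1
    rw [mul_zero, mul_one] at this
    exact mul_inv_eq_iff_eq_mul.1 this

omit h in
def cU (l f k : F4) : Cc := ⟨⟨l, f, k, false⟩, 0⟩
omit h in
def cp : Cc := ⟨t1, 1⟩

omit h [Finite A] in
theorem ev_U (l f k : F4) : ev d (cU l f k) = d.U l f k := by simp [ev, evT, cU]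
theorem ev_p : ev d cp = d.p := by simp [ev, cp, evT_one h]
theorem ev_1 : ev d (cU 0 0 0) = 1 := by rw [ev_U, h.U_one]

theorem L1 {x : A} (hx : x * d.U 0 0 1 = d.U 0 0 1 * x) (h3 : x * x * x = 1) (h1 : x ≠ 1) :
    ∃ y, y * d.U 0 0 1 = d.U 0 0 1 * y ∧ y * d.p = x * y := by
  obtain ⟨c, rfl⟩ := ev_surj h hx
  rw [← ev_mul h, ← ev_mul h, ← ev_1 h] at h3
  obtain ⟨y, hy⟩ := (by decide +kernel : ∀ c : Cc, mu (mu c c) c = cU 0 0 0 → c ≠ cU 0 0 0 →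
    ∃ y : Tc, mu ⟨y, 0⟩ cp = mu c ⟨y, 0⟩) c (ev_inj h h3) (fun e => h1 (by rw [e, ev_1 h]))
  exact ⟨_, ev_z h ⟨y, 0⟩, by rw [← ev_p h, ← ev_mul h, ← ev_mul h, hy]⟩

theorem L2 {x : A} (hx : x * d.U 0 0 1 = d.U 0 0 1 * x) (hp : x * d.p = d.p * x) :
    (x * x = 1 → x = 1 ∨ x = d.U 0 0 1) ∧ (x * x = d.U 0 0 1 → x = d.U F4.w F4.w 0 ∨ x = d.U F4.w F4.w 1) := by
  obtain ⟨c, rfl⟩ := ev_surj h hx
  rw [← ev_p h, ← ev_mul h, ← ev_mul h] at hp
  obtain ⟨k1, k2⟩ := (by decide +kernel : ∀ c : Cc, mu c cp = mu cp c →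
    (mu c c = cU 0 0 0 → c = cU 0 0 0 ∨ c = cU 0 0 1) ∧
      (mu c c = cU 0 0 1 → c = cU F4.w F4.w 0 ∨ c = cU F4.w F4.w 1)) c (ev_inj h hp)
  simp only [← ev_U, ← ev_1 h, ← ev_mul h]
  exact ⟨fun e => (k1 (ev_inj h e)).imp (congrArg _) (congrArg _),
    fun e => (k2 (ev_inj h e)).imp (congrArg _) (congrArg _)⟩

theorem L3 {x : A} (hx : x * d.U 0 0 1 = d.U 0 0 1 * x) (h2 : x * x = 1)
    (h3 : x * d.p * (x * d.p) * (x * d.p) = 1)
    (h4 : x * d.U F4.w F4.w 0 * (x * d.U F4.w F4.w 0) ≠ 1)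
    (h5 : x * d.U F4.w F4.w 0 * (x * d.U F4.w F4.w 0) ≠ d.U 0 0 1) :
    ∃ y, y * d.U 0 0 1 = d.U 0 0 1 * y ∧ y * d.p = d.p * y ∧ y * d.U 0 1 0 = x * y := by
  obtain ⟨c, rfl⟩ := ev_surj h hx
  rw [← ev_p h] at h3 ⊢
  simp only [← ev_U, ← ev_1 h, ← ev_mul h] at h2 h3 h4 h5
  obtain ⟨y, -, k1, k2⟩ := (by decide +kernel : ∀ c : Cc, mu c c = cU 0 0 0 →
    mu (mu (mu c cp) (mu c cp)) (mu c cp) = cU 0 0 0 →
    mu (mu c (cU F4.w F4.w 0)) (mu c (cU F4.w F4.w 0)) ≠ cU 0 0 0 →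
    mu (mu c (cU F4.w F4.w 0)) (mu c (cU F4.w F4.w 0)) ≠ cU 0 0 1 →
    ∃ y ∈ [cU 0 0 0, cp, mu cp cp, cU F4.w F4.w 0, mu cp (cU F4.w F4.w 0), mu (mu cp cp) (cU F4.w F4.w 0)],
      mu y cp = mu cp y ∧ mu y (cU 0 1 0) = mu c y) c (ev_inj h h2) (ev_inj h h3)
    (fun e => h4 (congrArg _ e)) (fun e => h5 (congrArg _ e))
  exact ⟨_, ev_z h y, by rw [← ev_mul h, ← ev_mul h, k1], by rw [← ev_U, ← ev_mul h, ← ev_mul h, k2]⟩

omit h in
/-- an injective endomorphism of `C(z)` -/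
structure Gd (d : AD A) (α : A → A) : Prop where
  c : ∀ x, x * d.U 0 0 1 = d.U 0 0 1 * x → α x * d.U 0 0 1 = d.U 0 0 1 * α x
  m : ∀ x y, x * d.U 0 0 1 = d.U 0 0 1 * x → y * d.U 0 0 1 = d.U 0 0 1 * y → α (x * y) = α x * α y
  i : ∀ x, x * d.U 0 0 1 = d.U 0 0 1 * x → α x = 1 → x = 1

omit h in
/-- the conclusion -/
def Cn (d : AD A) (α : A → A) : Prop :=
  ∃ y, y * d.U 0 0 1 = d.U 0 0 1 * y ∧ α d.p = y * d.p * y⁻¹ ∧ α d.s = y * d.s * y⁻¹ ∧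
    ∀ l f k, l * l = l → f * f = f → α (d.U l f k) = y * d.U l f k * y⁻¹

omit h [Finite A] in
theorem Gd.red {α : A → A} (g : Gd d α) {y : A} (hy : y * d.U 0 0 1 = d.U 0 0 1 * y)
    (k : Gd d (fun x => y⁻¹ * α x * y) → Cn d (fun x => y⁻¹ * α x * y)) : Cn d α := by
  have hy' : Commute y (d.U 0 0 1) := hy
  obtain ⟨u, h1, h2, h3, h4⟩ := k ⟨fun x hx => ((hy'.inv_left.mul_left (g.c x hx)).mul_left hy').eq,
    fun a b ha hb => by rw [g.m a b ha hb]; group, fun x hx e => g.i x hx (by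
      have : α x = y * (y⁻¹ * α x * y) * y⁻¹ := by group
      rw [this, e]; group)⟩
  have t : ∀ a b : A, y⁻¹ * a * y = u * b * u⁻¹ → a = y * u * b * (y * u)⁻¹ := fun a b e => by
    calc a = y * (y⁻¹ * a * y) * y⁻¹ := by group
      _ = _ := by rw [e]; group
  exact ⟨y * u, (hy'.mul_left h1).eq, t _ _ h2, t _ _ h3, fun l f k hl hf => t _ _ (h4 l f k hl hf)⟩

omit h [Finite A] in
theorem Gd.one {α : A → A} (g : Gd d α) : α 1 = 1 := by
  have := g.m 1 1 (by simp) (by simp)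
  rw [mul_one] at this
  exact (mul_eq_left.1 this.symm)

theorem Gd.mu {α : A → A} (g : Gd d α) (a b : Cc) : α (ev d (mu a b)) = α (ev d a) * α (ev d b) := by
  rw [ev_mul h, g.m _ _ (ev_z h a) (ev_z h b)]

theorem Gd.ze {α : A → A} (g : Gd d α) (hp : α d.p = d.p) :
    α (d.U 0 0 1) = d.U 0 0 1 ∧ ∀ k, α (d.U 0 0 (F4.v + k)) =
      α (d.U 0 1 0) * d.U F4.w F4.w 0 * (α (d.U 0 1 0) * d.U F4.w F4.w 0) * α (d.U 0 0 k) := by
  have c : ∀ l f k, AutP.mu (cU l f k) cp = AutP.mu cp (cU l f k) → α (d.U l f k) * d.p = d.p * α (d.U l f k) :=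
    fun l f k e => by rw [← hp, ← ev_p h, ← ev_U, ← g.mu h, ← g.mu h, e]
  have z : α (d.U 0 0 1) = d.U 0 0 1 := by
    refine ((L2 h (g.c _ rfl) (c _ _ _ (by decide +kernel))).1 ?_).resolve_left fun e => ?_
    · rw [← ev_U, ← g.mu h, show AutP.mu (cU 0 0 1) (cU 0 0 1) = cU 0 0 0 by decide +kernel, ev_1 h, g.one]
    · exact absurd (h.inj _ _ _ (g.i _ rfl e)).2.2 (by decide)
  refine ⟨z, fun k => ?_⟩
  have e1 : α (d.U 0 0 (F4.v + k)) = α (d.U 0 1 0) * α (d.U F4.w F4.w 0) * (α (d.U 0 1 0) * α (d.U F4.w F4.w 0)) *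
      α (d.U 0 0 k) := by
    simp only [← ev_U, ← g.mu h]
    rw [(by decide +kernel : ∀ k, AutP.mu (AutP.mu (AutP.mu (cU 0 1 0) (cU F4.w F4.w 0))
      (AutP.mu (cU 0 1 0) (cU F4.w F4.w 0))) (cU 0 0 k) = cU 0 0 (F4.v + k))]
  rw [e1]
  rcases (L2 h (g.c _ (Uz h _ _ _)) (c F4.w F4.w 0 (by decide +kernel))).2 (by
    rw [← ev_U, ← g.mu h, show AutP.mu (cU F4.w F4.w 0) (cU F4.w F4.w 0) = cU 0 0 1 by decide +kernel, ev_U, z])
    with e | e <;> rw [e]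
  have a := g.c _ (Uz h 0 1 0)
  have e2 : d.U F4.w F4.w 1 = d.U F4.w F4.w 0 * d.U 0 0 1 := by rw [h.mul]; rfl
  have e3 : d.U 0 0 1 * d.U 0 0 1 = 1 := by rw [h.mul]; exact h.U_one
  have e4 : Commute (α (d.U 0 1 0) * d.U F4.w F4.w 0) (d.U 0 0 1) := Commute.mul_left a (Uz h _ _ _)
  rw [e2, ← mul_assoc (α _), ← pow_two, e4.mul_pow, pow_two, pow_two, e3, mul_one]

theorem Gd.fin {α : A → A} (g : Gd d α) (hp : α d.p = d.p) (ha : α (d.U 0 1 0) = d.U 0 1 0) : Cn d α := by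
  obtain ⟨z, k⟩ := g.ze h hp
  have m : ∀ {a b : Cc}, α (ev d a) = ev d a → α (ev d b) = ev d b → α (ev d (AutP.mu a b)) = ev d (AutP.mu a b) :=
    fun ea eb => by rw [g.mu h, ea, eb, ev_mul h]
  have v : α (ev d (cU 0 0 F4.v)) = ev d (cU 0 0 F4.v) := by
    have := k 0
    rw [ha, h.U_one, g.one, mul_one, add_zero] at this
    rw [ev_U, this, h.mul, h.mul]; rfl
  rw [← ev_p h] at hp
  rw [← ev_U] at ha z
  have o : α (ev d (cU 0 0 0)) = ev d (cU 0 0 0) := by rw [ev_1 h, g.one]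
  have c : ∀ k, α (ev d (cU 0 0 k)) = ev d (cU 0 0 k) := fun k => by
    cases k
    exacts [o, z, m v z, v]
  have y2 : α (ev d (cU 1 1 0)) = ev d (cU 1 1 0) := m (m (m hp v) hp) hp
  have s : α (ev d ⟨⟨0, 0, 0, true⟩, 0⟩) = ev d ⟨⟨0, 0, 0, true⟩, 0⟩ := m (m (m hp ha) hp) hp
  refine ⟨1, by simp, by simpa [ev_p h] using hp, by simpa [ev, evT, h.U_one] using s, fun l f k hl hf => ?_⟩
  rw [one_mul, inv_one, mul_one, ← ev_U]
  rcases (by decide +kernel : ∀ l f k : F4, l * l = l → f * f = f → cU l f k = cU 0 0 k ∨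
    cU l f k = AutP.mu (cU 0 1 0) (cU 0 0 k) ∨ cU l f k = AutP.mu (cU 1 1 0) (cU 0 0 k) ∨
    cU l f k = AutP.mu (AutP.mu (cU 1 1 0) (cU 0 1 0)) (cU 0 0 k)) l f k hl hf with e | e | e | e <;> rw [e]
  exacts [c k, m ha (c k), m y2 (c k), m (m y2 ha) (c k)]

theorem Gd.mid {α : A → A} (g : Gd d α) (hp : α d.p = d.p) : Cn d α := by
  obtain ⟨z, k⟩ := g.ze h hp
  obtain ⟨y, h1, h2, h3⟩ := L3 h (g.c _ (Uz h 0 1 0))
    (by rw [← ev_U, ← g.mu h, show AutP.mu (cU 0 1 0) (cU 0 1 0) = cU 0 0 0 by decide +kernel, ev_1 h, g.one])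
    (by
      rw [← hp, ← ev_p h, ← ev_U]
      simp only [← g.mu h]
      rw [show AutP.mu (AutP.mu (AutP.mu (cU 0 1 0) cp) (AutP.mu (cU 0 1 0) cp)) (AutP.mu (cU 0 1 0) cp) = cU 0 0 0 by
        decide +kernel, ev_1 h, g.one])
    (fun e => by
      have := k 0
      rw [e, h.U_one, g.one, mul_one] at this
      exact absurd (h.inj _ _ _ (g.i _ (Uz h _ _ _) this)).2.2 (by decide))
    (fun e => by
      have := k 1
      rw [e, z, h.mul] at this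
      exact absurd (h.inj _ _ _ (g.i _ (Uz h _ _ _) (this.trans h.U_one))).2.2 (by decide))
  refine g.red h1 fun g' => g'.fin h ?_ ?_
  · show y⁻¹ * α d.p * y = d.p
    rw [hp, mul_assoc, ← h2, inv_mul_cancel_left]
  · show y⁻¹ * α (d.U 0 1 0) * y = _
    rw [mul_assoc, ← h3, inv_mul_cancel_left]

end AutP

theorem AF.autP (h : AF d) (α : A → A)
    (hC : ∀ x, x * d.U 0 0 1 = d.U 0 0 1 * x → α x * d.U 0 0 1 = d.U 0 0 1 * α x)
    (hm : ∀ x y, x * d.U 0 0 1 = d.U 0 0 1 * x → y * d.U 0 0 1 = d.U 0 0 1 * y →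
      α (x * y) = α x * α y)
    (hi : ∀ x, x * d.U 0 0 1 = d.U 0 0 1 * x → α x = 1 → x = 1) :
    ∃ y, y * d.U 0 0 1 = d.U 0 0 1 * y ∧ α d.p = y * d.p * y⁻¹ ∧ α d.s = y * d.s * y⁻¹ ∧
      ∀ l f k, l * l = l → f * f = f → α (d.U l f k) = y * d.U l f k * y⁻¹ := by
  have g : AutP.Gd d α := ⟨hC, hm, hi⟩
  have pz := AutP.pz' h
  obtain ⟨y, h1, h2⟩ := AutP.L1 h (hC _ pz)
    (by rw [← hm _ _ pz pz, ← hm _ _ (Commute.mul_left pz pz) pz, h.p3, g.one])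
    (fun e => AutP.p_ne h (hi _ pz e))
  refine g.red h1 fun g' => g'.mid h ?_
  show y⁻¹ * α d.p * y = d.p
  rw [mul_assoc, ← h2, inv_mul_cancel_left]

end Cfsg.Agent.MS
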