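import Cfsg.Agent.MS.Defs
import Cfsg.Agent.S0111
import Cfsg.Agent.MS.GenA
import Cfsg.Agent.H91.Root4

/-! notes/MS.md, section GenB. -/

set_option autoImplicit false
set_option linter.unusedSectionVars false

namespace Cfsg.Agent.MS

open Subgroup H42

variable {G : Type*} [Group G] [Finite G]

namespace GenB

/-- the hypotheses after passing to the quotient -/
structure TP (X0 : Subgroup G) (t g s : G) : Prop where
  tX : t ∈ X0
  gX : g ∈ X0
  hs : ∀ x, x ∈ X0 ∨ x * s ∈ X0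
  s1 : s ∈ X0 → s = 1
  t2 : t * t = 1
  g2 : g * g = 1
  s2 : s * s = 1
  tg : t * g = g * t
  st : s * t = t * s
  sg : s * g = g * s
  t1 : t ≠ 1
  g1 : g ≠ 1
  h1 : ∀ x ∈ X0, (∃ k : ℕ, x ^ 2 ^ k = 1) → x * t = t * x → x * g = g * x → x = 1 ∨ x = t ∨ x = g ∨ x = t * g
  h2 : ∀ x, x * t = t * x → x * g * x⁻¹ ≠ t * g
  h3 : ∀ x, x * t * x⁻¹ ≠ g

theorem conj_eq {x y : G} : x * y * x⁻¹ = y ↔ x * y = y * x := mul_inv_eq_iff_eq_mul

namespace TP

variable {X0 S : Subgroup G} {t g s x y : G} (h : TP X0 t g s)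

theorem ti (h : TP X0 t g s) : t⁻¹ = t := inv_eq_of_mul_eq_one_left h.t2
theorem gi (h : TP X0 t g s) : g⁻¹ = g := inv_eq_of_mul_eq_one_left h.g2
theorem tt (h : TP X0 t g s) (x : G) : t * (t * x) = x := by rw [← mul_assoc, h.t2, one_mul]
theorem gg (h : TP X0 t g s) (x : G) : g * (g * x) = x := by rw [← mul_assoc, h.g2, one_mul]
theorem gt (h : TP X0 t g s) (x : G) : g * (t * x) = t * (g * x) := by rw [← mul_assoc, ← h.tg, mul_assoc]

/-- the four-group -/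
def V : Subgroup G where
  carrier := {x | x = 1 ∨ x = t ∨ x = g ∨ x = t * g}
  one_mem' := .inl rfl
  mul_mem' := by
    rintro _ _ (rfl | rfl | rfl | rfl) (rfl | e | e | e) <;> (try rw [e]) <;>
      simp [mul_assoc, h.t2, h.g2, h.tt, h.gg, h.gt, ← h.tg]
  inv_mem' := by rintro _ (rfl | rfl | rfl | rfl) <;> simp [h.ti, h.gi, h.tg]

theorem mem_V : x ∈ h.V ↔ x = 1 ∨ x = t ∨ x = g ∨ x = t * g := Iff.rfl

theorem V_sq (hx : x ∈ h.V) : x * x = 1 := by
  rcases hx with rfl | rfl | rfl | rfl <;> simp [mul_assoc, h.t2, h.g2, h.tt, h.gt]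

include h

theorem normal : X0.Normal := by
  rcases (Nat.dvd_prime Nat.prime_two).1 (index_dvd_two_iff.2 ⟨s, fun b => (h.hs b).symm⟩) with e | e
  exacts [index_eq_one.1 e ▸ inferInstance, normal_of_index_eq_two e]

theorem t_ne_g : t ≠ g := by simpa using h.h3 1

theorem conj_t (hx : x * t * x⁻¹ ∈ h.V) : x * t * x⁻¹ = t ∨ x * t * x⁻¹ = t * g := by
  rcases hx with e | e | e | e
  exacts [absurd (by simpa using e) h.t1, .inl e, absurd e (h.h3 x), .inr e]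

theorem sylV : SylIn 2 h.V (X0 ⊓ centralizer {t}) := by
  have le : h.V ≤ X0 ⊓ centralizer {t} := by
    rintro _ (rfl | rfl | rfl | rfl)
    exacts [one_mem _, ⟨h.tX, mem_centralizer_singleton_iff.2 rfl⟩, ⟨h.gX, mem_centralizer_singleton_iff.2 h.tg.symm⟩,
      ⟨mul_mem h.tX h.gX, mem_centralizer_singleton_iff.2 (by rw [mul_assoc, h.tg])⟩]
  obtain ⟨R, hR, l0⟩ := exists_sylIn (fun x => ⟨1, Subtype.ext (by simpa [pow_two] using h.V_sq x.2)⟩ : IsPGroup 2 h.V) le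
  rcases l0.eq_or_lt with e | e
  · exact e ▸ hR
  obtain ⟨n, hn, nn⟩ := SetLike.exists_of_lt (lt_inf_normalizer hR.isP e)
  have c := mem_centralizer_singleton_iff.1 (hR.le hn.1).2
  refine absurd (h.h1 n (hR.le hn.1).1 ((hR.isP ⟨n, hn.1⟩).imp fun _ hk => congrArg Subtype.val hk) c ?_) nn
  rcases conj_mem_of_mem_normalizer hn.2 (show g ∈ h.V from .inr (.inr (.inl rfl))) with e | e | e | e
  · exact absurd (by simpa using e) h.g1
  · exact absurd (by rw [← e]; group) (h.h3 n⁻¹)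
  · exact conj_eq.1 e
  · exact absurd e (h.h2 n c)

/-- a 2-element of `X₀` commuting with a conjugate of `t` has square one -/
theorem sq_of_comm (hy : y ∈ X0) {k : ℕ} (y2 : y ^ 2 ^ k = 1) (c : y * (x * t * x⁻¹) = x * t * x⁻¹ * y) : y * y = 1 := by
  obtain ⟨a, -, ha⟩ := h.sylV.exists_conj (GenA.isP (x := x⁻¹ * y * x⁻¹⁻¹) (n := k) (by rw [conj_pow, y2]; simp))
    (zpowers_le.2 ⟨h.normal.conj_mem y hy _, mem_centralizer_singleton_iff.2 (by
      rw [show x⁻¹ * y * x⁻¹⁻¹ * t = x⁻¹ * (y * (x * t * x⁻¹)) * x by group, c]; group)⟩)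
  have := h.V_sq (ha _ (mem_zpowers _))
  rwa [conj_mul, conj_mul, conj_eq_one_iff, conj_eq_one_iff] at this

variable (hS : IsPGroup 2 S) (le : h.V ≤ S)
include hS le

theorem cen (hx : x ∈ S ⊓ X0) (c : x * t = t * x) : x ∈ h.V :=
  (h.sylV.eq_of_le (hS.to_inf_left (K := X0 ⊓ centralizer {t})) inf_le_right (le_inf le h.sylV.le)).le
    ⟨hx.1, hx.2, mem_centralizer_singleton_iff.2 c⟩

variable (ne : ¬ S ⊓ X0 ≤ h.V)
include ne

theorem cent_cases (hx : x ∈ S ⊓ X0) (c : ∀ y ∈ S, y * x = x * y) : x = 1 ∨ x = g := by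
  rcases h.cen hS le hx (c t (le (.inr (.inl rfl)))).symm with e | e | e | e
  · exact .inl e
  · exact absurd (fun y hy => h.cen hS le hy (e ▸ c y hy.1)) ne
  · exact .inr e
  obtain ⟨n, hn, nn⟩ := SetLike.exists_of_lt (lt_inf_normalizer (hS.to_inf_left (K := X0))
    (lt_of_le_not_ge (le_inf le (h.sylV.le.trans inf_le_left)) ne))
  rcases h.conj_t (conj_mem_of_mem_normalizer hn.2 (.inr (.inl rfl))) with k | k
  · exact absurd (h.cen hS le hn.1 (conj_eq.1 k)) nn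
  · rw [← e, mul_inv_eq_iff_eq_mul, ← c n hn.1.1, mul_right_inj, e, left_eq_mul] at k
    exact absurd k h.g1

theorem g_cent : ∀ y ∈ S, y * g = g * y := by
  obtain ⟨z, hz, z1, c⟩ := H91.Rt.exists_second_center (Q := S ⊓ X0) (Z := ⊥) hS inf_le_left
    (fun n hn x hx => ⟨mul_mem (mul_mem hn hx.1) (S.inv_mem hn), h.normal.conj_mem x hx.2 n⟩)
    fun e => h.t1 (e ⟨le (.inr (.inl rfl)), h.tX⟩)
  have c' : ∀ y ∈ S, y * z = z * y := fun y hy => conj_eq.1 (mul_inv_eq_one.1 (c y hy))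
  exact (h.cent_cases hS le ne hz c').resolve_left z1 ▸ c'

/-- the case that the four-group is normal -/
theorem of_normal (n : ∀ x ∈ S, x * t * x⁻¹ = t ∨ x * t * x⁻¹ = t * g) :
    ∃ y ∈ S ⊓ X0, y * y = g ∧ ∀ x ∈ S, x * y * x⁻¹ = y ∨ x * y * x⁻¹ = y * g := by
  have gc := h.g_cent hS le ne
  have tS : t ∈ S ⊓ X0 := ⟨le (.inr (.inl rfl)), h.tX⟩
  have mv : ∀ {w}, w ∈ S ⊓ X0 → w ∉ h.V → w * t * w⁻¹ = t * g := fun hw nw =>
    (n _ hw.1).resolve_left fun e => nw (h.cen hS le hw (conj_eq.1 e))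
  have sq : ∀ {w}, w * t * w⁻¹ = t * g → w * t * (w * t) = t * g * (w * w) * t := fun {w} e => by rw [← e]; group
  obtain ⟨y, hy, ny, y2⟩ : ∃ y ∈ S ⊓ X0, y ∉ h.V ∧ y * y = g := by
    obtain ⟨w, hw, nw⟩ := SetLike.not_le_iff_exists.1 ne
    have e := mv hw nw
    have c : w * w * t = t * (w * w) := conj_eq.1 (by
      rw [show w * w * t * (w * w)⁻¹ = w * (w * t * w⁻¹) * w⁻¹ by group, e, ← conj_mul, e, conj_eq.2 (gc w hw.1),
        mul_assoc, h.g2, mul_one])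
    rcases h.cen hS le (mul_mem hw hw) c with k | k | k | k
    · refine ⟨w * t, mul_mem hw tS, fun a => nw ?_, by rw [sq e, k, mul_one, h.tg, mul_assoc, h.t2, mul_one]⟩
      exact (mul_mem_cancel_right (show t ∈ h.V from .inr (.inl rfl))).1 a
    · exact absurd (h.cen hS le hw (by rw [← k, mul_assoc])) nw
    · exact ⟨w, hw, nw, k⟩
    · refine absurd (h.cen hS le hw (mul_right_cancel (b := g) ?_)) nw
      rw [mul_assoc, ← k, mul_assoc t, gc w hw.1, ← mul_assoc t, ← k, mul_assoc]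
  refine ⟨y, hy, y2, fun x hx => ?_⟩
  have e := mv hy ny
  have m : x * y * x⁻¹ ∈ S ⊓ X0 := ⟨mul_mem (mul_mem hx hy.1) (S.inv_mem hx), h.normal.conj_mem y hy.2 x⟩
  have s2 : x * y * x⁻¹ * (x * y * x⁻¹) = g := by rw [conj_mul, y2, conj_eq.2 (gc x hx)]
  have e' := mv m fun a => h.g1 (s2.symm.trans (h.V_sq a))
  have v := h.cen hS le (mul_mem (inv_mem hy) m) (conj_eq.1 (by
    rw [show y⁻¹ * (x * y * x⁻¹) * t * (y⁻¹ * (x * y * x⁻¹))⁻¹ = y⁻¹ * (x * y * x⁻¹ * t * (x * y * x⁻¹)⁻¹) * y by group,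
      e', ← e]; group))
  have yt : y * t * (y * t) = 1 := by rw [sq e, y2, mul_assoc t, h.g2, mul_one, h.t2]
  rcases v with k | k | k | k <;> rw [inv_mul_eq_iff_eq_mul] at k
  · exact .inl (k.trans (mul_one y))
  · exact absurd (by rw [← s2, k, yt]) h.g1
  · exact .inr k
  · refine absurd ?_ h.g1
    rw [← s2, k, ← mul_assoc y t, mul_assoc _ g, ← mul_assoc g, ← gc _ (mul_mem hy tS).1, mul_assoc _ g, h.g2, mul_one, yt]

theorem exists_y : ∃ y ∈ S ⊓ X0, y * y = g ∧ ∀ x ∈ S, x * y * x⁻¹ = y ∨ x * y * x⁻¹ = y * g := by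
  have gc := h.g_cent hS le ne
  have tS : t ∈ S ⊓ X0 := ⟨le (.inr (.inl rfl)), h.tX⟩
  have mz : ∀ {x}, x ∈ zpowers g ↔ x = 1 ∨ x = g := fun {x} => by
    refine ⟨fun ⟨k, e⟩ => ?_, by rintro (rfl | rfl) <;> simp⟩
    have : g ^ (2 : ℤ) = 1 := by rw [zpow_two, h.g2]
    rcases Int.even_or_odd' k with ⟨j, rfl | rfl⟩ <;> simp [← e, zpow_add, zpow_mul, this]
  obtain ⟨y, hy, ny, c⟩ := H91.Rt.exists_second_center (Q := S ⊓ X0) (Z := zpowers g) hS inf_le_left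
    (fun n hn x hx => ⟨mul_mem (mul_mem hn hx.1) (S.inv_mem hn), h.normal.conj_mem x hx.2 n⟩)
    fun e => (mz.1 (e tS)).elim h.t1 h.t_ne_g
  replace c : ∀ x ∈ S, x * y * x⁻¹ = y ∨ x * y * x⁻¹ = y * g := fun x hx =>
    (mz.1 (c x hx)).imp mul_inv_eq_one.1 fun e => by rw [gc y hy.1, mul_inv_eq_iff_eq_mul.1 e]
  have yg : y * g * (y * g) = y * y := by
    rw [mul_assoc, ← mul_assoc g, ← gc y hy.1, mul_assoc, h.g2, mul_one]
  rcases h.cent_cases hS le ne (mul_mem hy hy) fun x hx => conj_eq.1 (by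
    rw [← conj_mul]; rcases c x hx with e | e <;> rw [e]; exact yg) with y2 | y2
  swap
  · exact ⟨y, hy, y2, c⟩
  refine h.of_normal hS le ne ?_
  rcases c t tS.1 with e | e
  · rcases h.cen hS le hy (conj_eq.1 e).symm with k | k | k | k
    · exact absurd (mz.2 (.inl k)) ny
    · exact k ▸ c
    · exact absurd (mz.2 (.inr k)) ny
    · intro x hx
      have := c x hx
      rw [k, ← conj_mul, conj_eq.2 (gc x hx), mul_left_inj, mul_left_inj] at this
      exact this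
  have yi : y⁻¹ = y := inv_eq_of_mul_eq_one_left y2
  have yt : y * t * y⁻¹ = t * g := by
    rw [yi, mul_assoc, mul_inv_eq_iff_eq_mul.1 e, ← mul_assoc, ← mul_assoc, y2, one_mul, h.tg]
  have mN : ∀ {x}, x ∈ S → (x * t * x⁻¹ = t ∨ x * t * x⁻¹ = t * g) → x ∈ S ⊓ normalizer (h.V : Set G) :=
    fun {x} hx a => ⟨hx, mem_normalizer_of_conj_mem (by
      have b := conj_eq.2 (gc x hx)
      rintro _ (rfl | rfl | rfl | rfl)
      · simp
      · exact a.elim (fun a => .inr (.inl a)) fun a => .inr (.inr (.inr a))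
      · exact .inr (.inr (.inl b))
      · rw [← conj_mul, b]
        exact a.elim (fun a => .inr (.inr (.inr (by rw [a])))) fun a => .inr (.inl (by rw [a, mul_assoc, h.g2, mul_one])))⟩
  rcases (inf_le_left : S ⊓ normalizer (h.V : Set G) ≤ S).eq_or_lt with k | k
  · exact fun x hx => h.conj_t (conj_mem_of_mem_normalizer (k.ge hx).2 (.inr (.inl rfl)))
  obtain ⟨x, hx, nx⟩ := SetLike.exists_of_lt (lt_inf_normalizer hS k)
  have m := conj_mem_of_mem_normalizer hx.2 (mN tS.1 (.inl (by group)))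
  have m0 : x * t * x⁻¹ ∈ S ⊓ X0 := ⟨m.1, h.normal.conj_mem t h.tX x⟩
  have s2 : x * t * x⁻¹ * (x * t * x⁻¹) = 1 := by rw [conj_mul, h.t2]; simp
  have nc : ∀ {w}, (w = y ∨ w = y * g) → x * t * x⁻¹ ≠ w := fun {w} a b => by
    have d := c _ (S.inv_mem hx.1)
    have d' := conj_eq.2 (gc _ (S.inv_mem hx.1))
    have : t = y ∨ t = y * g := by
      rw [show t = x⁻¹ * w * x⁻¹⁻¹ by rw [← b]; group]
      rcases a with rfl | rfl
      · exact d
      · rw [← conj_mul, d']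
        exact d.symm.imp (fun d => by rw [d, mul_assoc, h.g2, mul_one]) fun d => by rw [d]
    refine h.g1 ((left_eq_mul (a := t)).1 (Eq.trans ?_ yt))
    rcases this with a | a
    · rw [a]; group
    · rw [a, ← conj_mul, conj_eq.2 (gc y hy.1)]; group
  rcases h.conj_t (conj_mem_of_mem_normalizer m.2 (.inr (.inl rfl))) with a | a
  · exact absurd (mN hx.1 (h.conj_t (h.cen hS le m0 (conj_eq.1 a)))) nx
  have v := h.cen hS le (mul_mem (inv_mem hy) m0) (conj_eq.1 (by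
    rw [show y⁻¹ * (x * t * x⁻¹) * t * (y⁻¹ * (x * t * x⁻¹))⁻¹ = y⁻¹ * (x * t * x⁻¹ * t * (x * t * x⁻¹)⁻¹) * y by group,
      a, ← yt]; group))
  have sq : y * t * (y * t) = g := by
    rw [show y * t * (y * t) = y * t * y⁻¹ * (y * y) * t by group, yt, y2, mul_one, h.tg, mul_assoc, h.t2, mul_one]
  rcases v with b | b | b | b <;> rw [inv_mul_eq_iff_eq_mul] at b
  · exact absurd b (nc (.inl (mul_one y)))
  · exact absurd (by rw [← sq, ← b, s2]) h.g1
  · exact absurd b (nc (.inr rfl))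
  · refine absurd ?_ h.g1
    rw [b, ← mul_assoc y t, mul_assoc _ g, ← mul_assoc g, ← gc _ (mul_mem hy tS).1, mul_assoc _ g, h.g2, mul_one, sq] at s2
    exact s2

omit hS le ne

theorem main : Pt ⊤ t := by
  have sV : s ∈ normalizer (h.V : Set G) := mem_normalizer_of_conj_mem (by
    rintro _ (rfl | rfl | rfl | rfl)
    exacts [by simp, .inr (.inl (conj_eq.2 h.st)), .inr (.inr (.inl (conj_eq.2 h.sg))),
      .inr (.inr (.inr (by rw [← conj_mul, conj_eq.2 h.st, conj_eq.2 h.sg])))])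
  obtain ⟨S, hS, l0⟩ := exists_sylIn ((GenA.isP' h.s2).to_sup_of_normal_right' h.sylV.isP (zpowers_le.2 sV)) le_top
  have le : h.V ≤ S := le_sup_right.trans l0
  have sS : s ∈ S := l0 (mem_sup_left (mem_zpowers s))
  have tS : t ∈ S := le (.inr (.inl rfl))
  suffices ∃ M ≤ S, (∀ b ∈ S, b * t ∈ M ∨ b ∈ M) ∧ ∀ x, x * t * x⁻¹ ∉ M by
    obtain ⟨M, hM, a, b⟩ := this
    have tM : t ∉ M := by simpa using b 1
    refine (GenA.thom hS hM (relIndex_eq_two_iff.2 ⟨t, tS, fun x hx => ?_⟩) tS tM h.t2).resolve_right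
      fun ⟨x, _, e⟩ => b x e
    by_cases e : x ∈ M
    exacts [.inr ⟨e, fun k => tM ((mul_mem_cancel_left e).1 k)⟩, .inl ⟨(a x hx).resolve_right e, e⟩]
  by_cases ne : S ⊓ X0 ≤ h.V
  · have ss : ∀ x, s * (s * x) = x := fun x => by rw [← mul_assoc, h.s2, one_mul]
    have sg : ∀ x, s * (g * x) = g * (s * x) := fun x => by rw [← mul_assoc, h.sg, mul_assoc]
    have si : s⁻¹ = s := inv_eq_of_mul_eq_one_left h.s2
    let M : Subgroup G :=
      { carrier := {x | x = 1 ∨ x = g ∨ x = s ∨ x = g * s}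
        one_mem' := .inl rfl
        mul_mem' := by
          rintro _ _ (rfl | e' | e' | e') (rfl | e | e | e) <;> (try rw [e]) <;> (try rw [e']) <;>
            simp [mul_assoc, h.s2, h.g2, ss, h.gg, sg, h.sg]
        inv_mem' := by rintro _ (rfl | e | e | e) <;> (try rw [e]) <;> simp [si, h.gi, h.sg] }
    have gS : g ∈ S := le (.inr (.inr (.inl rfl)))
    have k : ∀ b ∈ h.V, b * t ∈ M ∨ b ∈ M := by
      rintro _ (rfl | rfl | rfl | rfl)
      exacts [.inr (.inl rfl), .inl (.inl h.t2), .inr (.inr (.inl rfl)),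
        .inl (.inr (.inl (by rw [h.tg, mul_assoc, h.t2, mul_one])))]
    have sM : s ∈ M := .inr (.inr (.inl rfl))
    refine ⟨M, ?_, fun b hb => ?_, fun x e => ?_⟩
    · rintro _ (rfl | rfl | rfl | rfl)
      exacts [one_mem _, gS, sS, mul_mem gS sS]
    · rcases h.hs b with e | e
      · exact k b (ne ⟨hb, e⟩)
      · have := k _ (ne ⟨mul_mem hb sS, e⟩)
        rwa [mul_assoc, h.st, ← mul_assoc, mul_mem_cancel_right sM, mul_mem_cancel_right sM] at this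
    · have m := h.normal.conj_mem t h.tX x
      rcases e with e | e | e | e
      · exact h.t1 (by simpa using e)
      · exact h.h3 x e
      · exact h.t1 (by simpa using e.trans (h.s1 (e ▸ m)))
      · exact h.h3 x (by rw [e, h.s1 ((mul_mem_cancel_left h.gX).1 (e ▸ m)), mul_one])
  obtain ⟨y, hy, y2, c⟩ := h.exists_y hS.isP le ne
  have y4 : y ^ 2 ^ 2 = 1 := by rw [pow_two 2, pow_mul, pow_two, pow_two, y2, h.g2]
  have nc : ∀ x, x * t * x⁻¹ ∉ S ⊓ centralizer {y} := fun x e =>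
    h.g1 (y2.symm.trans (h.sq_of_comm hy.2 y4 (mem_centralizer_singleton_iff.1 e.2).symm))
  refine ⟨_, inf_le_left, fun b hb => ?_, nc⟩
  rcases c b hb with e | e
  · exact .inr ⟨hb, mem_centralizer_singleton_iff.2 (conj_eq.1 e)⟩
  refine .inl ⟨mul_mem hb tS, mem_centralizer_singleton_iff.2 (conj_eq.1 ?_)⟩
  have e' := (c t tS).resolve_left fun a => nc 1 ⟨by simpa using tS, mem_centralizer_singleton_iff.2 (by simpa using conj_eq.1 a)⟩
  rw [show b * t * y * (b * t)⁻¹ = b * (t * y * t⁻¹) * b⁻¹ by group, e', ← conj_mul, e,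
    conj_eq.2 (h.g_cent hS.isP le ne b hb), mul_assoc, h.g2, mul_one]

end TP

end GenB

/-- a self-centralising four-group `⟨t, g⟩` modulo the normal subgroup `K` -/
theorem tplus {X X0 K : Subgroup G} {t g s : G} (hK : K ≤ X0) (h0 : X0 ≤ X)
    (nK : X ≤ normalizer (K : Set G)) (tX : t ∈ X0) (gX : g ∈ X0) (sX : s ∈ X)
    (hs : ∀ x ∈ X, x ∈ X0 ∨ x * s ∈ X0) (t2 : t * t ∈ K) (g2 : g * g ∈ K) (s2 : s * s ∈ K)
    (tg : t * g * t⁻¹ * g⁻¹ ∈ K) (st : s * t * s⁻¹ * t⁻¹ ∈ K) (sg : s * g * s⁻¹ * g⁻¹ ∈ K)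
    (tK : t ∉ K) (gK : g ∉ K)
    (h1 : ∀ x ∈ X0, (∃ k : ℕ, x ^ 2 ^ k ∈ K) → x * t * x⁻¹ * t⁻¹ ∈ K → x * g * x⁻¹ * g⁻¹ ∈ K →
      x ∈ K ∨ x * t ∈ K ∨ x * g ∈ K ∨ x * (t * g) ∈ K)
    (h2 : ∀ x ∈ X, x * t * x⁻¹ * t⁻¹ ∈ K → x * g * x⁻¹ * (t * g)⁻¹ ∉ K)
    (h3 : ∀ x ∈ X, x * t * x⁻¹ * g⁻¹ ∉ K) : Pt X t := by
  wlog s1 : s ∈ X0 → s = 1 generalizing s
  · have e : s ∈ X0 := by_contra fun e => s1 fun k => absurd k e
    exact this (one_mem _) (fun x hx => .inl ((hs x hx).elim id (mul_mem_cancel_right e).1)) (by simp) (by simp)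
      (by simp) fun _ => rfl
  haveI : (K.subgroupOf X).Normal := normal_subgroupOf_of_le_normalizer nK
  let π := QuotientGroup.mk' (K.subgroupOf X)
  have o : ∀ {x : X}, π x = 1 ↔ (x : G) ∈ K := fun {x} => QuotientGroup.eq_one_iff x
  have su : ∀ y, ∃ x, π x = y := QuotientGroup.mk'_surjective _
  have m0 : ∀ {x : X}, π x ∈ (X0.subgroupOf X).map π ↔ (x : G) ∈ X0 := fun {x} => by
    refine ⟨fun ⟨y, hy, e⟩ => ?_, fun e => ⟨x, e, rfl⟩⟩
    have : ((y⁻¹ * x : X) : G) ∈ K := o.1 (by rw [map_mul, map_inv, e, inv_mul_cancel])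
    exact (mul_mem_cancel_left (X0.inv_mem hy)).1 (hK this)
  let t' : X := ⟨t, h0 tX⟩
  let g' : X := ⟨g, h0 gX⟩
  let s' : X := ⟨s, sX⟩
  have cm : ∀ {a b c : X}, π a * π b * (π a)⁻¹ = π c ↔ (a : G) * b * (a : G)⁻¹ * (c : G)⁻¹ ∈ K := fun {a b c} => by
    rw [← mul_inv_eq_one, ← map_inv, ← map_inv, ← map_mul, ← map_mul, ← map_mul, o]; rfl
  have T2 : π t' * π t' = 1 := (map_mul π _ _).symm.trans (o.2 t2)
  have G2 : π g' * π g' = 1 := (map_mul π _ _).symm.trans (o.2 g2)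
  have TG : π t' * π g' = π g' * π t' := GenB.conj_eq.1 (cm.2 tg)
  have iv : ∀ {x y : X}, π y * π y = 1 → (x : G) * y ∈ K → π x = π y := fun {x y} a b =>
    mul_right_cancel (((map_mul π x y).symm.trans (o.2 b)).trans a.symm)
  obtain ⟨M, -, hi, tM⟩ := GenB.TP.main (X0 := (X0.subgroupOf X).map π) (t := π t') (g := π g') (s := π s')
    ⟨m0.2 tX, m0.2 gX, fun y => by
      obtain ⟨x, rfl⟩ := su y
      rw [← map_mul, m0, m0]; exact hs x x.2,
    fun e => by rw [show s' = 1 from Subtype.ext (s1 (m0.1 e)), map_one], T2, G2, (map_mul π _ _).symm.trans (o.2 s2), TG,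
    GenB.conj_eq.1 (cm.2 st), GenB.conj_eq.1 (cm.2 sg), mt o.1 tK, mt o.1 gK, fun y hy ⟨k, hk⟩ a b => by
      obtain ⟨x, rfl⟩ := su y
      refine (h1 x (m0.1 hy) ⟨k, (o (x := x ^ 2 ^ k)).1 (by rwa [map_pow])⟩ (cm.1 (GenB.conj_eq.2 a))
        (cm.1 (GenB.conj_eq.2 b))).imp o.2 (Or.imp (iv T2) (Or.imp (iv G2) fun e => ?_))
      rw [← map_mul]
      refine iv (y := t' * g') ?_ e
      rw [map_mul, mul_assoc, ← mul_assoc (π g'), ← TG, mul_assoc, G2, mul_one, T2],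
    fun y a e => by
      obtain ⟨x, rfl⟩ := su y
      exact h2 x x.2 (cm.1 (GenB.conj_eq.2 a)) ((cm (c := t' * g')).1 (e.trans (map_mul π _ _).symm)),
    fun y e => by
      obtain ⟨x, rfl⟩ := su y
      exact h3 x x.2 (cm.1 e)⟩
  refine ⟨(M.comap π).map X.subtype, map_subtype_le _, ?_, fun e =>
    tM ((mem_map_iff_mem (subtype_injective _) (x := t')).1 e)⟩
  rwa [relIndex, subgroupOf, comap_map_eq_self_of_injective (subtype_injective _), index_comap_of_surjective _ su,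
    ← relIndex_top_right]

end Cfsg.Agent.MS
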