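import Cfsg.Agent.MS.BaseB

/-! notes/MS.md, section Lift. -/

set_option autoImplicit false
set_option linter.unusedSectionVars false

namespace Cfsg.Agent.MS

open Subgroup H29 H42

variable {A G : Type*} [Group A] [Group G] [Finite G] {d : AD A} {ι : A →* G} {t u x : G}
  {O E Q : Subgroup G} {b : F4 → G} {η ν : F4}

namespace Lift

variable {X : Type*} [Group X] [Finite X] {π : G → X} {κ : A →* X} {y z g : G}

/-- the 2-elements that centralise `O` -/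
def Kz (O : Subgroup G) (y : G) : Prop := y ∈ centralizer (O : Set G) ∧ ∃ k : ℕ, y ^ 2 ^ k = 1

theorem Kz.mem (h : Kz O y) : y ∈ normalizer (O : Set G) := centralizer_le_normalizer _ h.1

theorem Kz.one : Kz O 1 := ⟨one_mem _, 0, one_pow _⟩

theorem Kz.conj (h : Kz O y) (hg : g ∈ normalizer (O : Set G)) : Kz O (g * y * g⁻¹) :=
  ⟨conj_mem_of_mem_normalizer (normalizer_le_normalizer_centralizer O hg) h.1,
    h.2.imp fun k e => by rw [conj_pow, e, mul_one, mul_inv_cancel]⟩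

theorem Kz.mul (h : Kz O y) (h' : Kz O z) (c : y * z = z * y) : Kz O (y * z) := by
  obtain ⟨i, hi⟩ := h.2
  obtain ⟨k, hk⟩ := h'.2
  refine ⟨mul_mem h.1 h'.1, i + k, ?_⟩
  rw [Commute.mul_pow c, pow_add, pow_mul, hi, mul_comm (2 ^ i), pow_mul, hk]; simp

/-- the projection as a homomorphism -/
def hom (q : Qt O π) : normalizer (O : Set G) →* X :=
  MonoidHom.mk' (fun x => π x) fun a b => q.mul _ a.2 _ b.2

theorem p_one (q : Qt O π) : π 1 = 1 := map_one (hom q)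

theorem p_inv (q : Qt O π) (hg : g ∈ normalizer (O : Set G)) : π g⁻¹ = (π g)⁻¹ :=
  map_inv (hom q) ⟨g, hg⟩

theorem p_conj (q : Qt O π) (hg : g ∈ normalizer (O : Set G)) (hy : y ∈ normalizer (O : Set G)) :
    π (g * y * g⁻¹) = π g * π y * (π g)⁻¹ := by
  rw [q.mul _ (mul_mem hg hy) _ (inv_mem hg), q.mul _ hg _ hy, p_inv q hg]

theorem uq1 (h : Hy d ι t O) (q : Qt O π) (hy : y ∈ normalizer (O : Set G)) {k : ℕ}
    (y2 : y ^ 2 ^ k = 1) (hz : Kz O z) (e : π y = π z) : y = z := by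
  have ho : y * z⁻¹ ∈ O := (q.ker _ (mul_mem hy (inv_mem hz.mem))).1 (by
    rw [q.mul _ hy _ (inv_mem hz.mem), p_inv q hz.mem, e, mul_inv_cancel])
  obtain ⟨i, hi⟩ := hz.2
  exact mul_inv_eq_one.1 (odd_two (h.oddO ho) (hz.1 _ ho) hi (k := k) (by rwa [inv_mul_cancel_right]))

theorem uq2 (h : Hy d ι t O) (q : Qt O π) (hy : Kz O y) (hz : Kz O z) (e : π y = π z) : y = z :=
  uq1 h q hy.mem hy.2.choose_spec hz e

theorem cj_eq (h : Hy d ι t O) (q : Qt O π) (hg : g ∈ normalizer (O : Set G)) (hy : Kz O y)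
    (hz : Kz O z) (e : π g * π y * (π g)⁻¹ = π z) : g * y * g⁻¹ = z :=
  uq2 h q (hy.conj hg) hz ((p_conj q hg hy.mem).trans e)

theorem comm (h : Hy d ι t O) (q : Qt O π) (hg : g ∈ normalizer (O : Set G)) (hy : Kz O y)
    (e : π g * π y = π y * π g) : g * y = y * g :=
  mul_inv_eq_iff_eq_mul.1 (cj_eq h q hg hy hy (mul_inv_eq_iff_eq_mul.2 e))

/-- the image of `C(O)` -/
def NN (q : Qt O π) : Subgroup X := ((centralizer (O : Set G)).subgroupOf _).map (hom q)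

instance (q : Qt O π) : (NN q).Normal :=
  Normal.map ((normal_subgroupOf_iff_le_normalizer (centralizer_le_normalizer _)).2
    (normalizer_le_normalizer_centralizer O)) _ fun x => (q.surj x).elim fun g k => ⟨⟨g, k.1⟩, k.2⟩

theorem mem_NN (q : Qt O π) (hy : y ∈ centralizer (O : Set G)) : π y ∈ NN q :=
  ⟨⟨y, centralizer_le_normalizer _ hy⟩, hy, rfl⟩

theorem lift (h : Hy d ι t O) (q : Qt O π) {v : X} (hv : v ∈ NN q) {k : ℕ} (e : v ^ 2 ^ k = 1) :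
    ∃ y, Kz O y ∧ π y = v := by
  obtain ⟨y, hy, rfl⟩ := hv
  have ho : ((y ^ 2 ^ k : normalizer (O : Set G)) : G) ∈ O :=
    (q.ker _ (y ^ 2 ^ k).2).1 ((map_pow (hom q) y _).trans e)
  have hc := Nat.ModEq.pow_totient (Nat.Coprime.pow_right k (h.oddO ho).coprime_two_right)
  obtain ⟨m, hm⟩ := Nat.exists_eq_succ_of_ne_zero (Nat.totient_pos.2 (pow_pos two_pos k)).ne'
  set n := orderOf ((y ^ 2 ^ k : normalizer (O : Set G)) : G) with hn
  refine ⟨y ^ n ^ (2 ^ k).totient, ⟨pow_mem hy _, k, ?_⟩, ?_⟩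
  · rw [← pow_mul, mul_comm, pow_mul, hm, pow_succ', pow_mul]
    exact (congrArg (· ^ n ^ m) (pow_orderOf_eq_one _)).trans (one_pow _)
  · refine (map_pow (hom q) y _).trans ?_
    conv_rhs => rw [← pow_one (hom q y)]
    exact pow_eq_pow_iff_modEq.2 (hc.of_dvd (orderOf_dvd_of_pow_eq_one e))

omit [Finite G] in
theorem U4 (h : AF d) (h1 : d.U 0 0 0 = 1) (l f k : F4) : d.U l f k ^ 2 ^ 2 = 1 := by
  have e : ∀ a : F4, a + a = 0 := by decide
  rw [show 2 ^ 2 = 2 * 2 from rfl, pow_mul, pow_two, pow_two, h.mul, h.mul, e, e, e, e, ← h1]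
  simp

theorem cL (h : Hy d ι t O) {l : A} (hl : l ∈ d.L) : ι l ∈ centralizer (O : Set G) :=
  fun o ho => h.OL o ho l hl

theorem kU (h : Hy d ι t O) {l f k : F4} (hl : ι (d.U l f k) ∈ centralizer (O : Set G)) :
    Kz O (ι (d.U l f k)) := by
  have := h.finA
  exact ⟨hl, 2, by rw [← map_pow, U4 h.af h.af.U_one, map_one]⟩

theorem kC (h : Hy d ι t O) (k : F4) : Kz O (ι (d.U 0 0 k)) :=
  kU h (cL h ((h.af.memL _ _ _).2 (by decide)))

theorem kt (h : Hy d ι t O) : Kz O t := ⟨h.Ot, 1, by rw [pow_one, pow_two, h.t2]⟩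

theorem exb (h : Hy d ι t O) (q : Qt O π) (hκ : ∀ l, κ l = π (ι l)) {b' : F4 → X}
    (h' : Hy d κ (π t) ⊥) (w : Bf d κ (π t) b' η) :
    ∃ b, (∀ m, Kz O (b m)) ∧ (∀ m, π (b m) = b' m) ∧ Bf d ι t b η := by
  have := h.finA
  have k1 : ∀ l ∈ d.L, QuotientGroup.mk' (NN q) (κ l) = 1 := fun l hl =>
    (QuotientGroup.eq_one_iff _).2 (hκ l ▸ mem_NN q (cL h hl))
  have k2 : ∀ m, QuotientGroup.mk' (NN q) (b' (F4.w * m)) = QuotientGroup.mk' (NN q) (b' m) :=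
    fun m => by rw [← w.rb, map_mul, map_mul, map_inv, k1 _ h.af.rL]; simp
  have k3 : QuotientGroup.mk' (NN q) (b' 1) = 1 := by
    have e := congrArg (QuotientGroup.mk' (NN q)) (w.mul 1 (F4.w * 1))
    rw [show 1 + F4.w * 1 = F4.w * (F4.w * 1) by decide, map_mul, map_mul, k2, k2,
      k1 _ ((h.af.memL _ _ _).2 (by decide)), mul_one, k2] at e
    exact mul_eq_left.1 e
  have k4 : ∀ m, b' m ∈ NN q := fun m => (QuotientGroup.eq_one_iff _).1 (by
    change QuotientGroup.mk' (NN q) (b' m) = 1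
    rcases (by decide : ∀ m : F4, m = 0 ∨ m = 1 ∨ m = F4.w * 1 ∨ m = F4.w * (F4.w * 1)) m with
      rfl | rfl | rfl | rfl
    · rw [w.b0, map_one]
    · exact k3
    · rw [k2, k3]
    · rw [k2, k2, k3])
  have k5 : ∀ m, b' m ^ 2 ^ 3 = 1 := fun m => by
    rw [pow_succ', pow_mul, pow_two, w.mul, (by decide : ∀ a : F4, a + a = 0), w.b0, one_mul, ← map_pow,
      U4 h.af h.af.U_one, map_one]
  choose b hb pb using fun m => lift h q (k4 m) (k5 m)
  have M := h.memN.2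
  have cU : ∀ m l f k, b m * ι (d.U l f k) = ι (d.U l f k) * b m := fun m l f k =>
    (comm h q (M _) (hb m) (by rw [pb, ← hκ, w.cU])).symm
  have kb : ∀ m k, Kz O (b m * ι (d.U 0 0 k)) := fun m k => (hb m).mul (kC h k) (cU _ _ _ _)
  have pb' : ∀ m l, π (b m * ι l) = b' m * κ l := fun m l => by rw [q.mul _ (hb m).mem _ (M l), pb, hκ]
  refine ⟨b, hb, pb, uq2 h q (hb 0) Kz.one (by rw [pb, w.b0, p_one q]), fun m m' => ?_,
    fun m => cj_eq h q h.memN.1 (hb m) (kb _ _) (by rw [pb, pb', w.tb]), cU,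
    fun m => cj_eq h q (M _) (hb m) (hb _) (by rw [pb, pb, ← hκ, w.sb]),
    fun m => cj_eq h q (M _) (hb m) (hb _) (by rw [pb, pb, ← hκ, w.rb]),
    comm h q (M _) (hb 1) (by rw [pb, ← hκ, w.pb])⟩
  exact uq2 h q ((hb m).mul (hb m') (comm h q (hb m).mem (hb m') (by rw [pb, pb, w.comm]))) (kb _ _)
    (by rw [q.mul _ (hb m).mem _ (hb m').mem, pb, pb, pb', w.mul])

theorem p_gE (h : Hy d ι t O) (q : Qt O π) (hκ : ∀ l, κ l = π (ι l)) {b' : F4 → X}
    (hb : ∀ m, Kz O (b m)) (pb : ∀ m, π (b m) = b' m) : π (gE d ι b) = gE d κ b' := by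
  rw [gE, gE, p_conj q (h.memN.2 _) (hb _).mem, pb, hκ]

end Lift

open Lift

theorem Hy.liftW {X : Type*} [Group X] [Finite X] {π : G → X} {κ : A →* X} (h : Hy d ι t O)
    (q : Qt O π) (hκ : ∀ l, κ l = π (ι l)) {b' : F4 → X} {u' : X} (w : Wf d κ (π t) ⊥ b' u') :
    ∃ b u, Wf d ι t O b u := by
  have := h.finA
  obtain ⟨b, hb, pb, bf⟩ := exb h q hκ w.hy w.bf
  have M := h.memN.2
  have k1 : ∀ l ∈ d.L, QuotientGroup.mk' (NN q) (κ l) = 1 := fun l hl =>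
    (QuotientGroup.eq_one_iff _).2 (hκ l ▸ mem_NN q (cL h hl))
  have k2 : u' ∈ NN q := (QuotientGroup.eq_one_iff _).1 (by
    obtain ⟨k, e⟩ := w.u3
    have e1 := congrArg (QuotientGroup.mk' (NN q)) e
    have e2 := congrArg (QuotientGroup.mk' (NN q)) w.u2
    simp only [map_mul, map_inv, k1 _ h.af.pL, k1 _ ((h.af.memL 0 0 k).2 (by decide)), inv_one, mul_one,
      one_mul, map_one] at e1 e2
    rwa [e2, one_mul] at e1)
  obtain ⟨u, hu, pu⟩ := lift h q k2 (k := 1) (by rw [pow_one, pow_two, w.u2])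
  have hg : Kz O (gE d ι b) := (hb _).conj (M _)
  have pg := p_gE h q hκ hb pb
  have gb : ∀ m, gE d ι b * b m = b m * gE d ι b := fun m =>
    comm h q hg.mem (hb m) (by rw [pg, pb, w.gb])
  have ub : ∀ m, u * b m = b m * u := fun m => comm h q hu.mem (hb m) (by rw [pu, pb, w.ub])
  have uU : ∀ l f k, u * ι (d.U l f k) * u⁻¹ = ι (d.U l f k) * b l := fun l f k => by
    have e := cj_eq h q (inv_mem (M (d.U l f k))) hu ((hb l).mul hu (ub l).symm) (by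
      rw [p_inv q (M _), q.mul _ (hb l).mem _ hu.mem, pb, pu, ← hκ, inv_inv, mul_assoc,
        mul_inv_eq_iff_eq_mul.1 (w.uU l f k)]; group)
    calc _ = ι (d.U l f k) * ((ι (d.U l f k))⁻¹ * u * (ι (d.U l f k))⁻¹⁻¹) * u⁻¹ := by group
      _ = _ := by rw [e]; group
  have uu : u * (ι d.p * u * (ι d.p)⁻¹) = ι d.p * u * (ι d.p)⁻¹ * u :=
    comm h q hu.mem (hu.conj (M _)) (by rw [p_conj q (M _) hu.mem, pu, ← hκ, w.uu])
  refine ⟨b, u, h, bf, fun o ho m => (hb m).1 o ho, hu.1, gb, fun f k => ?_,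
    uq2 h q (hu.mul hu rfl) Kz.one (by rw [q.mul _ hu.mem _ hu.mem, pu, w.u2, p_one q]),
    cj_eq h q hu.mem (kt h) ((kt h).mul (kU h (cL h ((h.af.memL _ _ _).2 (by decide)))) (h.tc _))
      (by rw [q.mul _ h.memN.1 _ (M _), pu, ← hκ, w.ut]), uU, ub,
    (comm h q (M _) hu (by rw [pu, ← hκ, w.ur])).symm, (comm h q (M _) hu (by rw [pu, ← hκ, w.us])).symm,
    (comm h q (M _) hu (by rw [pu, ← hκ, w.uj])).symm, ?_, uu, ?_⟩
  · obtain ⟨k', e⟩ := w.gF f k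
    have e0 : d.U 0 f k' = d.U 0 f k * d.U 0 0 (k + k') := by
      clear e
      rw [h.af.mul]; congr 1 <;> revert f k k' <;> decide
    have c : ι (d.U 0 0 (k + k')) * b f * gE d ι b = gE d ι b * (ι (d.U 0 0 (k + k')) * b f) := by
      rw [← mul_assoc, bf.g_E h, mul_assoc, mul_assoc, gb]
    have kk := (kC h (k + k')).mul (hb f) (bf.cU _ _ _ _).symm
    have e1 := cj_eq h q (inv_mem (M (d.U 0 f k))) hg (kk.mul hg c) (by
      rw [p_inv q (M _), q.mul _ kk.mem _ hg.mem, q.mul _ (M _) _ (hb f).mem, pb, pg, ← hκ, ← hκ, inv_inv,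
        mul_assoc, mul_inv_eq_iff_eq_mul.1 e, e0, map_mul]; group)
    refine ⟨k', ?_⟩
    calc _ = ι (d.U 0 f k) * ((ι (d.U 0 f k))⁻¹ * gE d ι b * (ι (d.U 0 f k))⁻¹⁻¹) * (gE d ι b)⁻¹ := by group
      _ = _ := by rw [e1, e0, map_mul]; group
  · obtain ⟨k, e⟩ := w.gu
    have c := uU 0 0 k
    rw [bf.b0, mul_one, mul_inv_eq_iff_eq_mul] at c
    have kk := hu.mul (hb 1) (ub 1)
    exact ⟨k, cj_eq h q hg.mem hu (kk.mul (kC h k) (by rw [mul_assoc, bf.cU, ← mul_assoc, c, mul_assoc]))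
      (by rw [q.mul _ kk.mem _ (M _), q.mul _ hu.mem _ (hb 1).mem, pg, pu, pb, ← hκ, e])⟩
  · obtain ⟨k, e⟩ := w.u3
    have p3 : (ι d.p)⁻¹ = ι d.p * ι d.p :=
      inv_eq_of_mul_eq_one_left (by rw [← map_mul, ← map_mul, h.af.p3, map_one])
    have k3 : Kz O ((ι d.p)⁻¹ * u * ι d.p) := by simpa only [inv_inv] using hu.conj (inv_mem (M d.p))
    have c1 : Commute u ((ι d.p)⁻¹ * u * ι d.p) := by
      calc u * ((ι d.p)⁻¹ * u * ι d.p) = (ι d.p)⁻¹ * (ι d.p * u * (ι d.p)⁻¹ * u) * ι d.p := by group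
        _ = _ := by rw [← uu]; group
    have c2 : Commute (ι d.p * u * (ι d.p)⁻¹) ((ι d.p)⁻¹ * u * ι d.p) := by
      have e3 : (ι d.p)⁻¹ * u * ι d.p = ι d.p * (ι d.p * u * (ι d.p)⁻¹) * (ι d.p)⁻¹ := by
        rw [show ι d.p * (ι d.p * u * (ι d.p)⁻¹) * (ι d.p)⁻¹ = ι d.p * ι d.p * u * (ι d.p * ι d.p)⁻¹ by
          simp only [mul_inv_rev, mul_assoc], ← p3, inv_inv]
      rw [e3, Commute, SemiconjBy, conj_mul, conj_mul, uu]
    have kk := hu.mul (hu.conj (M d.p)) uu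
    refine ⟨k, uq2 h q (kk.mul k3 (c1.mul_left c2)) (kC h k) ?_⟩
    rw [q.mul _ kk.mem _ k3.mem, q.mul _ hu.mem _ (hu.conj (M _)).mem, p_conj q (M _) hu.mem,
      q.mul _ (mul_mem (inv_mem (M _)) hu.mem) _ (M _), q.mul _ (inv_mem (M _)) _ hu.mem, p_inv q (M _), pu,
      ← hκ, ← hκ, e]

theorem Hy.liftZ {X : Type*} [Group X] [Finite X] {π : G → X} {κ : A →* X} (h : Hy d ι t O)
    (q : Qt O π) (hκ : ∀ l, κ l = π (ι l)) {b' : F4 → X} (w : Zf d κ (π t) ⊥ b') :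
    ∃ b, Zf d ι t O b := by
  have := h.finA
  obtain ⟨b, hb, pb, bf⟩ := exb h q hκ w.hy w.bf
  have M := h.memN.2
  have hg : Kz O (gE d ι b) := (hb _).conj (M _)
  have pg := p_gE h q hκ hb pb
  have hc : ι (d.U 0 F4.v 0) ∈ centralizer (O : Set G) := by
    obtain ⟨k, e⟩ := w.gU 0 F4.v 0
    have h1 : κ (d.U 0 F4.v 0) ∈ NN q := by
      have h3 := (inferInstance : (NN q).Normal).conj_mem _ (e ▸ mul_mem
        (hκ _ ▸ mem_NN q (cL h ((h.af.memL _ _ _).2 (by decide)))) (pb _ ▸ mem_NN q (hb _).1) :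
        gE d κ b' * κ (d.U 0 F4.v 0) * (gE d κ b')⁻¹ ∈ NN q) (gE d κ b')⁻¹
      simpa only [mul_assoc, inv_inv, inv_mul_cancel, mul_one, inv_mul_cancel_left] using h3
    have h2 := U4 h.af h.af.U_one 0 F4.v 0
    obtain ⟨y, hy, e'⟩ := lift h q h1 (k := 2) (by rw [← map_pow, h2, map_one])
    rw [uq1 h q (M _) (k := 2) (by rw [← map_pow, h2, map_one]) hy (by rw [e', hκ])]
    exact hy.1
  have hA : ∀ l, ι l ∈ centralizer (O : Set G) := fun l => by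
    by_cases hl : l ∈ d.L
    · exact cL h hl
    · have := cL h ((mul_mem_iff_of_index_two h.af.idx (a := l) (b := d.U 0 F4.v 0)).2
        (iff_of_false hl (by rw [h.af.memL]; decide)))
      rw [map_mul] at this
      exact (mul_mem_cancel_right hc).1 this
  refine ⟨b, h, bf, fun o ho m => (hb m).1 o ho, fun o ho l => hA l o ho, fun m => ?_, fun l f k => ?_⟩
  · exact cj_eq h q hg.mem (hb m) ((hb m).mul (kC h _) (bf.cU _ _ _ _))
      (by rw [q.mul _ (hb m).mem _ (M _), pg, pb, ← hκ, w.gb])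
  · obtain ⟨k', e⟩ := w.gU l f k
    exact ⟨k', cj_eq h q hg.mem (kU h (hA _)) ((kU h (hA _)).mul (hb _) (bf.cU _ _ _ _).symm)
      (by rw [q.mul _ (M _) _ (hb _).mem, pg, pb, ← hκ, ← hκ, e])⟩

end Cfsg.Agent.MS
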