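import Cfsg.Agent.MS.BaseB
import Cfsg.Agent.MS.GenB

/-! notes/MS.md, section S4: the case of a trivial kernel. -/

set_option autoImplicit false
set_option linter.unusedSectionVars false

namespace Cfsg.Agent.MS

open Subgroup H42

variable {G : Type*} [Group G] [Finite G] {B E : Subgroup G} {t w₁ w₂ σ ρ : G}

theorem S4_le {α : Type*} [Finite α] (φ : α → G) (h : ∀ y ∈ E, ∃ a, y = φ a) : Nat.card E ≤ Nat.card α := by
  choose g hg using h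
  exact Nat.card_le_card_of_injective (fun y : E => g y y.2) fun a b e =>
    Subtype.ext (by rw [hg a a.2, hg b b.2]; exact congrArg φ e)

/-- the commutator subgroup of an involution acting on an elementary abelian group -/
theorem S4_tr (h2 : ∀ x ∈ E, x * x = 1) (t2 : t * t = 1) (nt : t ∈ normalizer (E : Set G)) :
    ∃ R : Subgroup G, R ≤ E ⊓ centralizer {t} ∧
      Nat.card E = Nat.card R * Nat.card (E ⊓ centralizer {t} : Subgroup G) ∧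
      ∀ y, y ∈ R ↔ ∃ e ∈ E, e * t * e⁻¹ = y * t := by
  have hn : ∀ e ∈ E, t * e * t⁻¹ ∈ E := fun e he => conj_mem_of_mem_normalizer nt he
  let f : E →* G := MonoidHom.mk' (fun e => e * (t * e * t⁻¹)) fun a b => by
    rw [coe_mul]
    calc (a : G) * b * (t * (a * b) * t⁻¹) = a * (b * (t * a * t⁻¹)) * (t * b * t⁻¹) := by group
      _ = _ := by rw [BB_comm h2 b.2 (hn a a.2)]; group
  have hf : ∀ e : E, f e * t = e * t * (e : G)⁻¹ := fun e => by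
    rw [inv_eq_of_mul_eq_one_right (h2 e e.2)]
    change (e : G) * (t * e * t⁻¹) * t = _
    group
  refine ⟨f.range, ?_, ?_, fun y => ⟨?_, fun ⟨e, he, h⟩ => ⟨⟨e, he⟩, mul_right_cancel ((hf _).trans h)⟩⟩⟩
  · rintro _ ⟨e, rfl⟩
    refine ⟨E.mul_mem e.2 (hn e e.2), mem_centralizer_singleton_iff.2 (mul_inv_eq_iff_eq_mul.1 ?_).symm⟩
    change t * ((e : G) * (t * e * t⁻¹)) * t⁻¹ = e * (t * e * t⁻¹)
    calc _ = t * e * t⁻¹ * (t * t * e * (t * t)⁻¹) := by group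
      _ = _ := by rw [t2, one_mul, inv_one, mul_one, BB_comm h2 e.2 (hn e e.2)]
  · have hk : f.ker = (E ⊓ centralizer {t}).subgroupOf E := by
      ext e
      rw [MonoidHom.mem_ker, mem_subgroupOf, mem_inf, and_iff_right e.2, mem_centralizer_singleton_iff,
        ← mul_left_inj t, hf, one_mul, mul_inv_eq_iff_eq_mul]
    rw [← f.ker.index_mul_card, index_ker, hk, Nat.card_congr (subgroupOfEquivOfLe inf_le_left).toEquiv]
  · rintro ⟨e, rfl⟩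
    exact ⟨e, e.2, (hf e).symm⟩

/-- the hypotheses in the case of a trivial kernel -/
structure S4H (B : Subgroup G) (t w₁ w₂ σ ρ : G) : Prop where
  w₁B : w₁ ∈ B
  w₂B : w₂ ∈ B
  t2 : t * t = 1
  σ2 : σ * σ = 1
  ρ3 : ρ * ρ * ρ = 1
  σρ : σ * ρ * σ⁻¹ = ρ⁻¹
  tσ : Commute t σ
  tρ : Commute t ρ
  tw₁ : Commute t w₁
  ρ₁ : ρ * w₁ * ρ⁻¹ = w₂
  ρ₂ : ρ * w₂ * ρ⁻¹ = w₁ * w₂
  σ₁ : σ * w₁ * σ⁻¹ = w₁
  σ₂ : σ * w₂ * σ⁻¹ = w₁ * w₂
  ne : w₁ ≠ 1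
  sq : ∀ y ∈ B, y * y = 1
  nt : t ∈ normalizer (B : Set G)
  nσ : σ ∈ normalizer (B : Set G)
  nρ : ρ ∈ normalizer (B : Set G)
  tB : t ∉ B
  big : ∃ y ∈ B, y ∉ closure {w₁, w₂}
  cen : ∀ y, y * t = t * y → y ∈ closure {t, w₁, w₂, σ, ρ}
  ncj : ∀ y, y * t * y⁻¹ ≠ σ
  nB : ∀ y, t ∈ normalizer (cj y B : Set G) → w₁ ∈ cj y B → σ ∉ cj y B

namespace S4H

variable (h : S4H B t w₁ w₂ σ ρ)
include h

theorem tw₂ : Commute t w₂ := h.ρ₁ ▸ (h.tρ.mul_right h.tw₁).mul_right h.tρ.inv_right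

theorem ne₂ : w₂ ≠ 1 := fun e => h.ne (conj_eq_one_iff.1 (h.ρ₁.trans e))

theorem ne₃ : w₁ * w₂ ≠ 1 := fun e => h.ne₂ (conj_eq_one_iff.1 (h.ρ₂.trans e))

theorem ne₁₂ : w₁ ≠ w₂ := fun e => h.ne₃ (e ▸ h.sq _ h.w₁B)

theorem c₁₂ : w₂ * w₁ = w₁ * w₂ := BB_comm h.sq h.w₂B h.w₁B

theorem VB : closure {w₁, w₂} ≤ B := (closure_le _).2 <| by
  rintro _ (rfl | rfl)
  exacts [h.w₁B, h.w₂B]

theorem Vt {w : G} (hw : w ∈ closure {w₁, w₂}) : Commute t w := (BB_cen (by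
  rintro _ (rfl | rfl)
  exacts [h.tw₁.symm, h.tw₂.symm]) w hw).symm

theorem mem_V {w : G} (hw : w ∈ closure {w₁, w₂}) : w = 1 ∨ w = w₁ ∨ w = w₂ ∨ w = w₁ * w₂ := by
  refine BB_ind (P := fun w => w = 1 ∨ w = w₁ ∨ w = w₂ ∨ w = w₁ * w₂) (.inl rfl) ?_ hw
  have a1 := h.sq _ h.w₁B
  have a2 := h.sq _ h.w₂B
  have a3 : w₁ * (w₁ * w₂) = w₂ := by rw [← mul_assoc, a1, one_mul]
  have a4 : w₂ * (w₁ * w₂) = w₁ := by rw [← h.c₁₂, ← mul_assoc, a2, one_mul]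
  intro x hx y hy
  rcases hx with hx | hx <;> rcases hy with hy | hy | hy | hy <;> rw [hx, hy] <;> simp [a1, a2, a3, a4, h.c₁₂]

omit h in
theorem V₁ : w₁ ∈ closure {w₁, w₂} := subset_closure (.inl rfl)

omit h in
theorem V₂ : w₂ ∈ closure {w₁, w₂} := subset_closure (.inr rfl)

theorem card_V : Nat.card (closure {w₁, w₂} : Subgroup G) = 4 := by
  have : ((closure {w₁, w₂} : Subgroup G) : Set G) = {1, w₁, w₂, w₁ * w₂} := by
    ext w
    refine ⟨h.mem_V, ?_⟩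
    rintro (rfl | rfl | rfl | rfl)
    exacts [one_mem _, V₁, V₂, mul_mem V₁ V₂]
  rw [← SetLike.coe_sort_coe, Nat.card_coe_set_eq, this,
    Set.ncard_insert_of_notMem (by simp [h.ne.symm, h.ne₂.symm, h.ne₃.symm]),
    Set.ncard_insert_of_notMem (by simp [h.ne₁₂, h.ne₂]), Set.ncard_pair (by simp [h.ne])]

theorem ρV : ρ ∈ normalizer ((closure {w₁, w₂} : Subgroup G) : Set G) := BB_norm <| by
  rintro _ (rfl | rfl)
  exacts [h.ρ₁.symm ▸ V₂, h.ρ₂.symm ▸ mul_mem V₁ V₂]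

theorem σV : σ ∈ normalizer ((closure {w₁, w₂} : Subgroup G) : Set G) := BB_norm <| by
  rintro _ (rfl | rfl)
  exacts [h.σ₁.symm ▸ V₁, h.σ₂.symm ▸ mul_mem V₁ V₂]

theorem r_facts {r : G} (hr : r = 1 ∨ r = ρ ∨ r = ρ⁻¹) : r * r * r = 1 ∧ σ * r * σ⁻¹ = r⁻¹ ∧ Commute t r ∧
    r ∈ normalizer ((closure {w₁, w₂} : Subgroup G) : Set G) ∧ (r * r ∈ B → r = 1) := by
  have key : ∀ r : G, r * r * r = 1 → r * r ∈ B → r = 1 := fun r h3 hr => by
    have := h.sq _ hr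
    rwa [← mul_assoc, h3, one_mul] at this
  have h3 : ρ⁻¹ * ρ⁻¹ * ρ⁻¹ = 1 := by rw [← mul_inv_rev, ← mul_inv_rev, ← mul_assoc, h.ρ3, inv_one]
  rcases hr with rfl | rfl | rfl
  · simp
  · exact ⟨h.ρ3, h.σρ, h.tρ, h.ρV, key _ h.ρ3⟩
  · exact ⟨h3, by rw [← conj_inv, h.σρ], h.tρ.inv_right, inv_mem h.ρV, key _ h3⟩

theorem nf {y : G} (hy : y * t = t * y) : ∃ τ w r ς, (τ = 1 ∨ τ = t) ∧ w ∈ closure {w₁, w₂} ∧
    (r = 1 ∨ r = ρ ∨ r = ρ⁻¹) ∧ (ς = 1 ∨ ς = σ) ∧ y = τ * w * r * ς := by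
  refine BB_ind (P := fun y => ∃ τ w r ς, (τ = 1 ∨ τ = t) ∧ w ∈ closure {w₁, w₂} ∧
    (r = 1 ∨ r = ρ ∨ r = ρ⁻¹) ∧ (ς = 1 ∨ ς = σ) ∧ y = τ * w * r * ς)
    ⟨1, 1, 1, 1, .inl rfl, one_mem _, .inl rfl, .inl rfl, by simp⟩ ?_ (h.cen y hy)
  rintro x hx _ ⟨τ, w, r, ς, a, b, c, d, rfl⟩
  have hτ : ∀ x, Commute t x → x * τ = τ * x := fun x e => a.elim (by simp [·]) (· ▸ e.symm)
  rcases hx with e | e | e | e | e <;> rw [e]
  · exact ⟨t * τ, w, r, ς, a.symm.imp (by rw [·, h.t2]) (by rw [·, mul_one]), b, c, d, by group⟩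
  · exact ⟨τ, w₁ * w, r, ς, a, mul_mem V₁ b, c, d, by rw [← mul_assoc τ, ← hτ _ h.tw₁]; group⟩
  · exact ⟨τ, w₂ * w, r, ς, a, mul_mem V₂ b, c, d, by rw [← mul_assoc τ, ← hτ _ h.tw₂]; group⟩
  · refine ⟨τ, σ * w * σ⁻¹, σ * r * σ⁻¹, σ * ς, a, conj_mem_of_mem_normalizer h.σV b, ?_,
      d.symm.imp (by rw [·, h.σ2]) (by rw [·, mul_one]), by rw [← mul_assoc τ, ← mul_assoc τ, ← hτ _ h.tσ]; group⟩
    rw [(h.r_facts c).2.1]
    rcases c with rfl | rfl | rfl <;> simp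
  · refine ⟨τ, ρ * w * ρ⁻¹, ρ * r, ς, a, conj_mem_of_mem_normalizer h.ρV b, ?_, d,
      by rw [← mul_assoc τ, ← mul_assoc τ, ← hτ _ h.tρ]; group⟩
    rcases c with rfl | rfl | rfl <;> simp [eq_inv_of_mul_eq_one_left h.ρ3]

theorem cV {y : G} (hy : y * t = t * y) (h1 : Commute y w₁) (h2 : Commute y w₂) :
    ∃ w ∈ closure {w₁, w₂}, y = w ∨ y = t * w := by
  obtain ⟨τ, w, r, ς, a, b, c, d, rfl⟩ := h.nf hy
  have a1 : ∀ x ∈ closure {w₁, w₂}, Commute (τ * w) x := fun x hx =>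
    .mul_left (a.elim (· ▸ .one_left x) (· ▸ h.Vt hx)) (BB_comm h.sq (h.VB b) (h.VB hx))
  have a2 : Commute ς w₁ := d.elim (· ▸ .one_left _) (· ▸ mul_inv_eq_iff_eq_mul.1 h.σ₁)
  have a3 : Commute r w₁ := by simpa [mul_assoc] using ((a1 _ V₁).inv_left.mul_left h1).mul_left a2.inv_left
  have a4 : ¬ Commute ρ w₁ := fun e => h.ne₁₂ (by rw [← h.ρ₁, e.eq, mul_inv_cancel_right])
  obtain rfl : r = 1 := c.elim id fun c => (a4 (c.elim (· ▸ a3) fun e => Commute.inv_left_iff.1 (e ▸ a3))).elim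
  have a5 : Commute ς w₂ := by simpa [mul_assoc] using (a1 _ V₂).inv_left.mul_left h2
  obtain rfl : ς = 1 := d.elim id fun e => (h.ne (by
    rw [← mul_left_inj w₂, ← h.σ₂, ← e, a5.eq, mul_inv_cancel_right, one_mul])).elim
  exact ⟨w, b, a.imp (by simp [·]) (by simp [·])⟩

theorem BV : B ⊓ centralizer {t} = closure {w₁, w₂} := by
  refine le_antisymm (fun y hy => ?_) fun w hw => ⟨h.VB hw, mem_centralizer_singleton_iff.2 (h.Vt hw).symm⟩
  obtain ⟨w, hw, rfl | rfl⟩ := h.cV (mem_centralizer_singleton_iff.1 hy.2) (BB_comm h.sq hy.1 h.w₁B)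
    (BB_comm h.sq hy.1 h.w₂B)
  exacts [hw, (h.tB ((mul_mem_cancel_right (h.VB hw)).1 hy.1)).elim]

theorem tr : Nat.card B = 16 ∧ ∀ w ∈ closure {w₁, w₂}, ∃ e ∈ B, e * t * e⁻¹ = w * t := by
  obtain ⟨R, h1, h2, h3⟩ := S4_tr h.sq h.t2 h.nt
  rw [h.BV] at h1 h2
  have h4 : ∀ w ∈ R, ρ * w * ρ⁻¹ ∈ R := fun w hw => by
    obtain ⟨e, he, h5⟩ := (h3 w).1 hw
    refine (h3 _).2 ⟨_, conj_mem_of_mem_normalizer h.nρ he, ?_⟩
    have h6 : ρ⁻¹ * t * ρ = t := by rw [mul_assoc, h.tρ.eq, inv_mul_cancel_left]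
    calc _ = ρ * (e * (ρ⁻¹ * t * ρ) * e⁻¹) * ρ⁻¹ := by group
      _ = _ := by rw [h6, h5, mul_assoc, mul_assoc, h.tρ.inv_right.eq]; group
  have h5 : w₂ ∈ R ∧ w₁ * w₂ ∈ R := by
    obtain ⟨y, hy, hy'⟩ := h.big
    have h6 : y * t * y⁻¹ * t⁻¹ ∈ R := (h3 _).2 ⟨y, hy, by group⟩
    have a : w₂ ∈ R → w₂ ∈ R ∧ w₁ * w₂ ∈ R := fun e => ⟨e, h.ρ₂ ▸ h4 _ e⟩
    rcases h.mem_V (h1 h6) with e | e | e | e
    · exact (hy' (h.BV ▸ ⟨hy, mem_centralizer_singleton_iff.2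
        (mul_inv_eq_iff_eq_mul.1 (mul_inv_eq_one.1 e))⟩)).elim
    · exact a (h.ρ₁ ▸ h4 _ (e ▸ h6))
    · exact a (e ▸ h6)
    · have := h4 _ (h4 _ (e ▸ h6))
      rw [← conj_mul (a := w₁), h.ρ₁, h.ρ₂, ← h.c₁₂, ← mul_assoc w₂, h.sq _ h.w₂B, one_mul, h.ρ₁] at this
      exact a this
  obtain rfl : R = closure {w₁, w₂} := le_antisymm h1 ((closure_le _).2 <| by
    rintro _ (rfl | rfl)
    exacts [(mul_mem_cancel_right h5.1).1 h5.2, h5.1])
  exact ⟨by rw [h2, h.card_V], fun w hw => (h3 w).1 hw⟩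

theorem Vσ {w : G} (hw : w ∈ closure {w₁, w₂}) (e : σ * w * σ⁻¹ = w) : w = 1 ∨ w = w₁ := by
  have a : σ * w₂ * σ⁻¹ ≠ w₂ := by rw [h.σ₂]; simpa using h.ne
  rcases h.mem_V hw with e' | e' | e' | e'
  exacts [.inl e', .inr e', (a (e' ▸ e)).elim, (a (by rwa [e', ← conj_mul, h.σ₁, mul_right_inj] at e)).elim]

theorem cσ {y : G} (hy : y * t = t * y) (hσ : σ * y * σ⁻¹ = y) : ∃ τ w ς, (τ = 1 ∨ τ = t) ∧ (w = 1 ∨ w = w₁) ∧
    (ς = 1 ∨ ς = σ) ∧ y = τ * w * ς := by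
  obtain ⟨τ, w, r, ς, a, b, c, d, rfl⟩ := h.nf hy
  obtain ⟨-, r2, -, -, r5⟩ := h.r_facts c
  have a1 : σ * τ * σ⁻¹ = τ := a.elim (by simp [·]) (by rw [·, ← h.tσ.eq, mul_inv_cancel_right])
  have a2 : σ * ς * σ⁻¹ = ς := d.elim (by simp [·]) (by simp [·])
  rw [← conj_mul, ← conj_mul, ← conj_mul, a1, a2, r2, mul_left_inj, mul_assoc, mul_assoc τ, mul_right_inj] at hσ
  obtain rfl := r5 (by
    rw [show r * r = w⁻¹ * (w * r) * r by group, ← hσ, mul_assoc, inv_mul_cancel_right]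
    exact mul_mem (inv_mem (h.VB b)) (conj_mem_of_mem_normalizer h.nσ (h.VB b)))
  exact ⟨τ, w, ς, a, h.Vσ b (by simpa using hσ), d, by rw [mul_one]⟩

theorem inv {y : G} (hy : y * t = t * y) (h2 : y * y = 1) : (∃ w ∈ closure {w₁, w₂}, y = w ∨ y = t * w) ∨
    ∃ c, c * t = t * c ∧ (c * y * c⁻¹ = σ ∨ c * y * c⁻¹ = t * σ) := by
  obtain ⟨τ, w, r, ς, a, b, c, d, e⟩ := h.nf hy
  obtain ⟨r1, r2, r3, r4, r5⟩ := h.r_facts c
  have hτ : ∀ x, Commute t x → x * τ = τ * x := fun x e => a.elim (by simp [·]) (· ▸ e.symm)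
  have τ2 : τ * τ = 1 := a.elim (by simp [·]) (by rw [·, h.t2])
  rcases d with d | d <;> rw [d] at e
  · obtain rfl := r5 (by
      have : r * r = (w * (r * w * r⁻¹))⁻¹ := by
        refine eq_inv_of_mul_eq_one_right ?_
        rw [← h2, e, mul_one, mul_assoc τ w r, mul_assoc τ, ← mul_assoc _ τ, hτ _ ((h.Vt b).mul_right r3),
          ← mul_assoc τ, ← mul_assoc τ, τ2]
        group
      rw [this]
      exact inv_mem (h.VB (mul_mem b (conj_mem_of_mem_normalizer r4 b))))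
    exact .inl ⟨w, b, a.imp (by simp [e, ·]) (by simp [e, ·])⟩
  · have b' := conj_mem_of_mem_normalizer r4 b
    have a1 : r * y * r⁻¹ = τ * (r * w * r⁻¹ * σ) :=
      calc _ = r * τ * w * r * (σ * r * σ⁻¹)⁻¹ * σ := by rw [e]; group
        _ = τ * (r * w * r⁻¹ * (r * r * r) * σ) := by rw [r2, hτ _ r3]; group
        _ = _ := by rw [r1, mul_one]
    generalize r * w * r⁻¹ = v at b' a1
    have a2 : v * σ * (v * σ) = 1 := by
      have : r * y * r⁻¹ * (r * y * r⁻¹) = 1 := by rw [conj_mul, h2, mul_one, mul_inv_cancel]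
      rwa [a1, mul_assoc τ, ← mul_assoc _ τ, hτ _ ((h.Vt b').mul_right h.tσ), ← mul_assoc τ, ← mul_assoc τ, τ2,
        one_mul] at this
    have a3 : ∀ c, c * y * c⁻¹ = τ * σ → c * y * c⁻¹ = σ ∨ c * y * c⁻¹ = t * σ := fun c e =>
      a.imp (by simp [e, ·]) (by simp [e, ·])
    rcases h.Vσ b' (by
      rw [inv_eq_of_mul_eq_one_right h.σ2, ← mul_right_inj v, h.sq v (h.VB b'), ← a2]; group) with rfl | rfl
    · exact .inr ⟨r, r3.symm, a3 _ (by rw [a1, one_mul])⟩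
    · refine .inr ⟨w₂ * r, (h.tw₂.mul_right r3).symm, a3 _ ?_⟩
      calc _ = w₂ * (r * y * r⁻¹) * w₂⁻¹ := by group
        _ = w₂ * τ * v * (σ * w₂ * σ⁻¹)⁻¹ * σ := by rw [a1]; group
        _ = _ := by rw [hτ _ h.tw₂, h.σ₂, ← h.c₁₂]; group

theorem rank (h2 : ∀ y ∈ E, y * y = 1) (ht : ∀ y ∈ E, y * t = t * y) : Nat.card E ≤ 8 := by
  by_cases h1 : ∀ y ∈ E, ∃ w ∈ closure {w₁, w₂}, y = w ∨ y = t * w
  · have := S4_le (E := E) (α := closure {w₁, w₂} ⊕ closure {w₁, w₂})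
      (Sum.elim (fun w => (w : G)) fun w => t * (w : G)) fun y hy => by
        obtain ⟨w, hw, e | e⟩ := h1 y hy
        exacts [⟨.inl ⟨w, hw⟩, e⟩, ⟨.inr ⟨w, hw⟩, e⟩]
    rwa [Nat.card_sum, h.card_V] at this
  · push Not at h1
    obtain ⟨y, hy, h1⟩ := h1
    obtain ⟨c, hc, e⟩ := (h.inv (ht y hy) (h2 y hy)).resolve_left fun ⟨w, hw, e⟩ => e.elim (h1 w hw).1 (h1 w hw).2
    have := S4_le (E := cj c E) (fun a : Bool × Bool × Bool => cond a.1 t 1 * cond a.2.1 w₁ 1 * cond a.2.2 σ 1)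
      fun z hz => by
        obtain ⟨x, hx, rfl⟩ : ∃ x ∈ E, c * x * c⁻¹ = z := hz
        have a1 : Commute (c * x * c⁻¹) t :=
          (Commute.mul_left hc (ht x hx)).mul_left (Commute.inv_left hc)
        have a2 : Commute (c * x * c⁻¹) (c * y * c⁻¹) :=
          Commute.map (BB_comm h2 hx hy) (MulAut.conj c)
        have a3 : Commute (c * x * c⁻¹) σ := e.elim (· ▸ a2) fun e => by
          have := a1.inv_right.mul_right (show Commute (c * x * c⁻¹) (t * σ) from e ▸ a2)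
          rwa [inv_mul_cancel_left] at this
        obtain ⟨τ, w, ς, a, b, d, e⟩ := h.cσ a1 (by rw [← a3.eq, mul_inv_cancel_right])
        rw [e]
        have k : ∀ {x y : G}, x = 1 ∨ x = y → ∃ i : Bool, x = cond i y 1 := fun e =>
          e.elim (⟨false, ·⟩) (⟨true, ·⟩)
        obtain ⟨i, rfl⟩ := k a
        obtain ⟨j, rfl⟩ := k b
        obtain ⟨l, rfl⟩ := k d
        exact ⟨(i, j, l), rfl⟩
    rw [card_cj] at this
    simpa using this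

omit h in
theorem sq_cj (h2 : ∀ y ∈ E, y * y = 1) (c : G) : ∀ y ∈ cj c E, y * y = 1 := by
  rintro _ ⟨x, hx, rfl⟩
  rw [← map_mul, h2 x hx, map_one]

theorem ncB (y g : G) : g * t * g⁻¹ ∉ cj y B := fun e => by
  have h1 := sq_cj (sq_cj h.sq y) g⁻¹
  have h2 : t ∈ cj g⁻¹ (cj y B) := by rwa [mem_cj, inv_inv]
  have := h.rank h1 fun x hx => BB_comm h1 hx h2
  rw [card_cj, card_cj, h.tr.1] at this
  omega

theorem ncV (y : G) {w : G} (hw : w ∈ closure {w₁, w₂}) : t * w ∉ cj y B := by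
  obtain ⟨e, -, h1⟩ := h.tr.2 w hw
  rw [(h.Vt hw).eq, ← h1]
  exact h.ncB y e

theorem four {y : G} (hy : t ∈ normalizer (cj y B : Set G)) :
    Nat.card (cj y B ⊓ centralizer {t} : Subgroup G) = 4 ∧
      ∀ v ∈ cj y B ⊓ centralizer {t}, ∃ e ∈ cj y B, e * t * e⁻¹ = v * t := by
  have h1 := sq_cj h.sq y
  obtain ⟨R, h2, h3, h4⟩ := S4_tr h1 h.t2 hy
  rw [card_cj, h.tr.1] at h3
  have h5 := BB_dbl (K := closure (insert t (cj y B ⊓ centralizer {t} : Subgroup G))) (x := t)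
    (H := cj y B ⊓ centralizer {t}) (fun x hx => subset_closure (.inr hx)) (subset_closure (.inl rfl))
    fun e => h.ncB y 1 (by simpa using e.1)
  have h6 : ∀ x ∈ insert t ((cj y B ⊓ centralizer {t} : Subgroup G) : Set G), x * t = t * x := by
    rintro x (rfl | hx)
    exacts [rfl, mem_centralizer_singleton_iff.1 hx.2]
  have h7 := h5.trans (h.rank (BB_elem (fun x hx => hx.elim (by rw [·, h.t2]) fun e => h1 x e.1)
    fun x hx z hz => hx.elim (by rw [·, h6 z hz]) fun e => hz.elim (by rw [·, h6 x hx]) fun e' =>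
      BB_comm h1 e.1 e'.1) (BB_cen h6))
  have h8 := card_le_of_le h2
  have h9 : Nat.card R = 4 ∧ Nat.card (cj y B ⊓ centralizer {t} : Subgroup G) = 4 := by
    generalize Nat.card (cj y B ⊓ centralizer {t} : Subgroup G) = n at *
    generalize Nat.card R = m at *
    have : n ≤ 4 := by omega
    have : m ≤ 4 := by omega
    interval_cases n <;> omega
  rw [eq_of_le_of_card_ge h2 (by omega)] at h4
  exact ⟨h9.2, fun v hv => (h4 v).1 hv⟩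

theorem nσB {y : G} (hy : t ∈ normalizer (cj y B : Set G)) : σ ∉ cj y B := fun hσ => by
  obtain ⟨v, hv, h1⟩ : ∃ v ∈ cj y B ⊓ centralizer {t}, ¬ (v = 1 ∨ v = σ) := by
    by_contra! h1
    have := S4_le (fun i : Bool => cond i σ 1) fun v hv => (h1 v hv).elim (⟨false, ·⟩) (⟨true, ·⟩)
    rw [(h.four hy).1] at this
    simp at this
  obtain ⟨τ, w, ς, a, b, d, rfl⟩ := h.cσ (mem_centralizer_singleton_iff.1 hv.2)
    (by rw [BB_comm (sq_cj h.sq y) hσ hv.1, mul_inv_cancel_right])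
  have h2 : τ * w ∈ cj y B :=
    (mul_mem_cancel_right (show ς ∈ cj y B from d.elim (· ▸ one_mem _) (· ▸ hσ))).1 (mem_inf.1 hv).1
  rcases a with a | a <;> rw [a] at h1 h2
  · rcases b with b | b <;> rw [b] at h1 h2
    · exact h1 (by simpa using d)
    · exact h.nB y hy (by simpa using h2) hσ
  · exact h.ncV y (b.elim (· ▸ one_mem _) (· ▸ V₁)) h2

theorem uniq {y : G} (hy : t ∈ normalizer (cj y B : Set G)) : cj y B = B := by
  obtain ⟨h1, h2⟩ := h.four hy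
  have h3 := sq_cj h.sq y
  have h4 : cj y B ⊓ centralizer {t} = closure {w₁, w₂} := by
    refine eq_of_le_of_card_ge (fun v hv => ?_) (by rw [h1, h.card_V])
    rcases h.inv (mem_centralizer_singleton_iff.1 hv.2) (h3 v hv.1) with ⟨w, hw, e | e⟩ | ⟨c, hc, e | e⟩
    · exact e ▸ hw
    · exact (h.ncV y hw (e ▸ hv.1)).elim
    · refine (h.nσB (y := c * y) ?_ (by rw [← cj_cj, ← e]; exact conj_mem_cj hv.1)).elim
      rw [← cj_eq_iff_mem_normalizer] at hy ⊢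
      rw [cj_cj, ← mul_assoc, ← hc, mul_assoc, ← cj_cj, ← cj_cj, hy, cj_cj]
    · obtain ⟨x, -, hx⟩ := h2 v hv
      refine (h.ncj (c * x) ?_).elim
      calc _ = c * (x * t * x⁻¹) * c⁻¹ := by group
        _ = c * v * c⁻¹ * (c * t * c⁻¹) := by rw [hx, conj_mul]
        _ = _ := by rw [e, hc, mul_inv_cancel_right, h.tσ.eq, mul_assoc, h.t2, mul_one]
  refine eq_of_le_of_card_ge (le_of_big (t := t) h.sq h3 (fun x hx => ?_) ?_) (by rw [card_cj])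
  · obtain ⟨R, a1, -, a3⟩ := S4_tr h3 h.t2 hy
    obtain ⟨e, he, a4⟩ := h.tr.2 _ (h4 ▸ a1 ((a3 (x * t * x⁻¹ * t⁻¹)).2 ⟨x, hx, by group⟩))
    have a5 : ∀ w ∈ closure {w₁, w₂}, Commute (e⁻¹ * x) w := fun w hw =>
      .mul_left (BB_comm h.sq (inv_mem he) (h.VB hw)) (BB_comm h3 hx (h4 ▸ hw : w ∈ cj y B ⊓ centralizer {t}).1)
    obtain ⟨w, hw, a6 | a6⟩ := h.cV (y := e⁻¹ * x) (by
      calc _ = e⁻¹ * (x * t * x⁻¹ * t⁻¹ * t) * x := by group
        _ = _ := by rw [← a4]; group) (a5 _ V₁) (a5 _ V₂) <;> rw [inv_mul_eq_iff_eq_mul] at a6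
    · exact .inl (a6 ▸ mul_mem he (h.VB hw))
    · exact .inr (by rw [a6, (h.Vt hw).eq, mul_assoc, mul_assoc, h.t2, mul_one]; exact mul_mem he (h.VB hw))
  · rw [h.BV, h.card_V, card_cj, h.tr.1]; decide

theorem nfB {x : G} (hx : x * t * x⁻¹ * t⁻¹ ∈ B) : ∃ b ∈ B, ∃ τ r ς, (τ = 1 ∨ τ = t) ∧
    (r = 1 ∨ r = ρ ∨ r = ρ⁻¹) ∧ (ς = 1 ∨ ς = σ) ∧ x = b * τ * r * ς ∧
    ∃ b' ∈ B, x * σ * x⁻¹ * σ⁻¹ = b * (r * r) * b' := by
  have h1 : x * t * x⁻¹ * t⁻¹ ∈ B ⊓ centralizer {t} := ⟨hx, mem_centralizer_singleton_iff.2 <| by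
    have := inv_eq_of_mul_eq_one_right (h.sq _ hx)
    rw [inv_mul_cancel_right, ← this]
    calc _ = t * t * (x * t * x⁻¹) := by rw [h.t2, one_mul]
      _ = t * t * (x * t⁻¹ * x⁻¹) := by rw [inv_eq_of_mul_eq_one_right h.t2]
      _ = _ := by group⟩
  obtain ⟨e, he, h2⟩ := h.tr.2 _ (h.BV ▸ h1)
  obtain ⟨τ, w, r, ς, a, b, c, d, h3⟩ := h.nf (y := e⁻¹ * x) (by
    calc _ = e⁻¹ * (x * t * x⁻¹ * t⁻¹ * t) * x := by group
      _ = _ := by rw [← h2]; group)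
  have hτ : ∀ x, Commute t x → Commute τ x := fun x e => a.elim (· ▸ .one_left x) (· ▸ e)
  obtain ⟨-, r2, r3, -, -⟩ := h.r_facts c
  have hb := mul_mem he (h.VB b)
  have h4 : x = e * w * τ * r * ς := by rw [inv_mul_eq_iff_eq_mul.1 h3, (hτ _ (h.Vt b)).eq]; group
  refine ⟨_, hb, τ, r, ς, a, c, d, h4, _, conj_mem_of_mem_normalizer h.nσ (inv_mem hb), ?_⟩
  have h5 : ς * σ * ς⁻¹ = σ := d.elim (by simp [·]) (by simp [·])
  calc _ = e * w * (τ * (r * (ς * σ * ς⁻¹) * r⁻¹) * τ⁻¹) * (e * w)⁻¹ * σ⁻¹ := by rw [h4]; group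
    _ = e * w * (r * (σ * r * σ⁻¹)⁻¹) * (σ * (e * w)⁻¹ * σ⁻¹) := by
      rw [h5, (hτ _ ((r3.mul_right h.tσ).mul_right r3.inv_right)).eq, mul_inv_cancel_right]; group
    _ = _ := by rw [r2, inv_inv]

theorem pt : Pt ⊤ t := by
  have hC : centralizer {t} ≤ normalizer (B : Set G) := fun y hy =>
    (closure_le _).2 (by
      rintro _ (e | e | e | e | e) <;> rw [e]
      exacts [h.nt, le_normalizer h.w₁B, le_normalizer h.w₂B, h.nσ, h.nρ])
      (h.cen y (mem_centralizer_singleton_iff.1 hy))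
  have σB : σ ∉ B := fun e => h.ne (by
    rw [← mul_left_inj w₂, ← h.σ₂, BB_comm h.sq e h.w₂B, mul_inv_cancel_right, one_mul])
  refine ctrl (M := normalizer (B : Set G)) le_top h.nt h.t2 (fun g _ hg => ⟨g, ?_, rfl⟩)
    (by rw [relIndex_eq_one.2 (inf_le_right.trans hC)]; decide) ?_
  · refine inv_mem_iff.1 (cj_eq_iff_mem_normalizer.1 (h.uniq ?_))
    rw [← cj_normalizer, mem_cj, inv_inv]
    exact hg
  refine tplus (K := B) (g := σ) (s := 1) le_normalizer le_rfl le_rfl h.nt h.nσ (one_mem _) (fun x hx => .inl hx)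
    (h.t2 ▸ one_mem _) (h.σ2 ▸ one_mem _) (by simp) (by simp [h.tσ.eq]) (by simp) (by simp) h.tB σB
    (fun x _ _ h1 h2 => ?_) (fun x _ h1 h2 => ?_) fun x hx h1 => ?_
  · obtain ⟨b, hb, τ, r, ς, a, c, d, e, b', hb', e'⟩ := h.nfB h1
    rw [e', mul_mem_cancel_right hb', mul_mem_cancel_left hb] at h2
    rw [(h.r_facts c).2.2.2.2 h2, mul_one] at e
    rcases a with a | a <;> rcases d with d | d <;> rw [e, a, d]
    · exact .inl (by simpa using hb)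
    · exact .inr (.inr (.inl (by simpa [mul_assoc, h.σ2] using hb)))
    · exact .inr (.inl (by simpa [mul_assoc, h.t2] using hb))
    · refine .inr (.inr (.inr ?_))
      rwa [mul_assoc b, mul_assoc b, h.tσ.symm.mul_mul_mul_comm, h.t2, h.σ2, mul_one, mul_one]
  · obtain ⟨b, hb, τ, r, ς, -, c, -, -, b', hb', e'⟩ := h.nfB h1
    obtain ⟨r1, -, r3, -, -⟩ := h.r_facts c
    rw [mul_inv_rev, ← mul_assoc, e', show b * (r * r) * b' * t⁻¹ = b * (r * r * t⁻¹) * (t * b' * t⁻¹) by group,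
      mul_mem_cancel_right (conj_mem_of_mem_normalizer h.nt hb'), mul_mem_cancel_left hb,
      inv_eq_of_mul_eq_one_right h.t2] at h2
    have h3 := h.sq _ h2
    rw [(r3.mul_right r3).mul_mul_mul_comm, h.t2, mul_one, ← mul_assoc, r1, one_mul] at h3
    exact h.tB (by simpa [h3] using h2)
  · obtain ⟨R, a1, a2, a3⟩ := S4_tr h.sq h.σ2 h.nσ
    have a4 : B ⊓ centralizer {σ} = cj x (B ⊓ centralizer {t}) := by
      ext z
      rw [cj_inf, cj_eq_iff_mem_normalizer.2 hx, mem_inf, mem_inf, and_congr_right_iff, mem_cj,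
        mem_centralizer_singleton_iff, mem_centralizer_singleton_iff]
      intro hz
      have a5 := BB_comm h.sq hz h1
      rw [← mul_right_inj (x * t * x⁻¹ * σ⁻¹), ← mul_assoc, ← a5, mul_assoc z, inv_mul_cancel_right, ← mul_assoc _ σ,
        inv_mul_cancel_right, ← mul_right_inj x⁻¹, ← mul_left_inj x]
      simp only [mul_assoc, inv_mul_cancel, mul_one, inv_mul_cancel_left]
    rw [h.tr.1, a4, card_cj, h.BV, h.card_V] at a2
    rw [eq_of_le_of_card_ge a1 (by rw [a4, card_cj, h.BV, h.card_V]; omega)] at a3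
    obtain ⟨e, -, a5⟩ := (a3 _).1 ⟨h1, mem_centralizer_singleton_iff.2 <| by
      rw [inv_mul_cancel_right, ← inv_eq_of_mul_eq_one_right (h.sq _ h1)]
      calc _ = σ * σ * (x * t * x⁻¹) := by rw [h.σ2, one_mul]
        _ = σ * σ * (x * t⁻¹ * x⁻¹) := by rw [inv_eq_of_mul_eq_one_right h.t2]
        _ = _ := by group⟩
    refine h.ncj (e⁻¹ * x) ?_
    calc _ = e⁻¹ * (x * t * x⁻¹ * σ⁻¹ * σ) * e := by group
      _ = _ := by rw [← a5]; group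

end S4H

end Cfsg.Agent.MS
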