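import Cfsg.Agent.MS.GenA
import Cfsg.Agent.MS.GenB
import Cfsg.Agent.MS.S4a

/-! notes/MS.md, section S4. -/

set_option autoImplicit false

namespace Cfsg.Agent.MS

open Subgroup H42

variable {G : Type*} [Group G] [Finite G]

/-- modulo `K` the centraliser of `t` is `2 × S4` -/
theorem s4d {X K B : Subgroup G} {t w₁ w₂ σ ρ : G} (hK : K ≤ B) (hB : B ≤ X)
    (nK : X ≤ normalizer (K : Set G)) (tX : t ∈ X) (σX : σ ∈ X) (ρX : ρ ∈ X) (w₁B : w₁ ∈ B)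
    (w₂B : w₂ ∈ B) (t2 : t * t = 1) (σ2 : σ * σ = 1) (ρ3 : ρ * ρ * ρ = 1) (σρ : σ * ρ * σ⁻¹ = ρ⁻¹)
    (tσ : t * σ = σ * t) (tρ : t * ρ = ρ * t) (tw₁ : t * w₁ = w₁ * t)
    (ρ₁ : ρ * w₁ * ρ⁻¹ = w₂) (ρ₂ : ρ * w₂ * ρ⁻¹ * (w₁ * w₂)⁻¹ ∈ K) (σ₁ : σ * w₁ * σ⁻¹ = w₁)
    (σ₂ : σ * w₂ * σ⁻¹ * (w₁ * w₂)⁻¹ ∈ K) (w₁K : w₁ ∉ K) (sq : ∀ y ∈ B, y * y ∈ K)
    (nt : t ∈ normalizer (B : Set G)) (nσ : σ ∈ normalizer (B : Set G))
    (nρ : ρ ∈ normalizer (B : Set G)) (tB : t ∉ B)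
    (big : ∃ y ∈ B, y ∉ K ⊔ closure {w₁, w₂})
    (cen : ∀ y ∈ X, y * t * y⁻¹ * t⁻¹ ∈ K → y ∈ K ⊔ closure {t, w₁, w₂, σ, ρ})
    (ncj : ∀ y ∈ X, y * t * y⁻¹ * σ⁻¹ ∉ K)
    (nB : ∀ y ∈ X, t ∈ normalizer (cj y B : Set G) → w₁ ∈ cj y B → σ ∉ cj y B) : Pt X t := by
  have : (K.subgroupOf X).Normal := normal_subgroupOf_of_le_normalizer nK
  let π := QuotientGroup.mk' (K.subgroupOf X)
  have hπ : Function.Surjective π := QuotientGroup.mk'_surjective _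
  have h1 : ∀ x : X, π x = 1 ↔ (x : G) ∈ K := fun x => QuotientGroup.eq_one_iff x
  have h2 : ∀ x y : X, π x = π y ↔ (x : G) * (y : G)⁻¹ ∈ K := fun x y => by
    rw [← mul_inv_eq_one, ← map_inv, ← map_mul, h1]; rfl
  let B' := (B.subgroupOf X).map π
  have h3 : ∀ x : X, π x ∈ B' ↔ (x : G) ∈ B := fun x => ⟨fun ⟨y, hy, e⟩ =>
    inv_mem_iff.1 ((mul_mem_cancel_left (show (y : G) ∈ B from hy)).1 (hK ((h2 _ _).1 e))), fun hx => ⟨x, hx, rfl⟩⟩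
  have h4 : ∀ x y : X, π x ∈ cj (π y) B' ↔ (x : G) ∈ cj (y : G) B := fun x y => by
    rw [mem_cj, mem_cj, ← map_inv, ← map_mul, ← map_mul, h3]; rfl
  have h5 : ∀ x : X, (x : G) ∈ normalizer (B : Set G) → π x ∈ normalizer (B' : Set _) := fun x hx =>
    mem_normalizer_of_conj_mem <| by
      rintro _ ⟨y, hy, rfl⟩
      rw [← map_inv, ← map_mul, ← map_mul, h3]
      exact conj_mem_of_mem_normalizer hx hy
  have H : S4H B' (π ⟨t, tX⟩) (π ⟨w₁, hB w₁B⟩) (π ⟨w₂, hB w₂B⟩) (π ⟨σ, σX⟩) (π ⟨ρ, ρX⟩) := by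
    refine ⟨(h3 _).2 w₁B, (h3 _).2 w₂B, ?_, ?_, ?_, ?_, ?_, ?_, ?_, ?_, ?_, ?_, ?_, fun e => w₁K ((h1 _).1 e), ?_,
      h5 _ nt, h5 _ nσ, h5 _ nρ, fun e => tB ((h3 _).1 e), ?_, fun y hy => ?_, fun y hy => ?_, fun y a b c => ?_⟩
    · exact (map_mul ..).symm.trans ((congrArg π (Subtype.ext t2)).trans (map_one π))
    · exact (map_mul ..).symm.trans ((congrArg π (Subtype.ext σ2)).trans (map_one π))
    · rw [← map_mul, ← map_mul]; exact (congrArg π (Subtype.ext ρ3)).trans (map_one π)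
    · rw [← map_inv, ← map_mul, ← map_mul]; exact congrArg π (Subtype.ext σρ)
    · exact Commute.map (Subtype.ext tσ) π
    · exact Commute.map (Subtype.ext tρ) π
    · exact Commute.map (Subtype.ext tw₁) π
    · rw [← map_inv, ← map_mul, ← map_mul]; exact congrArg π (Subtype.ext ρ₁)
    · rw [← map_inv, ← map_mul, ← map_mul, ← map_mul, h2]; exact ρ₂
    · rw [← map_inv, ← map_mul, ← map_mul]; exact congrArg π (Subtype.ext σ₁)
    · rw [← map_inv, ← map_mul, ← map_mul, ← map_mul, h2]; exact σ₂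
    · rintro _ ⟨y, hy, rfl⟩
      rw [← map_mul, h1]; exact sq y hy
    · obtain ⟨y, hy, hy'⟩ := big
      refine ⟨π ⟨y, hB hy⟩, (h3 _).2 hy, fun e => hy' ?_⟩
      rw [← Set.image_pair, ← MonoidHom.map_closure] at e
      obtain ⟨z, hz, e⟩ := e
      have : (z : G) ∈ closure {w₁, w₂} := by
        have := mem_map_of_mem X.subtype hz
        rwa [MonoidHom.map_closure, Set.image_pair] at this
      simpa using mul_mem (mem_sup_left ((h2 _ _).1 e.symm)) (mem_sup_right this)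
    · obtain ⟨y, rfl⟩ := hπ y
      have a : K ⊔ closure {t, w₁, w₂, σ, ρ} ≤ ((closure {π ⟨t, tX⟩, π ⟨w₁, hB w₁B⟩, π ⟨w₂, hB w₂B⟩, π ⟨σ, σX⟩,
          π ⟨ρ, ρX⟩}).comap π).map X.subtype := by
        refine sup_le (fun k hk => ⟨⟨k, hB (hK hk)⟩, ?_, rfl⟩) ((closure_le _).2 ?_)
        · exact mem_comap.2 ((h1 ⟨k, hB (hK hk)⟩).2 hk ▸ one_mem _)
        · rintro _ (e | e | e | e | e) <;> rw [e]
          exacts [⟨⟨t, tX⟩, subset_closure (by simp), rfl⟩, ⟨⟨w₁, hB w₁B⟩, subset_closure (by simp), rfl⟩,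
            ⟨⟨w₂, hB w₂B⟩, subset_closure (by simp), rfl⟩, ⟨⟨σ, σX⟩, subset_closure (by simp), rfl⟩,
            ⟨⟨ρ, ρX⟩, subset_closure (by simp), rfl⟩]
      rw [← mul_inv_eq_iff_eq_mul, ← map_inv, ← map_mul, ← map_mul, h2] at hy
      exact (mem_map_iff_mem (subtype_injective X)).1 (a (cen y y.2 hy))
    · obtain ⟨y, rfl⟩ := hπ y
      rw [← map_inv, ← map_mul, ← map_mul, h2] at hy
      exact ncj y y.2 hy
    · obtain ⟨y, rfl⟩ := hπ y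
      refine nB y y.2 (mem_normalizer_of_conj_mem fun z hz => ?_) ((h4 _ _).1 b) ((h4 _ _).1 c)
      have zX : z ∈ X := cj_le_iff.2 (fun x hx => mul_mem (mul_mem y.2 (hB hx)) (inv_mem y.2)) hz
      have := conj_mem_of_mem_normalizer a ((h4 ⟨z, zX⟩ y).2 hz)
      rwa [← map_inv, ← map_mul, ← map_mul, h4] at this
  obtain ⟨M, -, hM, tM⟩ := H.pt
  refine ⟨(M.comap π).map X.subtype, map_subtype_le _, ?_, fun e =>
    tM ((mem_map_iff_mem (x := (⟨t, tX⟩ : X)) (subtype_injective X)).1 e)⟩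
  rwa [relIndex, subgroupOf, comap_map_eq_self_of_injective (subtype_injective _), index_comap_of_surjective _ hπ,
    ← relIndex_top_right]

end Cfsg.Agent.MS
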