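import Cfsg.Agent.MS.BaseB

/-! notes/MS.md, section W16a. -/

set_option autoImplicit false

namespace Cfsg.Agent.MS

open Subgroup H29 H42

variable {A G : Type*} [Group A] [Group G] [Finite G] {d : AD A} {ι : A →* G} {t u x : G}
  {O E Q : Subgroup G} {b : F4 → G} {η ν : F4}

namespace W16a

omit [Finite G] in
theorem comm_of_sq (h2 : ∀ y ∈ E, y * y = 1) {y y' : G} (hy : y ∈ E) (hy' : y' ∈ E) :
    y * y' = y' * y := by
  have a1 := h2 _ (E.mul_mem hy hy')
  have a2 := h2 _ hy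
  have a3 := h2 _ hy'
  calc y * y' = y * (y * y' * (y * y')) * y' := by rw [a1, mul_one]
    _ = (y * y) * y' * y * (y' * y') := by group
    _ = y' * y := by rw [a2, a3, one_mul, mul_one]

omit [Finite G] in
theorem conj_eq {g y : G} (e : g * y = y * g) : g * y * g⁻¹ = y := by
  rw [e, mul_inv_cancel_right]

omit [Finite G] in
theorem F_mem (f k : F4) : ι (d.U 0 f k) ∈ E7 d ι b u :=
  subset_closure (Or.inl (Or.inl ⟨f, k, rfl⟩))

omit [Finite G] in
theorem b_mem (m : F4) : b m ∈ E7 d ι b u := subset_closure (Or.inl (Or.inr ⟨m, rfl⟩))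

theorem UU (h : Hy d ι t O) (f k f' k' : F4) :
    ι (d.U 0 f k) * ι (d.U 0 f' k') = ι (d.U 0 (f + f') (k + k')) := by
  rw [← map_mul, h.af.mul]
  simp

theorem U1 (h : Hy d ι t O) : ι (d.U 0 0 0) = 1 := by
  have := h.finA
  rw [h.af.U_one, map_one]

theorem tb_ne (h : Wf d ι t O b u) : t * b 1 ≠ b 1 * t := by
  intro e
  have a1 := h.bf.tb 1
  rw [conj_eq e] at a1
  have a2 : ι (d.U 0 0 1) = ι 1 := by
    rw [map_one]
    exact (mul_eq_left.1 a1.symm)
  exact absurd (h.hy.af.inj _ _ _ (h.hy.inj a2)).2.2 (by decide)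

/-- the group generated by `E7` and a centralising involution -/
def EE (E : Subgroup G) (x : G) (hx : ∀ e ∈ E, x * e = e * x) (x2 : x * x = 1) : Subgroup G where
  carrier := {y | ∃ e ∈ E, y = e ∨ y = x * e}
  mul_mem' := by
    rintro _ _ ⟨e, he, rfl | rfl⟩ ⟨e', he', rfl | rfl⟩
    · exact ⟨_, E.mul_mem he he', Or.inl rfl⟩
    · exact ⟨_, E.mul_mem he he', Or.inr (by rw [← mul_assoc, ← hx _ he, mul_assoc])⟩
    · exact ⟨_, E.mul_mem he he', Or.inr (mul_assoc _ _ _)⟩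
    · refine ⟨_, E.mul_mem he he', Or.inl ?_⟩
      rw [hx _ he, mul_assoc, ← mul_assoc x, x2, one_mul]
  one_mem' := ⟨1, E.one_mem, Or.inl rfl⟩
  inv_mem' := by
    rintro _ ⟨e, he, rfl | rfl⟩
    · exact ⟨_, E.inv_mem he, Or.inl rfl⟩
    · refine ⟨_, E.inv_mem he, Or.inr ?_⟩
      rw [mul_inv_rev, inv_eq_of_mul_eq_one_right x2, hx _ (E.inv_mem he)]

omit [Finite G] in
theorem pow_mul_norm {e n : G} (he : e ∈ E) (hn : n ∈ normalizer (E : Set G)) (j : ℕ) :
    ∃ e' ∈ E, (e * n) ^ j = e' * n ^ j := by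
  induction j with
  | zero => exact ⟨1, E.one_mem, by simp⟩
  | succ j ih =>
    obtain ⟨e', he', q⟩ := ih
    refine ⟨e * (n * e' * n⁻¹), E.mul_mem he (conj_mem_of_mem_normalizer hn he'), ?_⟩
    rw [pow_succ', q, pow_succ']
    group

theorem core (h : Wf d ι t O b u) (hc : ∀ e ∈ E7 d ι b u, x * e = e * x)
    (xt : x * t * x⁻¹ = t * ι (d.U 0 F4.v 0)) (x2 : ∃ f k, x * x = ι (d.U 0 f k))
    (xU : ∀ l f k, ∃ y ∈ E7 d ι b u, ι (d.U l f k) * x * (ι (d.U l f k))⁻¹ = x * y ∨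
      ι (d.U l f k) * x * (ι (d.U l f k))⁻¹ = x * y * t)
    (xr : ∃ y ∈ E7 d ι b u, ι d.r * x * (ι d.r)⁻¹ = x * y ∨ ι d.r * x * (ι d.r)⁻¹ = x * y * t)
    (xs : ∃ y ∈ E7 d ι b u, ι d.s * x * (ι d.s)⁻¹ = x * y ∨ ι d.s * x * (ι d.s)⁻¹ = x * y * t) :
    ∃ E, Ef d ι t O b u E := by
  have hA := h.hy.finA
  have hy := h.hy
  have sq7 := h.sq_E7
  obtain ⟨n1, n2, n3, n4, n5⟩ := h.n_E7
  have key : ∀ l ∈ normalizer (E7 d ι b u : Set G),
      (∃ y ∈ E7 d ι b u, l * x * l⁻¹ = x * y ∨ l * x * l⁻¹ = x * y * t) →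
      ∃ y ∈ E7 d ι b u, l * x * l⁻¹ = x * y := by
    rintro l hl ⟨y, hy7, e | e⟩
    · exact ⟨y, hy7, e⟩
    exfalso
    apply tb_ne h
    have a1 := hc _ (conj_mem_of_mem_normalizer (inv_mem hl) (b_mem (d := d) (ι := ι) (u := u) 1))
    have a2 : l * x * l⁻¹ * b 1 = b 1 * (l * x * l⁻¹) := by
      calc l * x * l⁻¹ * b 1 = l * (x * (l⁻¹ * b 1 * l⁻¹⁻¹)) * l⁻¹ := by group
        _ = b 1 * (l * x * l⁻¹) := by rw [a1]; group
    have a3 := hc _ (b_mem (d := d) (ι := ι) (u := u) 1)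
    have a4 := comm_of_sq sq7 hy7 (b_mem (d := d) (ι := ι) (u := u) 1)
    rw [e] at a2
    have a5 : b 1 * (x * y * t) = x * y * (b 1 * t) := by
      rw [← mul_assoc, ← mul_assoc, ← a3, mul_assoc x, ← a4]; group
    rw [a5, mul_assoc (x * y)] at a2
    exact mul_left_cancel a2
  have sqc : ∀ l y, y ∈ E7 d ι b u → l * x * l⁻¹ = x * y → l * (x * x) * l⁻¹ = x * x := by
    intro l y hy7 e
    calc l * (x * x) * l⁻¹ = (l * x * l⁻¹) * (l * x * l⁻¹) := by group
      _ = x * (y * x) * y := by rw [e]; group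
      _ = x * x * (y * y) := by rw [← hc _ hy7]; group
      _ = x * x := by rw [sq7 _ hy7, mul_one]
  have xx : x * x = 1 := by
    obtain ⟨f, k, e⟩ := x2
    obtain ⟨y, hy7, q⟩ := key _ (n2 1 0 0) (xU 1 0 0)
    have a1 := sqc _ _ hy7 q
    obtain ⟨y', hy7', q'⟩ := key _ n4 xr
    have a2 := sqc _ _ hy7' q'
    rw [e, ← map_inv, ← map_mul, ← map_mul] at a1 a2
    rw [hy.af.U_conj] at a1
    rw [hy.af.rU] at a2
    have b1 := (hy.af.U_inj (hy.inj a1)).2.2
    have b2 := (hy.af.U_inj (hy.inj a2)).2.2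
    have : ∀ f k : F4, k + 0 * 0 + 1 * f = k → F4.w * k = k → f = 0 ∧ k = 0 := by decide
    obtain ⟨rfl, rfl⟩ := this f k b1 b2
    rw [e, U1 hy]
  let E := EE (E7 d ι b u) x hc xx
  have hle : E7 d ι b u ≤ E := fun e he => ⟨e, he, Or.inl rfl⟩
  have hxE : x ∈ E := ⟨1, one_mem _, Or.inr (mul_one x).symm⟩
  have sqE : ∀ y ∈ E, y * y = 1 := by
    rintro _ ⟨e, he, rfl | rfl⟩
    · exact sq7 _ he
    · calc x * e * (x * e) = x * (e * x) * e := by group
        _ = x * x * (e * e) := by rw [← hc _ he]; group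
        _ = 1 := by rw [xx, sq7 _ he, mul_one]
  have nE : ∀ l ∈ normalizer (E7 d ι b u : Set G), (∃ y ∈ E7 d ι b u, l * x * l⁻¹ = x * y) →
      l ∈ normalizer (E : Set G) := by
    rintro l hl ⟨y, hy7, q⟩
    refine mem_normalizer_of_conj_mem ?_
    rintro _ ⟨e, he, rfl | rfl⟩
    · exact hle (conj_mem_of_mem_normalizer hl he)
    · have : l * (x * e) * l⁻¹ = x * y * (l * e * l⁻¹) := by rw [← q]; group
      rw [this]
      exact E.mul_mem (E.mul_mem hxE (hle hy7)) (hle (conj_mem_of_mem_normalizer hl he))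
  have ti : t⁻¹ = t := inv_eq_of_mul_eq_one_right hy.t2
  have nt : t ∈ normalizer (E : Set G) := by
    refine nE t n1 ⟨_, F_mem F4.v 0, ?_⟩
    calc t * x * t⁻¹ = t⁻¹ * (x * t * x⁻¹) * x := by rw [ti]; group
      _ = x * ι (d.U 0 F4.v 0) := by rw [xt, hc _ (F_mem F4.v 0)]; group
  have tr : ∀ f k, ∃ y ∈ E, y * t * y⁻¹ = t * ι (d.U 0 f k) := by
    intro f k
    by_cases hf : f * f = f
    · obtain ⟨y, hy7, e⟩ := h.tr_E7 hf k
      exact ⟨y, hle hy7, e⟩
    · have : ∀ f : F4, f * f ≠ f → (F4.v + f) * (F4.v + f) = F4.v + f ∧ F4.v + (F4.v + f) = f := by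
        decide
      obtain ⟨y, hy7, e⟩ := h.tr_E7 (this f hf).1 k
      refine ⟨x * y, E.mul_mem hxE (hle hy7), ?_⟩
      calc x * y * t * (x * y)⁻¹ = x * (y * t * y⁻¹) * x⁻¹ := by group
        _ = (x * t * x⁻¹) * (x * ι (d.U 0 (F4.v + f) k) * x⁻¹) := by rw [e]; group
        _ = t * ι (d.U 0 f k) := by
          rw [xt, conj_eq (hc _ (F_mem _ _)), mul_assoc, UU hy, (this f hf).2, zero_add]
  have h2E : IsPGroup 2 E := fun y => ⟨1, Subtype.ext (by
    rw [pow_one, pow_two]; exact sqE _ y.2)⟩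
  have hEH : E ≤ centralizer (E7 d ι b u : Set G) := fun y hyE e he => comm_of_sq sqE (hle he) hyE
  refine ⟨E, h, sqE, hle, nt, fun l f k => nE _ (n2 l f k) (key _ (n2 l f k) (xU l f k)),
    nE _ n3 (key _ n3 xs), nE _ n4 (key _ n4 xr), ?_, fun f k _ => tr f k, ?_⟩
  · obtain ⟨y, hy7, q⟩ := key _ n4 xr
    have hyB : y ∈ B0 d ι b := by
      obtain ⟨y', hy', q'⟩ := h.r_E7 y hy7
      have hy'' : ι d.r * y' * (ι d.r)⁻¹ ∈ B0 d ι b := by
        obtain ⟨k, m, rfl⟩ := (h.bf.mem_B0 hy).1 hy'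
        refine (h.bf.mem_B0 hy).2 ⟨F4.w * k, F4.w * m, ?_⟩
        have := congrArg ι (hy.af.rU 0 0 k)
        rw [map_mul, map_mul, map_inv, mul_zero] at this
        rw [← this, ← h.bf.rb]
        group
      have r3 : ι d.r * ι d.r * ι d.r = 1 := by rw [← map_mul, ← map_mul, hy.af.r3, map_one]
      have c1 : ι d.r * (ι d.r * x * (ι d.r)⁻¹) * (ι d.r)⁻¹ = x * y * (y * y') := by
        calc _ = ι d.r * (x * y) * (ι d.r)⁻¹ := by rw [q]
          _ = (ι d.r * x * (ι d.r)⁻¹) * (ι d.r * y * (ι d.r)⁻¹) := by group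
          _ = _ := by rw [q, q']
      have c2 : x * y * (y * y') = x * y' := by
        rw [mul_assoc x, ← mul_assoc y, sq7 _ hy7, one_mul]
      have c3 : ι d.r * (x * y') * (ι d.r)⁻¹ = x := by
        rw [← c2, ← c1]
        calc _ = (ι d.r * ι d.r * ι d.r) * x * (ι d.r * ι d.r * ι d.r)⁻¹ := by group
          _ = x := by rw [r3]; group
      have c4 : x * (y * (ι d.r * y' * (ι d.r)⁻¹)) = x * 1 := by
        rw [mul_one, ← mul_assoc, ← q]
        nth_rewrite 2 [← c3]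
        group
      rw [eq_inv_of_mul_eq_one_left (mul_left_cancel c4)]
      exact inv_mem hy''
    rintro _ ⟨e, he, rfl | rfl⟩
    · exact h.r_E7 _ he
    · obtain ⟨y', hy', q'⟩ := h.r_E7 e he
      refine ⟨y * y', mul_mem hyB hy', ?_⟩
      calc ι d.r * (x * e) * (ι d.r)⁻¹ = (ι d.r * x * (ι d.r)⁻¹) * (ι d.r * e * (ι d.r)⁻¹) := by group
        _ = x * (y * e) * y' := by rw [q, q']; group
        _ = x * e * (y * y') := by rw [comm_of_sq sq7 hy7 he]; group
  · have hS : SylIn 2 E (centralizer (E7 d ι b u : Set G)) := by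
      refine syl_of_inv hEH h2E hy.t2 (normalizer_le_normalizer_centralizer _ n1) nt ?_
      rintro n hn hnE ⟨j, hj⟩ he
      have a1 : n * t * n⁻¹ * t⁻¹ * t = t * (n * t * n⁻¹ * t⁻¹) := by
        have b1 := sqE _ he
        have b2 : n * t * n⁻¹ * (n * t * n⁻¹) = 1 := by
          calc _ = n * (t * t) * n⁻¹ := by group
            _ = 1 := by rw [hy.t2]; group
        rw [ti] at b1 ⊢
        generalize n * t * n⁻¹ = s at b1 b2
        calc s * t * t = (t * t) * s * (t * t) := by rw [hy.t2, mul_assoc s, hy.t2]; group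
          _ = t * (t * s * t) * t := by group
          _ = t * ((s * s) * (t * s * t)) * t := by rw [b2, one_mul]
          _ = t * s * (s * t * (s * t)) * t := by group
          _ = t * (s * t) := by rw [b1]; group
      obtain ⟨f, k, q⟩ := h.cen_E hle sqE he a1
      obtain ⟨e', he', q'⟩ := tr f k
      have a2 : e'⁻¹ * n * t = t * (e'⁻¹ * n) := by
        have : n * t * n⁻¹ = e' * t * e'⁻¹ := by rw [q', hy.tc, ← q]; group
        calc e'⁻¹ * n * t = e'⁻¹ * (n * t * n⁻¹) * n := by group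
          _ = t * (e'⁻¹ * n) := by rw [this]; group
      have a3 : e'⁻¹ * n ∈ centralizer (E7 d ι b u : Set G) := mul_mem (inv_mem (hEH he')) hn
      have a4 : ∀ f k, e'⁻¹ * n * ι (d.U 0 f k) = ι (d.U 0 f k) * (e'⁻¹ * n) := fun f k =>
        (a3 _ (F_mem f k)).symm
      obtain ⟨o, ho, hoc, e5, he5, q5⟩ := hy.cE5 a2 (a4 0) (a4 1 0) (mem_normalizer_of_conj_mem (by
        intro w hw
        have : e'⁻¹ * n * w = w * (e'⁻¹ * n) := by
          obtain ⟨f, k, rfl | rfl⟩ := hy.mem_E5.1 hw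
          · exact a4 f k
          · rw [← mul_assoc, a2, mul_assoc, a4, mul_assoc]
        rw [conj_eq this]
        exact hw))
      have a5 : e5 ^ 2 ^ 1 = 1 := by
        rw [pow_one, pow_two]
        have : ∀ f k, ι (d.U 0 f k) * ι (d.U 0 f k) = 1 := fun f k => sq7 _ (F_mem f k)
        obtain ⟨f, k, rfl | rfl⟩ := hy.mem_E5.1 he5
        · exact this f k
        · calc _ = t * (ι (d.U 0 f k) * t) * ι (d.U 0 f k) := by group
            _ = t * t * (ι (d.U 0 f k) * ι (d.U 0 f k)) := by rw [← hy.tc]; group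
            _ = 1 := by rw [hy.t2, this, mul_one]
      have a6 : (o * e5) ^ 2 ^ (j + 1) = 1 := by
        obtain ⟨e'', he'', q''⟩ := pow_mul_norm (inv_mem he') hnE (2 ^ j)
        rw [← q5, pow_succ, pow_mul, q'', hj, mul_one, pow_two, sqE _ he'']
      have a7 := odd_two (hy.oddO ho) (hoc _ he5) a5 a6
      rw [a7, one_mul] at q5
      have a8 : e5 ∈ E := by
        obtain ⟨f, k, rfl | rfl⟩ := hy.mem_E5.1 he5
        · exact hle (F_mem f k)
        · exfalso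
          apply tb_ne h
          have c1 := a3 _ (b_mem (d := d) (ι := ι) (u := u) 1)
          rw [q5, mul_assoc t, ← h.bf.cU, ← mul_assoc, ← mul_assoc] at c1
          exact (mul_right_cancel c1).symm
      have : n = e' * e5 := by rw [← q5]; group
      rw [this]
      exact mul_mem he' a8
    have hg : cj (gE d ι b) E ≤ centralizer (E7 d ι b u : Set G) := by
      rw [← cj_eq_iff_mem_normalizer.2 (normalizer_le_normalizer_centralizer _ n5)]
      exact cj_mono _ hEH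
    obtain ⟨k0, hk0, q⟩ := hS.exists_conj (isPGroup_cj _ h2E) hg
    refine ⟨k0 * gE d ι b, mem_normalizer_of_conj_mem fun w hw => ?_, fun w hw => ?_, ?_⟩
    · have := q _ (conj_mem_cj hw)
      rwa [show k0 * (gE d ι b * w * (gE d ι b)⁻¹) * k0⁻¹ = k0 * gE d ι b * w * (k0 * gE d ι b)⁻¹ by
        group] at this
    · obtain ⟨k, m, rfl⟩ := (h.bf.mem_B0 hy).1 hw
      have c1 : gE d ι b * (ι (d.U 0 0 k) * b m) = ι (d.U 0 0 k) * b m * gE d ι b := by
        rw [← mul_assoc, h.bf.g_E hy 0 k, mul_assoc, h.gb, mul_assoc]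
      have c2 := hk0 _ (mul_mem (F_mem (d := d) (ι := ι) (b := b) (u := u) 0 k) (b_mem m))
      rw [mul_assoc, c1, ← mul_assoc, ← c2, mul_assoc]
    · obtain ⟨k', q'⟩ := h.gF 1 0
      refine ⟨k', ?_⟩
      have c2 := hk0 _ (mul_mem (F_mem (d := d) (ι := ι) (b := b) (u := u) 1 k') (b_mem 1))
      calc _ = k0 * (gE d ι b * ι (d.U 0 1 0) * (gE d ι b)⁻¹) * k0⁻¹ := by group
        _ = _ := by rw [q', conj_eq c2.symm]

end W16a

open W16a in
theorem Xf.w16a (h : Xf d ι t O b u x ν) (hν : ν * ν = ν) : ∃ E, Ef d ι t O b u E := by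
  have hy := h.wf.hy
  have cen : ∀ x' : G, (∀ f k, x' * ι (d.U 0 f k) = ι (d.U 0 f k) * x') → (∀ m, x' * b m = b m * x') →
      x' * u = u * x' → ∀ e ∈ E7 d ι b u, x' * e = e * x' := by
    intro x' c1 c2 c3 e he
    obtain ⟨f, k, m, rfl | rfl⟩ := h.wf.mem_E7.1 he
    · exact (Commute.mul_right (c1 f k) (c2 m)).eq
    · exact (Commute.mul_right (Commute.mul_right (c1 f k) (c2 m)) c3).eq
  have hν' : ν = 0 ∨ ν = 1 := (by decide : ∀ ν : F4, ν * ν = ν → ν = 0 ∨ ν = 1) ν hν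
  rcases hν' with rfl | rfl
  · refine core h.wf (cen x h.xF (fun m => ?_) ?_) h.xt h.x2 (fun l f k => ?_) ?_ h.xs
    · have := h.xb m
      rw [zero_mul, U1 hy, mul_one] at this
      exact mul_inv_eq_iff_eq_mul.1 this
    · have := h.xu
      rw [U1 hy, mul_one] at this
      exact mul_inv_eq_iff_eq_mul.1 this
    · obtain ⟨y, hy7, e⟩ := h.xU l f k
      exact ⟨y, hy7, Or.inl e⟩
    · obtain ⟨y, hy7, e⟩ := h.xr
      exact ⟨y, hy7, Or.inl e⟩
  · have sqF : ∀ f k, ι (d.U 0 f k) * ι (d.U 0 f k) = 1 := fun f k => h.wf.sq_E7 _ (F_mem f k)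
    have ti : t⁻¹ = t := inv_eq_of_mul_eq_one_right hy.t2
    have nt := h.wf.n_E7.1
    have tw : ∀ l, (∃ y ∈ E7 d ι b u, ι l * x * (ι l)⁻¹ = x * y ∨ ι l * x * (ι l)⁻¹ = x * y * t) →
        ∃ y ∈ E7 d ι b u, ι l * (x * t) * (ι l)⁻¹ = x * t * y ∨
          ι l * (x * t) * (ι l)⁻¹ = x * t * y * t := by
      rintro l ⟨y, hy7, e⟩
      have c1 : ι l * (x * t) * (ι l)⁻¹ = ι l * x * (ι l)⁻¹ * t := by
        rw [← conj_eq (hy.tc l).symm]
        nth_rewrite 1 [conj_eq (hy.tc l).symm]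
        group
      refine ⟨_, conj_mem_of_mem_normalizer (inv_mem nt) hy7, e.imp (fun e => ?_) fun e => ?_⟩
      · rw [c1, e]; group
      · rw [c1, e]; group
    refine core (x := x * t) h.wf (cen _ (fun f k => ?_) (fun m => ?_) ?_) ?_ ?_
      (fun l f k => tw _ ?_) (tw _ ?_) (tw _ h.xs)
    · rw [mul_assoc, hy.tc, ← mul_assoc, h.xF, mul_assoc]
    · refine mul_inv_eq_iff_eq_mul.1 ?_
      calc _ = x * (t * b m * t⁻¹) * x⁻¹ := by group
        _ = (x * b m * x⁻¹) * (x * ι (d.U 0 0 m) * x⁻¹) := by rw [h.wf.bf.tb]; group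
        _ = b m := by rw [h.xb, conj_eq (h.xF _ _), one_mul, mul_assoc, sqF, mul_one]
    · refine mul_inv_eq_iff_eq_mul.1 ?_
      have c1 : u * ι (d.U 0 1 0) * u⁻¹ = ι (d.U 0 1 0) := by rw [h.wf.uU, h.wf.bf.b0, mul_one]
      have c2 : t * u * t⁻¹ = u * ι (d.U 0 1 0) := by
        calc t * u * t⁻¹ = t⁻¹ * (u * t * u⁻¹) * u := by rw [ti]; group
          _ = (u * ι (d.U 0 1 0) * u⁻¹) * u := by rw [h.wf.ut, c1]; group
          _ = _ := by group
      calc _ = x * (t * u * t⁻¹) * x⁻¹ := by group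
        _ = (x * u * x⁻¹) * (x * ι (d.U 0 1 0) * x⁻¹) := by rw [c2]; group
        _ = u := by rw [h.xu, conj_eq (h.xF _ _), mul_assoc, sqF, mul_one]
    · rw [← h.xt]; group
    · obtain ⟨f, k, e⟩ := h.x2
      refine ⟨F4.v + f, 0 + k, ?_⟩
      calc x * t * (x * t) = (x * t * x⁻¹) * (x * x) * t := by group
        _ = t * (ι (d.U 0 F4.v 0) * ι (d.U 0 f k)) * t := by rw [h.xt, e]; group
        _ = _ := by rw [UU hy, hy.tc, mul_assoc, hy.t2, mul_one]
    · obtain ⟨y, hy7, e⟩ := h.xU l f k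
      exact ⟨y, hy7, Or.inl e⟩
    · obtain ⟨y, hy7, e⟩ := h.xr
      exact ⟨y, hy7, Or.inl e⟩

end Cfsg.Agent.MS
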