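import Cfsg.Agent.MS.BaseB

/-! notes/MS.md, section W16x. -/

set_option autoImplicit false

namespace Cfsg.Agent.MS

open Subgroup H29 H42

variable {A G : Type*} [Group A] [Group G] [Finite G] {d : AD A} {ι : A →* G} {t u x : G}
  {O E Q : Subgroup G} {b : F4 → G} {η ν : F4}

namespace W16xAux

/-- the action of `r^n U l s^i` on `F = F4 × F4` -/
def hh (ρ l : F4) (i : Bool) (p : F4 × F4) : F4 × F4 :=
  match i with
  | false => (p.1, ρ * (p.2 + l * p.1))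
  | true => (p.1 * p.1, ρ * (p.2 * p.2 + l * (p.1 * p.1)))

def cf (f : F4) (P R : F4 × F4) : F4 × F4 :=
  match f with
  | F4.o => 0
  | F4.i => P
  | F4.w => R
  | F4.v => P + R

set_option synthInstance.maxSize 4000 in
set_option synthInstance.maxHeartbeats 200000 in
theorem fin_aux : ∀ (ρ l : F4) (i : Bool) (Z : F4 × F4), Z + hh ρ l i Z = hh ρ l i (hh ρ l i Z) →
    ∀ P : F4 × F4, hh ρ l i P = P → P.1 * P.1 = P.1 → ∀ C : F4 × F4, hh ρ l i C = C →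
    (∀ f k : F4, cf f P C + cf k Z (hh ρ l i Z) = 0 → f = 0 ∧ k = 0) →
    ∀ (ρ' l' : F4) (i' : Bool), hh ρ' l' i' Z = Z → hh ρ' l' i' (hh ρ l i Z) = hh ρ l i Z →
    hh ρ' l' i' P = P + Z → hh ρ' l' i' C = C + hh ρ l i Z →
    ∃ (σ m : F4) (j : Bool), σ ≠ 0 ∧ ∀ f k : F4, cf f P C + cf k Z (hh ρ l i Z) = hh σ m j (f, k) := by
  decide +kernel

theorem add_eq_cf {α : F4 × F4 → F4 × F4} (hα : ∀ p q, α (p + q) = α p + α q) (f k : F4) :
    α (f, k) = cf f (α (1, 0)) (α (F4.w, 0)) + cf k (α (0, 1)) (α (0, F4.w)) := by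
  have h0 : α 0 = 0 := by
    have := hα 0 0
    rw [add_zero] at this
    exact left_eq_add.mp this
  have e : (f, k) = (f, 0) + (0, k) := by simp
  rw [e, hα]
  congr 1
  · cases f
    · exact h0
    · rfl
    · rfl
    · have : ((F4.v, 0) : F4 × F4) = (1, 0) + (F4.w, 0) := by decide
      rw [this, hα]; rfl
  · cases k
    · exact h0
    · rfl
    · rfl
    · have : ((0, F4.v) : F4 × F4) = (0, 1) + (0, F4.w) := by decide
      rw [this, hα]; rfl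

theorem fin_main {α : F4 × F4 → F4 × F4} (hα : ∀ p q, α (p + q) = α p + α q)
    (hi : Function.Injective α) (hT : (α (1, 0)).1 * (α (1, 0)).1 = (α (1, 0)).1)
    (h1 : ∃ ρ l i, ∀ p, α (hh F4.w 0 false p) = hh ρ l i (α p))
    (h2 : ∃ ρ l i, ∀ p, α (hh 1 1 false p) = hh ρ l i (α p)) :
    ∃ σ m j, σ ≠ 0 ∧ ∀ p, α p = hh σ m j p := by
  obtain ⟨ρ, l, i, h1⟩ := h1
  obtain ⟨ρ', l', i', h2⟩ := h2
  have h0 : α 0 = 0 := by
    have := hα 0 0
    rw [add_zero] at this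
    exact left_eq_add.mp this
  have eY : α (0, F4.w) = hh ρ l i (α (0, 1)) := by
    rw [← h1]; congr 1
  have a1 : α (0, 1) + hh ρ l i (α (0, 1)) = hh ρ l i (hh ρ l i (α (0, 1))) := by
    rw [← eY, ← h1, ← hα]; congr 1
  have a2 : hh ρ l i (α (1, 0)) = α (1, 0) := by rw [← h1]; congr 1
  have a3 : hh ρ l i (α (F4.w, 0)) = α (F4.w, 0) := by rw [← h1]; congr 1
  have a4 : ∀ f k : F4, cf f (α (1, 0)) (α (F4.w, 0)) + cf k (α (0, 1)) (hh ρ l i (α (0, 1))) = 0 →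
      f = 0 ∧ k = 0 := by
    intro f k e
    rw [← eY, ← add_eq_cf hα, ← h0] at e
    have := hi e
    exact ⟨congrArg Prod.fst this, congrArg Prod.snd this⟩
  have b1 : hh ρ' l' i' (α (0, 1)) = α (0, 1) := by rw [← h2]; congr 1
  have b2 : hh ρ' l' i' (hh ρ l i (α (0, 1))) = hh ρ l i (α (0, 1)) := by
    rw [← eY, ← h2]; congr 1
  have b3 : hh ρ' l' i' (α (1, 0)) = α (1, 0) + α (0, 1) := by rw [← h2, ← hα]; congr 1
  have b4 : hh ρ' l' i' (α (F4.w, 0)) = α (F4.w, 0) + hh ρ l i (α (0, 1)) := by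
    rw [← eY, ← h2, ← hα]; congr 1
  obtain ⟨σ, m, j, hσ, e⟩ := fin_aux ρ l i _ a1 _ a2 hT _ a3 a4 ρ' l' i' b1 b2 b3 b4
  refine ⟨σ, m, j, hσ, fun p => ?_⟩
  rw [← e p.1 p.2, ← eY, ← add_eq_cf hα]

/-- the elements of `F` -/
def ph (d : AD A) (ι : A →* G) (p : F4 × F4) : G := ι (d.U 0 p.1 p.2)

omit [Finite G] in
theorem ph_add (h : AF d) (p q : F4 × F4) : ph d ι (p + q) = ph d ι p * ph d ι q := by
  unfold ph
  rw [← map_mul, h.mul]
  simp

theorem ph_inj (h : Hy d ι t O) : Function.Injective (ph d ι) := by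
  intro p q e
  have := h.finA
  obtain ⟨-, e1, e2⟩ := h.af.U_inj (h.inj e)
  exact Prod.ext e1 e2

theorem ph_zero (h : Hy d ι t O) : ph d ι 0 = 1 := by
  have := h.finA
  unfold ph
  rw [Prod.fst_zero, Prod.snd_zero, h.af.U_one, map_one]

/-- `y` acts on `F` by `α` and moves `t` to `t τ` -/
def Act (d : AD A) (ι : A →* G) (t y : G) (α : F4 × F4 → F4 × F4) (τ : F4 × F4) : Prop :=
  (∀ p, y * ph d ι p * y⁻¹ = ph d ι (α p)) ∧ y * t * y⁻¹ = t * ph d ι τ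

omit [Finite G] in
theorem Act.mul (h : AF d) {y y' : G} {α β : F4 × F4 → F4 × F4} {τ σ : F4 × F4}
    (h1 : Act d ι t y α τ) (h2 : Act d ι t y' β σ) : Act d ι t (y * y') (α ∘ β) (τ + α σ) := by
  refine ⟨fun p => ?_, ?_⟩
  · rw [Function.comp, ← h1.1, ← h2.1]; group
  · rw [ph_add h, ← mul_assoc, ← h1.2, ← h1.1]
    have : y * y' * t * (y * y')⁻¹ = y * (y' * t * y'⁻¹) * y⁻¹ := by group
    rw [this, h2.2]; group

theorem Act.uniq (h : Hy d ι t O) {y : G} {α β : F4 × F4 → F4 × F4} {τ σ : F4 × F4}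
    (h1 : Act d ι t y α τ) (h2 : Act d ι t y β σ) : (∀ p, α p = β p) ∧ τ = σ :=
  ⟨fun p => ph_inj h ((h1.1 p).symm.trans (h2.1 p)),
    ph_inj h (mul_left_cancel (h1.2.symm.trans h2.2))⟩

theorem act_one (h : Hy d ι t O) : Act d ι t 1 id 0 := by
  refine ⟨fun p => by simp, ?_⟩
  rw [ph_zero h]; simp

theorem Act.add (h : Hy d ι t O) {y : G} {α : F4 × F4 → F4 × F4} {τ : F4 × F4}
    (h1 : Act d ι t y α τ) (p q : F4 × F4) : α (p + q) = α p + α q := by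
  apply ph_inj h
  rw [ph_add h.af (α p), ← h1.1, ← h1.1, ← h1.1, ph_add h.af]; group

theorem Act.norm (h : Hy d ι t O) {y : G} {α : F4 × F4 → F4 × F4} {τ : F4 × F4}
    (h1 : Act d ι t y α τ) : y ∈ normalizer (E5 d ι t : Set G) := by
  apply mem_normalizer_of_conj_mem
  intro e he
  obtain ⟨f, k, rfl | rfl⟩ := h.mem_E5.mp he
  · exact h.mem_E5.mpr ⟨_, _, Or.inl (h1.1 (f, k))⟩
  · refine h.mem_E5.mpr ⟨(τ + α (f, k)).1, (τ + α (f, k)).2, Or.inr ?_⟩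
    change _ = t * ph d ι (τ + α (f, k))
    rw [ph_add h.af, ← mul_assoc t (ph d ι τ), ← h1.2, ← h1.1]
    change y * (t * ph d ι (f, k)) * y⁻¹ = _
    group

theorem act_A (h : Hy d ι t O) {l : A} {α : F4 × F4 → F4 × F4}
    (e : ∀ f k, l * d.U 0 f k * l⁻¹ = d.U 0 (α (f, k)).1 (α (f, k)).2) : Act d ι t (ι l) α 0 := by
  refine ⟨fun p => ?_, ?_⟩
  · unfold ph
    rw [← map_inv, ← map_mul, ← map_mul, e]
  · rw [ph_zero h, ← h.tc]; group

theorem act_U (h : Hy d ι t O) (l f k : F4) : Act d ι t (ι (d.U l f k)) (hh 1 l false) 0 := by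
  have := h.finA
  refine act_A h fun f' k' => ?_
  rw [h.af.U_conj]
  simp [hh]

theorem act_s (h : Hy d ι t O) : Act d ι t (ι d.s) (hh 1 0 true) 0 := by
  refine act_A h fun f' k' => ?_
  rw [h.af.sU]
  simp [hh]

theorem act_r (h : Hy d ι t O) : Act d ι t (ι d.r) (hh F4.w 0 false) 0 := by
  refine act_A h fun f' k' => ?_
  rw [h.af.rU]
  simp [hh]

omit [Finite G] in
theorem Act.congr {y : G} {α β : F4 × F4 → F4 × F4} {τ σ : F4 × F4}
    (h1 : Act d ι t y α τ) (e : ∀ p, α p = β p) (e' : τ = σ) : Act d ι t y β σ := by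
  have : α = β := funext e
  rw [← this, ← e']; exact h1

theorem act_rn (h : Hy d ι t O) (n : ℕ) : Act d ι t (ι (d.r ^ n)) (hh (F4.w ^ n) 0 false) 0 := by
  induction n with
  | zero =>
    rw [pow_zero, map_one]
    exact (act_one h).congr (fun p => by simp [hh]) rfl
  | succ n ih =>
    rw [pow_succ, map_mul]
    refine (ih.mul h.af (act_r h)).congr (fun p => ?_) (by simp [hh])
    simp only [hh, Function.comp, pow_succ]
    congr 1; ring

theorem act_T (h : Hy d ι t O) (n : ℕ) {l : A} (hl : l ∈ T1 d) :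
    ∃ m i, Act d ι t (ι (d.r ^ n * l)) (hh (F4.w ^ n) m i) 0 := by
  have := h.finA
  obtain ⟨m, f, k, rfl | rfl⟩ := h.af.mem_T1.mp hl
  · refine ⟨m, false, ?_⟩
    rw [map_mul]
    refine ((act_rn h n).mul h.af (act_U h m f k)).congr (fun p => ?_) (by simp [hh])
    simp [hh]
  · refine ⟨m, true, ?_⟩
    rw [map_mul, map_mul]
    refine ((act_rn h n).mul h.af ((act_U h m f k).mul h.af (act_s h))).congr (fun p => ?_)
      (by simp [hh])
    simp [hh]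

theorem exists_hh (h : Hy d ι t O) {σ : F4} (hσ : σ ≠ 0) (m : F4) (j : Bool) :
    ∃ y, Act d ι t y (hh σ m j) 0 := by
  have hn : ∃ n : ℕ, F4.w ^ n = σ := by
    cases σ
    · exact absurd rfl hσ
    · exact ⟨0, rfl⟩
    · exact ⟨1, by decide⟩
    · exact ⟨2, by decide⟩
  obtain ⟨n, rfl⟩ := hn
  cases j
  · exact ⟨_, ((act_rn h n).mul h.af (act_U h m 0 0)).congr (fun p => by simp [hh]) (by simp [hh])⟩
  · exact ⟨_, ((act_rn h n).mul h.af ((act_U h m 0 0).mul h.af (act_s h))).congr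
      (fun p => by simp [hh]) (by simp [hh])⟩

theorem Act.stab (h : Hy d ι t O) {y : G} {α : F4 × F4 → F4 × F4} (h1 : Act d ι t y α 0) :
    ∃ ρ l i, ∀ p, α p = hh ρ l i p := by
  have ht : y * t = t * y := by
    have := h1.2
    rw [ph_zero h, mul_one] at this
    exact mul_inv_eq_iff_eq_mul.mp this
  obtain ⟨o, -, ho, n, l, hl, e⟩ := h.nFt ht (h1.norm h)
  obtain ⟨m, i, ha⟩ := act_T h n hl
  refine ⟨F4.w ^ n, m, i, fun p => ?_⟩
  apply ph_inj h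
  have hm : ∀ q, ph d ι q ∈ E5 d ι t := fun q => h.mem_E5.mpr ⟨_, _, Or.inl rfl⟩
  rw [← h1.1]
  rcases e with rfl | rfl
  · have : o * ι (d.r ^ n * l) * ph d ι p * (o * ι (d.r ^ n * l))⁻¹ =
        o * (ι (d.r ^ n * l) * ph d ι p * (ι (d.r ^ n * l))⁻¹) * o⁻¹ := by group
    rw [this, ha.1, ho _ (hm _)]; group
  · have : o * (t * ι (d.r ^ n * l)) * ph d ι p * (o * (t * ι (d.r ^ n * l)))⁻¹ =
        o * (t * (ι (d.r ^ n * l) * ph d ι p * (ι (d.r ^ n * l))⁻¹) * t⁻¹) * o⁻¹ := by group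
    rw [this, ha.1]
    unfold ph
    rw [h.tc, mul_inv_cancel_right]
    change o * ph d ι _ * o⁻¹ = ph d ι _
    rw [ho _ (hm _)]; group

theorem comm_E7 (h : Wf d ι t O b u) {y y' : G} (hy : y ∈ E7 d ι b u) (hy' : y' ∈ E7 d ι b u) :
    y * y' = y' * y := by
  have h1 := h.sq_E7 y hy
  have h2 := h.sq_E7 y' hy'
  have h3 := h.sq_E7 _ (mul_mem hy hy')
  rw [← inv_eq_iff_mul_eq_one] at h1 h2 h3
  rw [← h3, mul_inv_rev, h1, h2]

omit [Finite G] in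
theorem ph_mem (p : F4 × F4) : ph d ι p ∈ E7 d ι b u :=
  subset_closure (Or.inl (Or.inl ⟨_, _, rfl⟩))

theorem act_tr (h : Wf d ι t O b u) {τ : F4 × F4} (hτ : τ.1 * τ.1 = τ.1) :
    ∃ y, Act d ι t y id τ := by
  obtain ⟨y, hy, e⟩ := h.tr_E7 hτ τ.2
  refine ⟨y, fun p => ?_, e⟩
  rw [comm_E7 h hy (ph_mem p)]; simp

theorem conj_tF (h : Wf d ι t O b u) (hc : IsConj t (t * ι (d.U 0 F4.v 0))) (p : F4 × F4) :
    IsConj t (t * ph d ι p) := by
  have hv : ∀ k, IsConj t (t * ph d ι (F4.v, k)) := by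
    intro k
    refine hc.trans (isConj_iff.mpr ⟨ι (d.U (k * F4.w) 0 0), ?_⟩)
    have ha := act_U h.hy (k * F4.w) 0 0
    have e : ∀ k, hh 1 (k * F4.w) false (F4.v, 0) = (F4.v, k) := by decide
    rw [← e k, ← ha.1, ← mul_assoc t, ← mul_assoc t, h.hy.tc (d.U (k * F4.w) 0 0), mul_assoc (ι _) t]
    rfl
  obtain ⟨f, k⟩ := p
  have h01 : f * f = f → IsConj t (t * ph d ι (f, k)) := fun hf => by
    obtain ⟨y, hy⟩ := act_tr h (τ := (f, k)) hf
    exact isConj_iff.mpr ⟨y, hy.2⟩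
  cases f
  · exact h01 rfl
  · exact h01 rfl
  · refine (hv (k * k)).trans (isConj_iff.mpr ⟨ι d.s, ?_⟩)
    have ha := act_s h.hy
    have e : ∀ k, hh 1 0 true (F4.v, k * k) = (F4.w, k) := by decide
    rw [← e k, ← ha.1, ← mul_assoc t, ← mul_assoc t, h.hy.tc d.s, mul_assoc (ι _) t]
  · exact hv k

theorem not_conj_F (h : Wf d ι t O b u) (p : F4 × F4) : ¬ IsConj t (ph d ι p) :=
  h.hy.not_conj (E := E7 d ι b u) (fun _ he => comm_E7 h he (ph_mem p)) h.sq_E7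
    (by rw [h.card_E7]; norm_num)

theorem exists_act (h : Wf d ι t O b u) (hc : IsConj t (t * ι (d.U 0 F4.v 0))) {y : G}
    (hy : y ∈ normalizer (E5 d ι t : Set G)) : ∃ α τ, Act d ι t y α τ := by
  have h1 : ∀ p, ∃ q, y * ph d ι p * y⁻¹ = ph d ι q := by
    intro p
    have hm : ph d ι p ∈ E5 d ι t := h.hy.mem_E5.mpr ⟨_, _, Or.inl rfl⟩
    obtain ⟨f, k, e | e⟩ := h.hy.mem_E5.mp (conj_mem_of_mem_normalizer hy hm)
    · exact ⟨(f, k), e⟩
    · exfalso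
      refine not_conj_F h p ((conj_tF h hc (f, k)).trans ?_)
      exact (isConj_iff.mpr ⟨y, e⟩).symm
  have h2 : ∃ q, y * t * y⁻¹ = t * ph d ι q := by
    have hm : t ∈ E5 d ι t := subset_closure (Or.inr rfl)
    obtain ⟨f, k, e | e⟩ := h.hy.mem_E5.mp (conj_mem_of_mem_normalizer hy hm)
    · exact absurd (isConj_iff.mpr ⟨y, e⟩) (not_conj_F h (f, k))
    · exact ⟨(f, k), e⟩
  choose α hα using h1
  obtain ⟨τ, hτ⟩ := h2
  exact ⟨α, τ, hα, hτ⟩

theorem exists_x0 (h : Wf d ι t O b u) (hc : IsConj t (t * ι (d.U 0 F4.v 0))) :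
    ∃ y ∈ normalizer (E5 d ι t : Set G), y * t * y⁻¹ = t * ι (d.U 0 F4.v 0) := by
  obtain ⟨g, hg⟩ := isConj_iff.mp hc
  have hsq : ∀ e ∈ E5 d ι t, e * e = 1 := by
    intro e he
    have hp : ∀ p, ph d ι p * ph d ι p = 1 := fun p => h.sq_E7 _ (ph_mem p)
    obtain ⟨f, k, rfl | rfl⟩ := h.hy.mem_E5.mp he
    · exact hp (f, k)
    · calc t * ι (d.U 0 f k) * (t * ι (d.U 0 f k)) = t * (ι (d.U 0 f k) * t) * ι (d.U 0 f k) := by group
        _ = t * t * (ph d ι (f, k) * ph d ι (f, k)) := by rw [← h.hy.tc]; unfold ph; group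
        _ = 1 := by rw [h.hy.t2, hp, mul_one]
  have hcm : ∀ e ∈ E5 d ι t, e * (t * ι (d.U 0 F4.v 0)) = t * ι (d.U 0 F4.v 0) * e := by
    intro e he
    have hm : t * ι (d.U 0 F4.v 0) ∈ E5 d ι t := h.hy.mem_E5.mpr ⟨_, _, Or.inr rfl⟩
    have h1 := hsq e he
    have h2 := hsq _ hm
    have h3 := hsq _ (mul_mem he hm)
    generalize t * ι (d.U 0 F4.v 0) = c at h2 h3 ⊢
    rw [← inv_eq_iff_mul_eq_one] at h1 h2 h3
    rw [← h3, mul_inv_rev, h1, h2]
  obtain ⟨n, hn, e⟩ := h.hy.rank' (E := cj g⁻¹ (E5 d ι t)) (fun y hy => by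
      have := hcm _ (mem_cj.mp hy)
      rw [← hg] at this
      calc y * t = g⁻¹ * (g⁻¹⁻¹ * y * g⁻¹ * (g * t * g⁻¹)) * g := by group
        _ = t * y := by rw [this]; group)
    (fun y hy => by
      have := hsq _ (mem_cj.mp hy)
      calc y * y = g⁻¹ * (g⁻¹⁻¹ * y * g⁻¹ * (g⁻¹⁻¹ * y * g⁻¹)) * g := by group
        _ = 1 := by rw [this]; group)
    (by rw [card_cj, h.hy.card_E5])
  rw [cj_cj] at e
  refine ⟨(n * g⁻¹)⁻¹, inv_mem (cj_eq_iff_mem_normalizer.mp e), ?_⟩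
  rw [← hg]
  calc (n * g⁻¹)⁻¹ * t * (n * g⁻¹)⁻¹⁻¹ = g * (n⁻¹ * (t * n)) * g⁻¹ := by group
    _ = g * t * g⁻¹ := by rw [← hn]; group

end W16xAux

open W16xAux in
theorem Wf.exists_x (h : Wf d ι t O b u) (hc : IsConj t (t * ι (d.U 0 F4.v 0))) :
    ∃ x, (∀ f k, x * ι (d.U 0 f k) = ι (d.U 0 f k) * x) ∧ x * t * x⁻¹ = t * ι (d.U 0 F4.v 0) := by
  by_contra hne
  have hno : ∀ y, ¬ Act d ι t y id (F4.v, 0) := by
    intro y hy
    refine hne ⟨y, fun f k => ?_, hy.2⟩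
    have := hy.1 (f, k)
    exact mul_inv_eq_iff_eq_mul.mp this
  have haf := h.hy.af
  have htr : ∀ y τ, Act d ι t y id τ → τ.1 * τ.1 = τ.1 := by
    intro y τ hy
    by_contra hτ
    have e1 : ∀ f : F4, ¬ f * f = f → (f + F4.v) * (f + F4.v) = f + F4.v := by decide
    obtain ⟨y', hy'⟩ := act_tr h (τ := τ + (F4.v, 0)) (e1 _ hτ)
    have e2 : ∀ τ : F4 × F4, τ + id (τ + (F4.v, 0)) = (F4.v, 0) := by decide
    exact hno _ ((hy.mul haf hy').congr (fun p => rfl) (e2 τ))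
  obtain ⟨x0, hx0, e0⟩ := exists_x0 h hc
  obtain ⟨α, τ, hα⟩ := exists_act h hc hx0
  have eτ : τ = (F4.v, 0) := ph_inj h.hy (mul_left_cancel (hα.2.symm.trans e0))
  subst eτ
  obtain ⟨β, σ, hβ⟩ := exists_act h hc (inv_mem hx0)
  obtain ⟨hab, hs⟩ := (hα.mul haf hβ).uniq h.hy (by rw [mul_inv_cancel]; exact act_one h.hy)
  obtain ⟨hba, -⟩ := (hβ.mul haf hα).uniq h.hy (by rw [inv_mul_cancel]; exact act_one h.hy)
  have hab' : ∀ p, α (β p) = p := hab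
  have hba' : ∀ p, β (α p) = p := hba
  have hi : Function.Injective α := Function.LeftInverse.injective hba'
  have hT : ∀ τ : F4 × F4, τ.1 * τ.1 = τ.1 → (α τ).1 * (α τ).1 = (α τ).1 := by
    intro τ hτ
    obtain ⟨y, hy⟩ := act_tr h hτ
    refine htr _ _ (((hα.mul haf hy).mul haf hβ).congr (fun p => hab' p) ?_)
    change (F4.v, 0) + α τ + α σ = α τ
    rw [add_right_comm, hs, zero_add]
  have key : ∀ ρ l, (∃ y, Act d ι t y (hh ρ l false) 0) →
      ∃ ρ' l' i, ∀ p, α (hh ρ l false p) = hh ρ' l' i (α p) := by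
    rintro ρ l ⟨y, hy⟩
    have h1 := (hα.mul haf hy).mul haf hβ
    have e0 : ∀ (ρ l : F4) (σ : F4 × F4), hh ρ l false σ = σ + (0, σ.2 + (hh ρ l false σ).2) := by
      decide
    obtain ⟨κ, e1⟩ : ∃ κ : F4, hh ρ l false σ = σ + (0, κ) := ⟨_, e0 ρ l σ⟩
    have e2 : ∀ q : F4 × F4, q + q = 0 := by decide
    have hτ := hT (0, κ) (by simp)
    obtain ⟨y', hy'⟩ := act_tr h hτ
    have h2 := (hy'.mul haf h1).congr (fun _ => rfl) (σ := 0) (by
      have h0 : α 0 = 0 := by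
        have := hα.add h.hy 0 0
        rw [add_zero] at this
        exact left_eq_add.mp this
      simp only [Function.comp, id]
      rw [h0, add_zero, e1, hα.add h.hy, ← add_assoc (F4.v, 0), hs, zero_add, e2])
    obtain ⟨ρ', l', i, e⟩ := h2.stab h.hy
    refine ⟨ρ', l', i, fun p => ?_⟩
    rw [← e]
    simp only [Function.comp, id]
    rw [hba']
  obtain ⟨σ', m, j, hσ, e⟩ := fin_main (hα.add h.hy) hi (hT (1, 0) (by decide))
    (key _ _ ⟨_, act_r h.hy⟩) (key _ _ ⟨_, act_U h.hy 1 0 0⟩)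
  obtain ⟨y, hy⟩ := exists_hh h.hy hσ m j
  obtain ⟨γ, κ, hγ⟩ := exists_act h hc (inv_mem (hy.norm h.hy))
  obtain ⟨h1, h2⟩ := (hy.mul haf hγ).uniq h.hy (by rw [mul_inv_cancel]; exact act_one h.hy)
  refine hno _ ((hα.mul haf hγ).congr (fun p => ?_) ?_)
  · rw [Function.comp, e]; exact h1 p
  · rw [zero_add] at h2
    rw [e, h2, add_zero]

end Cfsg.Agent.MS
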