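import Cfsg.Agent.MS.BaseB
import Cfsg.Agent.MS.W16x

/-! notes/MS.md, section W16y. -/

set_option autoImplicit false

namespace Cfsg.Agent.MS

open Subgroup H29 H42

variable {A G : Type*} [Group A] [Group G] [Finite G] {d : AD A} {ι : A →* G} {t u x : G}
  {O E Q : Subgroup G} {b : F4 → G} {η ν : F4}

namespace W16yAux

open W16xAux

theorem tE (h : Wf d ι t O b u) {y : G} (hy : y ∈ E7 d ι b u) : t * y * t ∈ E7 d ι b u := by
  have := conj_mem_of_mem_normalizer h.n_E7.1 hy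
  rwa [inv_eq_of_mul_eq_one_right h.hy.t2] at this

/-- the group `E7 ⟨t⟩` -/
def P0 (h : Wf d ι t O b u) : Subgroup G where
  carrier := {y | y ∈ E7 d ι b u ∨ y * t ∈ E7 d ι b u}
  one_mem' := Or.inl (one_mem _)
  mul_mem' := by
    have t2 := h.hy.t2
    rintro y y' (hy | hy) (hy' | hy')
    · exact Or.inl (mul_mem hy hy')
    · exact Or.inr (by rw [mul_assoc]; exact mul_mem hy hy')
    · refine Or.inr ?_
      have e : y * y' * t = y * t * (t * y' * t) := by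
        rw [show y * t * (t * y' * t) = y * (t * t) * y' * t by group, t2, mul_one]
      rw [e]; exact mul_mem hy (tE h hy')
    · refine Or.inl ?_
      have e : y * y' = y * t * (t * (y' * t) * t) := by
        rw [show y * t * (t * (y' * t) * t) = y * (t * t) * y' * (t * t) by group, t2, mul_one, mul_one]
      rw [e]; exact mul_mem hy (tE h hy')
  inv_mem' := by
    have t2 := h.hy.t2
    rintro y (hy | hy)
    · exact Or.inl (inv_mem hy)
    · refine Or.inr ?_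
      have e : y⁻¹ * t = t * (y * t)⁻¹ * t := by
        rw [mul_inv_rev, ← mul_assoc, mul_inv_cancel, one_mul]
      rw [e]; exact tE h (inv_mem hy)

theorem mem_P0 (h : Wf d ι t O b u) {y : G} :
    y ∈ P0 h ↔ y ∈ E7 d ι b u ∨ y * t ∈ E7 d ι b u := Iff.rfl

theorem t_P0 (h : Wf d ι t O b u) : t ∈ P0 h := Or.inr (by rw [h.hy.t2]; exact one_mem _)

theorem sq_P0 (h : Wf d ι t O b u) {y : G} (hy : y ∈ P0 h) : y * y ∈ E7 d ι b u := by
  have t2 := h.hy.t2
  rcases hy with hy | hy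
  · exact mul_mem hy hy
  · have e : y * y = y * t * (t * (y * t) * t) := by
      rw [show y * t * (t * (y * t) * t) = y * (t * t) * y * (t * t) by group, t2, mul_one, mul_one]
    rw [e]; exact mul_mem hy (tE h hy)

theorem pow_P0 (h : Wf d ι t O b u) {y : G} (hy : y ∈ P0 h) : y ^ 2 ^ 2 = 1 := by
  have := h.sq_E7 _ (sq_P0 h hy)
  rw [← this]
  norm_num [pow_succ, mul_assoc]

theorem conj_P0 (h : Wf d ι t O b u) {g y : G} (hg : g ∈ normalizer (E7 d ι b u : Set G))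
    (gt : g * t = t * g) (hy : y ∈ P0 h) : g * y * g⁻¹ ∈ P0 h := by
  rcases hy with hy | hy
  · exact Or.inl (conj_mem_of_mem_normalizer hg hy)
  · refine Or.inr ?_
    have e : g * y * g⁻¹ * t = g * (y * t) * g⁻¹ := by
      rw [show g * (y * t) * g⁻¹ = g * y * g⁻¹ * (g * t) * g⁻¹ by group, gt]; group
    rw [e]; exact conj_mem_of_mem_normalizer hg hy

omit [Finite G] in
theorem b_mem (m : F4) : b m ∈ E7 d ι b u := subset_closure (Or.inl (Or.inr ⟨m, rfl⟩))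

omit [Finite G] in
theorem u_mem : u ∈ E7 d ι b u := subset_closure (Or.inr rfl)

theorem act_of (h : Wf d ι t O b u) {y : G} (hy : y ∈ E7 d ι b u) {τ : F4 × F4}
    (e : y * t * y⁻¹ = t * ph d ι τ) : Act d ι t y id τ :=
  ⟨fun p => by rw [comm_E7 h hy (ph_mem p)]; simp, e⟩

/-- elements of `E7` are translations by elements of `T` -/
theorem act_E7 (h : Wf d ι t O b u) {y : G} (hy : y ∈ E7 d ι b u) :
    ∃ τ : F4 × F4, τ.1 * τ.1 = τ.1 ∧ Act d ι t y id τ := by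
  have haf := h.hy.af
  have h1 : ∀ f k, Act d ι t (ι (d.U 0 f k)) id 0 := fun f k =>
    act_of h (ph_mem (f, k)) (by rw [ph_zero h.hy, ph, ← h.hy.tc]; group)
  have h2 : ∀ m, Act d ι t (b m) id (0, m) := fun m => act_of h (b_mem m) (h.bf.bt h.hy m)
  have h3 : Act d ι t u id (1, 0) := act_of h u_mem h.ut
  obtain ⟨f, k, m, rfl | rfl⟩ := h.mem_E7.mp hy
  · exact ⟨_, by simp, (h1 f k).mul haf (h2 m)⟩
  · exact ⟨_, by simp, ((h1 f k).mul haf (h2 m)).mul haf h3⟩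

/-- the translations by elements of `T` -/
theorem key (h : Wf d ι t O b u) {n : G} {τ : F4 × F4} (hτ : τ.1 * τ.1 = τ.1)
    (hn : Act d ι t n id τ) :
    ∃ o ∈ O, ∃ w ∈ P0 h, n = o * w ∧ ∀ w' ∈ P0 h, o * w' = w' * o := by
  have haf := h.hy.af
  obtain ⟨y, hy, e⟩ := h.tr_E7 hτ τ.2
  have hya : Act d ι t y id τ := act_of h hy e
  have e2 : ∀ q : F4 × F4, q + id q = 0 := by decide
  have h1 : Act d ι t (y * n) id 0 := (hya.mul haf hn).congr (fun _ => rfl) (e2 τ)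
  have hc : ∀ p, y * n * ph d ι p = ph d ι p * (y * n) := fun p => mul_inv_eq_iff_eq_mul.mp (h1.1 p)
  have ht : y * n * t = t * (y * n) := by
    have := h1.2
    rw [ph_zero h.hy, mul_one] at this
    exact mul_inv_eq_iff_eq_mul.mp this
  obtain ⟨o, hO, ho, e', he', ee⟩ := h.hy.cE5 ht (fun k => hc (0, k)) (hc (1, 0)) (h1.norm h.hy)
  have hoE : ∀ w ∈ E7 d ι b u, o * w = w * o := by
    intro w hw
    have hF : ∀ f k, Commute o (ι (d.U 0 f k)) := fun f k => ho _ (h.hy.mem_E5.mpr ⟨_, _, Or.inl rfl⟩)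
    have hb : ∀ m, Commute o (b m) := fun m => h.bO o hO m
    have hu : Commute o u := h.uO o hO
    obtain ⟨f, k, m, rfl | rfl⟩ := h.mem_E7.mp hw
    · exact (hF f k).mul_right (hb m)
    · exact ((hF f k).mul_right (hb m)).mul_right hu
  have hoP : ∀ w' ∈ P0 h, o * w' = w' * o := by
    rintro w (hw | hw)
    · exact hoE w hw
    · have h1 : Commute o (w * t) := hoE _ hw
      have h2 : Commute o t := h.hy.Ot o hO
      have := h1.mul_right h2
      rwa [mul_assoc, h.hy.t2, mul_one] at this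
  have heP : e' ∈ P0 h := by
    obtain ⟨f, k, rfl | rfl⟩ := h.hy.mem_E5.mp he'
    · exact Or.inl (ph_mem (f, k))
    · exact mul_mem (t_P0 h) (Or.inl (ph_mem (f, k)))
  have hyP : y ∈ P0 h := Or.inl hy
  refine ⟨o, hO, y⁻¹ * e', mul_mem (inv_mem hyP) heP, ?_, hoP⟩
  rw [← mul_assoc, hoP _ (inv_mem hyP), mul_assoc, ← ee]; group

theorem key2 (h : Wf d ι t O b u) {n : G} {τ : F4 × F4} (hτ : τ.1 * τ.1 = τ.1)
    (hn : Act d ι t n id τ) {k : ℕ} (h2 : n ^ 2 ^ k = 1) : n ∈ P0 h := by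
  obtain ⟨o, hO, w, hw, rfl, ho⟩ := key h hτ hn
  rw [odd_two (h.hy.oddO hO) (ho w hw) (pow_P0 h hw) h2, one_mul]
  exact hw

theorem act_inv (h : Wf d ι t O b u) {n : G} {τ : F4 × F4} (hn : Act d ι t n id τ) :
    Act d ι t n⁻¹ id τ := by
  have hc : ∀ p, n⁻¹ * ph d ι p * n⁻¹⁻¹ = ph d ι p := fun p => by
    have := hn.1 p
    rw [id] at this
    calc n⁻¹ * ph d ι p * n⁻¹⁻¹ = n⁻¹ * (n * ph d ι p * n⁻¹) * n⁻¹⁻¹ := by rw [this]
      _ = _ := by group
  refine ⟨hc, ?_⟩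
  have h1 := hn.2
  have h2 : ph d ι τ * ph d ι τ = 1 := h.sq_E7 _ (ph_mem τ)
  calc n⁻¹ * t * n⁻¹⁻¹ = n⁻¹ * (t * ph d ι τ) * n * (n⁻¹ * ph d ι τ * n⁻¹⁻¹) := by
        rw [show n⁻¹ * (t * ph d ι τ) * n * (n⁻¹ * ph d ι τ * n⁻¹⁻¹) =
          n⁻¹ * t * (ph d ι τ * ph d ι τ) * n⁻¹⁻¹ by group, h2, mul_one]
    _ = t * ph d ι τ := by
        rw [hc]
        congr 1
        rw [← h1]; group

theorem conj_act (h : Wf d ι t O b u) {c τ : F4 × F4} (hx : Act d ι t x id c) {y : G}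
    (hy : Act d ι t y id τ) : Act d ι t (x * y * x⁻¹) id τ := by
  have e : ∀ c τ : F4 × F4, c + id τ + (id ∘ id) c = τ := by decide
  exact ((hx.mul h.hy.af hy).mul h.hy.af (act_inv h hx)).congr (fun _ => rfl) (e c τ)

theorem conj_E7 (h : Wf d ι t O b u) {c : F4 × F4} (hx : Act d ι t x id c) {y : G}
    (hy : y ∈ E7 d ι b u) : ∃ q, x * y * x⁻¹ = y * ph d ι q := by
  have hle : cj x (E7 d ι b u) ≤ E7 d ι b u := by
    refine le_of_big (t := t) h.sq_E7 ?_ ?_ ?_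
    · intro w hw
      have := h.sq_E7 _ (mem_cj.mp hw)
      calc w * w = x * (x⁻¹ * w * x * (x⁻¹ * w * x)) * x⁻¹ := by group
        _ = 1 := by rw [this]; group
    · intro w hw
      have hw' := mem_cj.mp hw
      obtain ⟨τ, hτ, ha⟩ := act_E7 h hw'
      have h1 := conj_act h hx ha
      have e : x * (x⁻¹ * w * x) * x⁻¹ = w := by group
      rw [e] at h1
      refine key2 h hτ h1 (k := 1) ?_
      have := h.sq_E7 _ hw'
      calc w ^ 2 ^ 1 = x * (x⁻¹ * w * x * (x⁻¹ * w * x)) * x⁻¹ := by rw [pow_one, pow_two]; group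
        _ = 1 := by rw [this]; group
    · have h1 : (E7 d ι b u ⊓ centralizer {t} : Subgroup G) ≤ FF d ι := by
        rintro w ⟨hw, hc⟩
        exact h.hy.mem_FF.mpr (h.cen_E7 hw (mem_centralizer_singleton_iff.mp hc))
      have := card_le_of_le h1
      rw [h.hy.card_FF] at this
      rw [card_cj, h.card_E7]; omega
  have hm : x * y * x⁻¹ ∈ E7 d ι b u := hle (conj_mem_cj hy)
  obtain ⟨τ, -, ha⟩ := act_E7 h hy
  have e2 : ∀ q : F4 × F4, q + id q = 0 := by decide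
  have h1 : Act d ι t (y⁻¹ * (x * y * x⁻¹)) id 0 :=
    ((act_inv h ha).mul h.hy.af (conj_act h hx ha)).congr (fun _ => rfl) (e2 τ)
  have ht : y⁻¹ * (x * y * x⁻¹) * t = t * (y⁻¹ * (x * y * x⁻¹)) := by
    have := h1.2
    rw [ph_zero h.hy, mul_one] at this
    exact mul_inv_eq_iff_eq_mul.mp this
  obtain ⟨f, k, e⟩ := h.cen_E7 (mul_mem (inv_mem hy) hm) ht
  exact ⟨(f, k), by rw [ph, ← e]; group⟩

/-- the elements normalising the coset `x P0` -/
def Sg (h : Wf d ι t O b u) (x g : G) : Prop :=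
  g ∈ normalizer (E7 d ι b u : Set G) ∧ g * t = t * g ∧ x⁻¹ * (g * x * g⁻¹) ∈ P0 h

theorem Sg.mul {h : Wf d ι t O b u} {g g' : G} (h1 : Sg h x g) (h2 : Sg h x g') : Sg h x (g * g') := by
  refine ⟨mul_mem h1.1 h2.1, by rw [mul_assoc, h2.2.1, ← mul_assoc, h1.2.1, mul_assoc], ?_⟩
  have e : x⁻¹ * (g * g' * x * (g * g')⁻¹) =
    x⁻¹ * (g * x * g⁻¹) * (g * (x⁻¹ * (g' * x * g'⁻¹)) * g⁻¹) := by group
  rw [e]
  exact mul_mem h1.2.2 (conj_P0 h h1.1 h1.2.1 h2.2.2)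

/-- the elements normalising the coset `x E7` -/
def S0 (E : Subgroup G) (x : G) : Subgroup G where
  carrier := {g | g ∈ normalizer (E : Set G) ∧ x⁻¹ * (g * x * g⁻¹) ∈ E}
  one_mem' := ⟨one_mem _, by simp⟩
  mul_mem' := by
    rintro g g' h1 h2
    refine ⟨mul_mem h1.1 h2.1, ?_⟩
    have e : x⁻¹ * (g * g' * x * (g * g')⁻¹) =
      x⁻¹ * (g * x * g⁻¹) * (g * (x⁻¹ * (g' * x * g'⁻¹)) * g⁻¹) := by group
    rw [e]
    exact mul_mem h1.2 (conj_mem_of_mem_normalizer h1.1 h2.2)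
  inv_mem' := by
    rintro g h1
    refine ⟨inv_mem h1.1, ?_⟩
    have e : x⁻¹ * (g⁻¹ * x * g⁻¹⁻¹) = g⁻¹ * (x⁻¹ * (g * x * g⁻¹))⁻¹ * g⁻¹⁻¹ := by group
    rw [e]
    exact conj_mem_of_mem_normalizer (inv_mem h1.1) (inv_mem h1.2)

theorem Sg.sq {h : Wf d ι t O b u} {g : G} (h1 : Sg h x g) : g * g ∈ S0 (E7 d ι b u) x := by
  refine ⟨mul_mem h1.1 h1.1, ?_⟩
  have e : x⁻¹ * (g * g * x * (g * g)⁻¹) =
    x⁻¹ * (g * x * g⁻¹) * (g * (x⁻¹ * (g * x * g⁻¹)) * g⁻¹) := by group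
  rw [e]
  obtain ⟨hg, gt, hw⟩ := h1
  generalize x⁻¹ * (g * x * g⁻¹) = w at hw ⊢
  rcases hw with hw | hw
  · exact mul_mem hw (conj_mem_of_mem_normalizer hg hw)
  · have e : w * (g * w * g⁻¹) = w * t * (t * (g * (w * t) * g⁻¹) * t) := by
      have t2 := h.hy.t2
      calc w * (g * w * g⁻¹) = w * (t * t) * g * w * (t * t) * g⁻¹ := by rw [t2]; group
        _ = w * (t * t) * g * w * t * g⁻¹ * (g * t) * g⁻¹ := by group
        _ = _ := by rw [gt]; group
    rw [e]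
    exact mul_mem hw (tE h (conj_mem_of_mem_normalizer hg hw))

theorem sg_inv (h : Wf d ι t O b u) (hx : Act d ι t x id (F4.v, 0)) {l : A} (hl : l ∈ d.L)
    (l2 : l * l = 1) (hn : ι l ∈ normalizer (E7 d ι b u : Set G)) {γ : F4 × F4 → F4 × F4}
    (ha : Act d ι t (ι l) γ 0) (hγ : (γ (F4.v, 0)).1 = F4.v ∨ (γ (F4.v, 0)).1 = F4.w) :
    Sg h x (ι l) := by
  have haf := h.hy.af
  have gt : ι l * t = t * ι l := (h.hy.tc l).symm
  refine ⟨hn, gt, ?_⟩
  have g2 : ι l * ι l = 1 := by rw [← map_mul, l2, map_one]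
  have gi : (ι l)⁻¹ = ι l := inv_eq_of_mul_eq_one_right g2
  obtain ⟨hγγ, -⟩ := (ha.mul haf ha).uniq h.hy (by rw [g2]; exact act_one h.hy)
  have hγ0 : γ 0 = 0 := by
    have := ha.add h.hy 0 0
    rw [add_zero] at this
    exact left_eq_add.mp this
  have h1 : Act d ι t (ι l * x * (ι l)⁻¹) id (γ (F4.v, 0)) := by
    rw [gi]
    refine ((ha.mul haf hx).mul haf ha).congr (fun p => hγγ p) ?_
    simp [hγ0]
  have h2 := (act_inv h hx).mul haf h1
  have e1 : ∀ q : F4 × F4, (q.1 = F4.v ∨ q.1 = F4.w) → (((F4.v, 0) : F4 × F4) + id q).1 *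
    (((F4.v, 0) : F4 × F4) + id q).1 = (((F4.v, 0) : F4 × F4) + id q).1 := by decide
  obtain ⟨o, hO, w, hw, e, ho⟩ := key h (e1 _ hγ) h2
  have hinv : ι l * (o * w) * (ι l)⁻¹ = (o * w)⁻¹ := by
    rw [← e]
    calc ι l * (x⁻¹ * (ι l * x * (ι l)⁻¹)) * (ι l)⁻¹ =
        ι l * x⁻¹ * (ι l)⁻¹ * (ι l * ι l) * x * (ι l * ι l)⁻¹ := by group
      _ = _ := by rw [g2]; group
  have hoo : o * o ∈ P0 h := by
    have e2 : o * o = w⁻¹ * (ι l * w * (ι l)⁻¹)⁻¹ := by
      have e3 : o * (ι l * w * (ι l)⁻¹) = o⁻¹ * w⁻¹ := by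
        rw [← mul_assoc, ← mul_assoc, h.hy.OL o hO l hl, mul_assoc (ι l), hinv, ho w hw, mul_inv_rev]
      calc o * o = o * (o * (ι l * w * (ι l)⁻¹)) * (ι l * w * (ι l)⁻¹)⁻¹ := by group
        _ = _ := by rw [e3]; group
    rw [e2]
    exact mul_mem (inv_mem hw) (inv_mem (conj_P0 h hn gt hw))
  have ho1 : o = 1 := by
    refine odd_two (y := 1) (i := 0) (k := 3) (h.hy.oddO hO) (by simp) (by simp) ?_
    rw [mul_one, ← pow_P0 h hoo, ← pow_two, ← pow_mul]; norm_num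
  rw [e, ho1, one_mul]
  exact hw

theorem equiv (h : Wf d ι t O b u) {g : G} (hg : g ∈ S0 (E7 d ι b u) x) {e : G}
    (he : e ∈ E7 d ι b u) : g * (x * e * x⁻¹) * g⁻¹ = x * (g * e * g⁻¹) * x⁻¹ := by
  have h1 := comm_E7 h hg.2 (conj_mem_of_mem_normalizer hg.1 he)
  calc g * (x * e * x⁻¹) * g⁻¹ =
      x * (x⁻¹ * (g * x * g⁻¹) * (g * e * g⁻¹)) * (x⁻¹ * (g * x * g⁻¹))⁻¹ * x⁻¹ := by group
    _ = _ := by rw [h1]; group

theorem main (h : Wf d ι t O b u) (hx : Act d ι t x id (F4.v, 0)) {k : ℕ} (h2 : x ^ 2 ^ k = 1) :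
    ∃ ν, Xf d ι t O b u x ν := by
  have hA := h.hy.finA
  have haf := h.hy.af
  have hF : ∀ p, x * ph d ι p = ph d ι p * x := fun p => mul_inv_eq_iff_eq_mul.mp (hx.1 p)
  have hx2 : ∃ f k, x * x = ι (d.U 0 f k) := by
    have e2 : ∀ q : F4 × F4, q + id q = 0 := by decide
    have h1 : Act d ι t (x * x) id 0 := (hx.mul haf hx).congr (fun _ => rfl) (e2 _)
    have hP : x * x ∈ P0 h := by
      refine key2 h (τ := 0) (by decide) h1 (k := k) ?_
      rw [← pow_two, ← pow_mul, mul_comm, pow_mul, h2, one_pow]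
    have ht : x * x * t = t * (x * x) := by
      have := h1.2
      rw [ph_zero h.hy, mul_one] at this
      exact mul_inv_eq_iff_eq_mul.mp this
    rcases hP with hP | hP
    · exact h.cen_E7 hP ht
    · exfalso
      obtain ⟨f, k, e⟩ := h.cen_E7 hP (by rw [ht, mul_assoc, mul_assoc, ← mul_assoc x x t, ht])
      have h3 : x * (x * x * t) * x⁻¹ = x * x * t := by
        rw [e]; exact hx.1 (f, k)
      have h4 : x * t * x⁻¹ = t := by
        apply mul_left_cancel (a := x * x)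
        rw [← h3]; group
      rw [hx.2, mul_eq_left, ← ph_zero h.hy] at h4
      exact absurd (ph_inj h.hy h4) (by decide)
  obtain ⟨-, nU, ns, nr, -⟩ := h.n_E7
  have sS : Sg h x (ι d.s) := sg_inv h hx haf.sL haf.s2 ns (act_s h.hy) (by decide)
  have rS : Sg h x (ι d.r) := by
    have e : d.r * d.s * (d.r * d.s) = 1 := by
      calc d.r * d.s * (d.r * d.s) = d.r * (d.s * d.r * d.s⁻¹) * (d.s * d.s) := by group
        _ = 1 := by rw [haf.sr, haf.s2]; group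
    have h1 : Sg h x (ι (d.r * d.s)) := by
      refine sg_inv h hx (mul_mem haf.rL haf.sL) e (by rw [map_mul]; exact mul_mem nr ns)
        (γ := hh F4.w 0 false ∘ hh 1 0 true) ?_ (by decide)
      rw [map_mul]
      exact ((act_r h.hy).mul haf (act_s h.hy)).congr (fun _ => rfl) (by decide)
    have := h1.mul sS
    rwa [← map_mul, mul_assoc, haf.s2, mul_one] at this
  have F0 : ∀ p, ph d ι p ∈ S0 (E7 d ι b u) x := fun p =>
    ⟨nU _ _ _, by rw [← hF]; simp⟩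
  have r3 : ι d.r * ι d.r * ι d.r = 1 := by rw [← map_mul, ← map_mul, haf.r3, map_one]
  have r0 : ι d.r ∈ S0 (E7 d ι b u) x := by
    have := inv_mem rS.sq
    rwa [inv_eq_of_mul_eq_one_right r3] at this
  have U0 : ∀ l f k, ι (d.U l f k) ∈ S0 (E7 d ι b u) x := by
    have h1 : ∀ l, ι (d.U l 1 0) ∈ S0 (E7 d ι b u) x := by
      intro l
      have e1 : ∀ l : F4, l + l = 0 ∧ (1 : F4) + 1 = 0 ∧ 0 + 0 + l * l * (l * l) + l * 1 = 0 := by decide
      have hS : Sg h x (ι (d.U l 1 0)) := by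
        refine sg_inv h hx ((haf.memL _ _ _).mpr (by decide)) ?_ (nU _ _ _) (act_U h.hy l 1 0)
          (Or.inl rfl)
        rw [haf.mul, (e1 l).1, (e1 l).2.1, (e1 l).2.2, haf.U_one]
      have h3 := hS.mul rS
      have h4 : ∃ p, ι (d.U l 1 0) * ι d.r * (ι (d.U l 1 0) * ι d.r) * (ι (d.U l 1 0) * ι d.r) =
          ph d ι p := by
        have e : d.U l 1 0 * d.r * (d.U l 1 0 * d.r) * (d.U l 1 0 * d.r) =
            d.U l 1 0 * (d.r * d.U l 1 0 * d.r⁻¹) * (d.r * (d.r * d.U l 1 0 * d.r⁻¹) * d.r⁻¹) *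
              (d.r * d.r * d.r) := by group
        have e2 : ∀ l : F4, l + F4.w * l + F4.w * (F4.w * l) = 0 := by decide
        rw [haf.r3, mul_one, haf.rU, haf.rU, haf.mul, haf.mul, e2] at e
        have e' := congrArg ι e
        simp only [map_mul] at e'
        exact ⟨(_, _), e'⟩
      obtain ⟨p, hp⟩ := h4
      have h5 : ι (d.U l 1 0) * ι d.r ∈ S0 (E7 d ι b u) x := by
        have := mul_mem (inv_mem h3.sq) (F0 p)
        rwa [← hp, inv_mul_cancel_left] at this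
      have := mul_mem h5 (inv_mem r0)
      rwa [mul_inv_cancel_right] at this
    intro l f k
    have e : d.U l f k = d.U l 1 0 * d.U 0 (1 + f) k := by
      have e1 : ∀ f : F4, 1 + (1 + f) = f := by decide
      rw [haf.mul, e1]; simp
    rw [e, map_mul]
    exact mul_mem (h1 l) (F0 (1 + f, k))
  have hbm : ∀ m, ∃ q, x * b m * x⁻¹ = b m * ph d ι q := fun m => conj_E7 h hx (b_mem m)
  choose β hβ using hbm
  obtain ⟨μ, hμ⟩ := conj_E7 h hx (u_mem (d := d) (ι := ι) (b := b) (u := u))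
  have ar := act_r h.hy
  have hβr : ∀ m, β (F4.w * m) = hh F4.w 0 false (β m) := by
    intro m
    have h1 := equiv h r0 (b_mem m)
    rw [h.bf.rb, hβ, hβ] at h1
    apply ph_inj h.hy
    apply mul_left_cancel (a := b (F4.w * m))
    rw [← h1, ← ar.1, ← h.bf.rb]; group
  have hbb : ∀ m m', b m * b m' = b (m + m') := by
    intro m m'
    rw [h.bf.mul, zero_mul, zero_mul, haf.U_one, map_one, mul_one]
  have hβa : ∀ m m', β (m + m') = β m + β m' := by
    intro m m'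
    apply ph_inj h.hy
    apply mul_left_cancel (a := b (m + m'))
    rw [← hβ, ← hbb, ph_add haf]
    have hc := comm_E7 h (ph_mem (β m)) (b_mem (d := d) (ι := ι) (u := u) m')
    calc x * (b m * b m') * x⁻¹ = x * b m * x⁻¹ * (x * b m' * x⁻¹) := by group
      _ = b m * (ph d ι (β m) * b m') * ph d ι (β m') := by rw [hβ, hβ]; group
      _ = _ := by rw [hc]; group
  have hβv : ∀ m, β m = (0, (β 1).2 * m) := by
    have e1 : β F4.w = hh F4.w 0 false (β 1) := hβr 1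
    have e2 : β F4.v = hh F4.w 0 false (β F4.w) := hβr F4.w
    have e3 : β F4.v = β 1 + β F4.w := hβa 1 F4.w
    have e4 : β 0 = β 0 + β 0 := hβa 0 0
    have fin : ∀ p : F4 × F4, hh F4.w 0 false (hh F4.w 0 false p) = p + hh F4.w 0 false p →
        p = (0, p.2 * 1) ∧ hh F4.w 0 false p = (0, p.2 * F4.w) ∧
          hh F4.w 0 false (hh F4.w 0 false p) = (0, p.2 * F4.v) := by decide
    rw [e1] at e2
    rw [e2, e1] at e3
    obtain ⟨f1, f2, f3⟩ := fin _ e3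
    intro m
    cases m
    · rw [show β F4.o = 0 from left_eq_add.mp e4, show F4.o = 0 from rfl, mul_zero]; rfl
    · exact f1
    · rw [e1, f2]
    · rw [e2, f3]
  have hμr : hh F4.w 0 false μ = μ := by
    have h1 := equiv h r0 (u_mem (d := d) (ι := ι) (b := b) (u := u))
    have h2 : ι d.r * u * (ι d.r)⁻¹ = u := by rw [← h.ur]; group
    rw [h2, hμ] at h1
    apply ph_inj h.hy
    apply mul_left_cancel (a := u)
    rw [← h1, ← ar.1, ← mul_assoc (ι d.r), ← h.ur]; group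
  have hμU : hh 1 1 false μ = μ + β 1 := by
    have h1 := equiv h (U0 1 0 0) (u_mem (d := d) (ι := ι) (b := b) (u := u))
    have b2 : b 1 * b 1 = 1 := h.sq_E7 _ (b_mem 1)
    have h2 : ι (d.U 1 0 0) * u * (ι (d.U 1 0 0))⁻¹ = b 1 * u := by
      have h3 := h.uU 1 0 0
      have h4 := h.bf.cU 1 1 0 0
      calc ι (d.U 1 0 0) * u * (ι (d.U 1 0 0))⁻¹ =
          ι (d.U 1 0 0) * (u * ι (d.U 1 0 0) * u⁻¹)⁻¹ * u := by group
        _ = (b 1)⁻¹ * u := by rw [h3, ← h4]; group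
        _ = _ := by rw [inv_eq_of_mul_eq_one_right b2]
    have aU := act_U h.hy 1 0 0
    rw [h2, hμ] at h1
    have hc := comm_E7 h (ph_mem (β 1)) (u_mem (d := d) (ι := ι) (b := b) (u := u))
    apply ph_inj h.hy
    apply mul_left_cancel (a := b 1 * u)
    calc b 1 * u * ph d ι (hh 1 1 false μ) =
        ι (d.U 1 0 0) * (u * ph d ι μ) * (ι (d.U 1 0 0))⁻¹ := by rw [← aU.1, ← h2]; group
      _ = x * b 1 * x⁻¹ * (x * u * x⁻¹) := by rw [h1]; group
      _ = b 1 * (ph d ι (β 1) * u) * ph d ι μ := by rw [hβ, hμ]; group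
      _ = _ := by rw [hc, add_comm, ph_add haf]; group
  have hμv : μ = ((β 1).2, 0) := by
    have fin : ∀ (p : F4 × F4) (n : F4), hh F4.w 0 false p = p → hh 1 1 false p = p + (0, n * 1) →
      p = (n, 0) := by decide
    exact fin μ _ hμr (hμU.trans (by rw [← hβv 1]))
  have ex : ∀ g ∈ S0 (E7 d ι b u) x, ∃ y ∈ E7 d ι b u, g * x * g⁻¹ = x * y := fun g hg =>
    ⟨_, hg.2, by group⟩
  refine ⟨(β 1).2, h, hx2, fun f k => hF (f, k), hx.2, fun m => ?_, ?_, fun l f k => ex _ (U0 l f k),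
    ex _ r0, ?_⟩
  · rw [hβ, hβv m]; rfl
  · rw [hμ, hμv]; rfl
  · rcases sS.2.2 with hw | hw
    · exact ⟨_, hw, Or.inl (by group)⟩
    · refine ⟨_, hw, Or.inr ?_⟩
      rw [mul_assoc x, mul_assoc _ t t, h.hy.t2]; group

end W16yAux

open W16xAux W16yAux in
theorem Wf.exists_xf (h : Wf d ι t O b u) (hF : ∀ f k, x * ι (d.U 0 f k) = ι (d.U 0 f k) * x)
    (ht : x * t * x⁻¹ = t * ι (d.U 0 F4.v 0)) : ∃ x' ν, Xf d ι t O b u x' ν := by
  have hx : Act d ι t x id (F4.v, 0) := ⟨fun p => mul_inv_eq_iff_eq_mul.mpr (hF p.1 p.2), ht⟩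
  have hodd : ∀ n : ℕ, Act d ι t (x ^ (2 * n + 1)) id (F4.v, 0) := by
    intro n
    induction n with
    | zero => simpa using hx
    | succ n ih =>
      rw [show 2 * (n + 1) + 1 = 2 * n + 1 + 1 + 1 by ring, pow_succ, pow_succ]
      exact ((ih.mul h.hy.af hx).mul h.hy.af hx).congr (fun _ => rfl) (by decide)
  obtain ⟨k, m, hm, e⟩ := Nat.exists_eq_two_pow_mul_odd (orderOf_pos x).ne'
  obtain ⟨n, rfl⟩ := hm
  obtain ⟨ν, hν⟩ := main h (hodd n) (k := k) (by rw [← pow_mul, mul_comm, ← e, pow_orderOf_eq_one])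
  exact ⟨_, ν, hν⟩

end Cfsg.Agent.MS
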