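import Cfsg.Agent.MS.BaseB
import Cfsg.Agent.H88.InvGen

/-! notes/MS.md, section WCan. -/

set_option autoImplicit false

namespace Cfsg.Agent.MS

open Subgroup H29 H42

variable {A G : Type*} [Group A] [Group G] [Finite G] {d : AD A} {ι : A →* G} {t u x : G}
  {O E Q : Subgroup G} {b : F4 → G} {η ν : F4}

omit [Finite G] in
theorem wcan_comm {X : Subgroup G} (sq : ∀ y ∈ X, y * y = 1) {a c : G} (ha : a ∈ X) (hc : c ∈ X) :
    a * c = c * a := by
  have h := sq _ (X.mul_mem ha hc)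
  rw [eq_inv_of_mul_eq_one_left h, mul_inv_rev, inv_eq_of_mul_eq_one_right (sq a ha),
    inv_eq_of_mul_eq_one_right (sq c hc)]

omit [Finite G] in
theorem wcan_zp (t2 : t * t = 1) {y : G} (hy : y ∈ zpowers t) : y = 1 ∨ y = t := by
  obtain ⟨k, rfl⟩ := mem_zpowers_iff.1 hy
  have h2 : t ^ (2 : ℤ) = 1 := by rw [zpow_two, t2]
  rcases Int.emod_two_eq_zero_or_one k with h | h
  · left; rw [← Int.mul_ediv_add_emod k 2, h, add_zero, zpow_mul, h2, one_zpow]
  · right; rw [← Int.mul_ediv_add_emod k 2, h, zpow_add, zpow_mul, h2, one_zpow, one_mul, zpow_one]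

omit [Finite G] in
theorem wcan_sup {X : Subgroup G} (t2 : t * t = 1) (nt : t ∈ normalizer (X : Set G)) {y : G}
    (hy : y ∈ zpowers t ⊔ X) : y ∈ X ∨ ∃ n ∈ X, y = t * n := by
  obtain ⟨a, ha, n, hn, rfl⟩ := exists_mul_of_mem_sup (zpowers_le.2 nt) hy
  rcases wcan_zp t2 ha with rfl | rfl
  · exact Or.inl (by rwa [one_mul])
  · exact Or.inr ⟨n, hn, rfl⟩

omit [Finite G] in
theorem wcan_cen {X : Subgroup G} (sq : ∀ y ∈ X, y * y = 1) (t2 : t * t = 1)
    (nt : t ∈ normalizer (X : Set G)) {y : G} (hy : y ∈ X) :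
    ∃ c ∈ X ⊓ centralizer {t}, y * t * y⁻¹ = t * c := by
  have ti : t⁻¹ = t := inv_eq_of_mul_eq_one_right t2
  have yi : y⁻¹ = y := inv_eq_of_mul_eq_one_right (sq y hy)
  have h1 : t * y * t⁻¹ ∈ X := conj_mem_of_mem_normalizer nt hy
  refine ⟨t * y * t⁻¹ * y, ⟨X.mul_mem h1 hy, mem_centralizer_singleton_iff.2 ?_⟩, ?_⟩
  · have e := wcan_comm sq h1 hy
    rw [ti] at e ⊢
    calc t * y * t * y * t = t * (y * (t * y * t)) := by simp only [mul_assoc]
      _ = _ := by rw [← e]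
  · rw [ti, yi]
    simp only [← mul_assoc, t2, one_mul]

omit [Finite G] in
theorem wcan_nt (X : Subgroup G) : t ∈ normalizer ((X ⊓ centralizer {t} : Subgroup G) : Set G) :=
  centralizer_le_normalizer _ (mem_centralizer_iff.2 fun _ hy => mem_centralizer_singleton_iff.1 hy.2)

theorem wcan_norm {X : Subgroup G} (sq : ∀ y ∈ X, y * y = 1) (t2 : t * t = 1)
    (nt : t ∈ normalizer (X : Set G)) {y : G} (hy : y ∈ X) :
    y ∈ normalizer ((zpowers t ⊔ (X ⊓ centralizer {t}) : Subgroup G) : Set G) := by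
  refine mem_normalizer_of_conj_mem fun a ha => ?_
  have e : ∀ n ∈ X, y * n * y⁻¹ = n := fun n hn => by rw [wcan_comm sq hy hn, mul_inv_cancel_right]
  rcases wcan_sup t2 (wcan_nt X) ha with h | ⟨n, hn, rfl⟩
  · rwa [e a h.1]
  · obtain ⟨c, hc, e'⟩ := wcan_cen sq t2 nt hy
    rw [show y * (t * n) * y⁻¹ = y * t * y⁻¹ * (y * n * y⁻¹) by group, e n hn.1, e']
    exact mul_mem (mul_mem (mem_sup_left (mem_zpowers t)) (mem_sup_right hc)) (mem_sup_right hn)

theorem wcan_syl {P N : Subgroup G} (hP : IsPGroup 2 P) (hN : Odd (Nat.card N))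
    (n : P ≤ normalizer (N : Set G)) : SylIn 2 P (P ⊔ N) := by
  refine ⟨le_sup_left, hP, fun hd => ?_⟩
  have e1 := card_mul_relIndex (le_sup_left : P ≤ P ⊔ N)
  have e2 := card_mul_relIndex (le_sup_right : N ≤ P ⊔ N)
  have e3 : N.relIndex (P ⊔ N) = N.relIndex P := by
    have := normal_subgroupOf_of_le_normalizer (sup_le n le_normalizer)
    rw [← relIndex_subgroupOf (le_refl (P ⊔ N)), subgroupOf_self, ← subgroupOf_self,
      subgroupOf_sup le_sup_left le_sup_right, relIndex_sup_right, relIndex_subgroupOf le_sup_left]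
  obtain ⟨j, hj⟩ := relIndex_dvd_card N P
  have h0 : 0 < N.relIndex P := Nat.pos_of_ne_zero fun h => by
    rw [h, zero_mul] at hj
    exact Nat.card_pos.ne' hj
  have e4 : j * P.relIndex (P ⊔ N) = Nat.card N := by
    refine Nat.eq_of_mul_eq_mul_left h0 ?_
    rw [← mul_assoc, ← hj, e1, ← e2, e3, mul_comm]
  exact (Nat.not_even_iff_odd.2 hN) (even_iff_two_dvd.2 (e4 ▸ hd.mul_left j))

omit [Finite G] in
theorem wcan_pg {X : Subgroup G} (sq : ∀ y ∈ X, y * y = 1) : IsPGroup 2 X :=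
  fun y => ⟨1, Subtype.ext (by simpa [pow_two] using sq y y.2)⟩

theorem Ef.wcan_big (h : Ef d ι t O b u E) : 128 ≤ Nat.card E :=
  h.wf.card_E7 ▸ card_le_of_le h.le

omit [Finite G] in
theorem Ef.wcan_F (h : Ef d ι t O b u E) (f k : F4) : ι (d.U 0 f k) ∈ E :=
  h.le (subset_closure (Or.inl (Or.inl ⟨f, k, rfl⟩)))

theorem Ef.wcan_C (h : Ef d ι t O b u E) : E ⊓ centralizer {t} = FF d ι := by
  ext y
  rw [h.wf.hy.mem_FF, mem_inf, mem_centralizer_singleton_iff]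
  refine ⟨fun hy => h.wf.cen_E h.le h.sq hy.1 hy.2, ?_⟩
  rintro ⟨f, k, rfl⟩
  exact ⟨h.wcan_F f k, (h.wf.hy.tc _).symm⟩

theorem Ef.wcan_E5 (h : Ef d ι t O b u E) : zpowers t ⊔ (E ⊓ centralizer {t}) = E5 d ι t := by
  refine le_antisymm (sup_le (zpowers_le.2 (subset_closure (Or.inr rfl))) ?_) fun y hy => ?_
  · rw [h.wcan_C]
    exact closure_mono Set.subset_union_left
  · have m : ∀ f k, ι (d.U 0 f k) ∈ E ⊓ centralizer {t} := fun f k => by
      rw [h.wcan_C]; exact subset_closure ⟨f, k, rfl⟩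
    obtain ⟨f, k, rfl | rfl⟩ := h.wf.hy.mem_E5.1 hy
    · exact mem_sup_right (m f k)
    · exact mul_mem (mem_sup_left (mem_zpowers t)) (mem_sup_right (m f k))

theorem Ef.wcan_key (h : Ef d ι t O b u E) {E' : Subgroup G} (sq : ∀ y ∈ E', y * y = 1)
    (hc : Nat.card E' = Nat.card E) (nt : t ∈ normalizer (E' : Set G))
    (h5 : zpowers t ⊔ (E' ⊓ centralizer {t}) = E5 d ι t)
    (h16 : Nat.card (E' ⊓ centralizer {t} : Subgroup G) = 16) :
    ∃ o, o * t = t * o ∧ cj o E' = E := by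
  have hy := h.wf.hy
  have t2 := hy.t2
  have big := h.wcan_big
  have c16 : Nat.card (E ⊓ centralizer {t} : Subgroup G) = 16 := by rw [h.wcan_C, hy.card_FF]
  have nc : ∀ y ∈ E, ¬ IsConj t y := fun y hy' =>
    hy.not_conj (fun e he => wcan_comm h.sq he hy') h.sq (by omega)
  have sub : {a | ∃ y ∈ E', y * t * y⁻¹ = a} ⊆ {a | ∃ y ∈ E, y * t * y⁻¹ = a} := by
    rintro _ ⟨y, hy', rfl⟩
    obtain ⟨c, hc', e⟩ := wcan_cen sq t2 nt hy'
    have cj' : IsConj t (y * t * y⁻¹) := isConj_iff.2 ⟨y, rfl⟩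
    obtain ⟨f, k, rfl | rfl⟩ := hy.mem_E5.1 (h5 ▸ mem_sup_right hc')
    · rw [e] at cj' ⊢
      exact h.tr f k cj'
    · rw [e, ← mul_assoc, t2, one_mul] at cj'
      exact absurd cj' (nc _ (h.wcan_F f k))
  have eq : {a | ∃ y ∈ E', y * t * y⁻¹ = a} = {a | ∃ y ∈ E, y * t * y⁻¹ = a} := by
    refine Set.eq_of_subset_of_ncard_le sub ?_
    have e1 := H88.ncard_conj_mul E' t
    have e2 := H88.ncard_conj_mul E t
    rw [h16, hc] at e1
    rw [c16] at e2
    omega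
  have mem : ∀ e ∈ E, ∀ c, e * t * e⁻¹ = t * c → c ∈ E' := fun e he c hc' => by
    obtain ⟨y, hy', e1⟩ : e * t * e⁻¹ ∈ {a | ∃ y ∈ E', y * t * y⁻¹ = a} := eq ▸ ⟨e, he, rfl⟩
    obtain ⟨c', hc'', e2⟩ := wcan_cen sq t2 nt hy'
    rw [e2, hc'] at e1
    exact mul_left_cancel e1 ▸ hc''.1
  have mV : ∀ k, ι (d.U 0 0 k) ∈ E' := fun k =>
    mem _ (h.le (subset_closure (Or.inl (Or.inr ⟨k, rfl⟩)))) _ (h.wf.bf.bt hy k)
  have ma : ι (d.U 0 1 0) ∈ E' := mem _ (h.le (subset_closure (Or.inr rfl))) _ h.wf.ut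
  set P := zpowers t ⊔ E with hP
  set N := O ⊓ centralizer (E5 d ι t : Set G) with hN
  have tE5 : t ∈ E5 d ι t := subset_closure (Or.inr rfl)
  have E5P : E5 d ι t ≤ P := h.wcan_E5 ▸ sup_le_sup_left inf_le_left _
  have nE5 : ∀ e ∈ E, e ∈ normalizer (E5 d ι t : Set G) := fun e he =>
    h.wcan_E5 ▸ wcan_norm h.sq t2 h.nt he
  have le1 : E' ≤ P ⊔ N := fun y hy' => by
    obtain ⟨e, he, e1⟩ := sub ⟨y, hy', rfl⟩
    have cm : ∀ c ∈ E, c ∈ E' → e⁻¹ * y * c = c * (e⁻¹ * y) := fun c hc1 hc2 => by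
      rw [mul_assoc, wcan_comm sq hy' hc2, ← mul_assoc, wcan_comm h.sq (E.inv_mem he) hc1, mul_assoc]
    obtain ⟨o, ho, ho', e5, he5, e2⟩ := hy.cE5 (y := e⁻¹ * y)
      (by calc e⁻¹ * y * t = e⁻¹ * (y * t * y⁻¹) * y := by group
            _ = t * (e⁻¹ * y) := by rw [← e1]; group)
      (fun k => cm _ (h.wcan_F 0 k) (mV k)) (cm _ (h.wcan_F 1 0) ma)
      (mul_mem (inv_mem (nE5 e he)) (h5 ▸ wcan_norm sq t2 nt hy'))
    rw [show y = e * o * e5 by rw [mul_assoc, ← e2]; group]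
    exact mul_mem (mul_mem (mem_sup_left (mem_sup_right he))
      (mem_sup_right ⟨ho, mem_centralizer_iff.2 fun a ha => (ho' a ha).symm⟩)) (mem_sup_left (E5P he5))
  have nN : P ≤ normalizer (N : Set G) := by
    have k : ∀ y ∈ normalizer (E5 d ι t : Set G), y ∈ normalizer (N : Set G) := fun y hy' =>
      mem_normalizer_of_conj_mem fun o ho => by
        have h1 := conj_mem_of_mem_normalizer (normalizer_le_normalizer_centralizer _ hy') ho.2
        refine ⟨hy.odd_mem (fun e he => (mem_centralizer_iff.1 h1 e he).symm) ?_, h1⟩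
        have : orderOf (y * o * y⁻¹) = orderOf o := (MulAut.conj y).orderOf_eq o
        rw [this]
        exact hy.oddO ho.1
    exact sup_le (zpowers_le.2 (k t (le_normalizer tE5))) fun e he => k e (nE5 e he)
  have pP : IsPGroup 2 P :=
    IsPGroup.to_sup_of_normal_right' (wcan_pg fun y hy' => by
      rcases wcan_zp t2 hy' with rfl | rfl
      exacts [one_mul 1, t2]) (wcan_pg h.sq) (zpowers_le.2 h.nt)
  have oN : Odd (Nat.card N) := hy.odd.of_dvd_nat (card_dvd_of_le inf_le_left)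
  obtain ⟨m, hm, hm'⟩ := (wcan_syl pP oN nN).exists_conj (wcan_pg sq) le1
  obtain ⟨p, hp, o, ho, rfl⟩ := exists_mul_of_mem_sup nN hm
  have le2 : cj o E' ≤ P := cj_le_iff.2 fun r hr => by
    have := mul_mem (mul_mem (inv_mem hp) (hm' r hr)) hp
    rwa [show p⁻¹ * (p * o * r * (p * o)⁻¹) * p = o * r * o⁻¹ by group] at this
  refine ⟨o, hy.Ot o ho.1, eq_of_le_of_card_ge (le_of_big (t := t) h.sq (fun y hy' => ?_)
    (fun y hy' => ?_) (by rw [c16, card_cj, hc]; omega)) (by rw [card_cj, hc])⟩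
  · have := sq _ (mem_cj.1 hy')
    rwa [show o⁻¹ * y * o * (o⁻¹ * y * o) = o⁻¹ * (y * y) * o by group, mul_assoc,
      inv_mul_eq_one, eq_comm, mul_eq_right] at this
  · rcases wcan_sup t2 h.nt (le2 hy') with h1 | ⟨n, hn, rfl⟩
    · exact Or.inl h1
    · have := conj_mem_of_mem_normalizer h.nt hn
      rw [inv_eq_of_mul_eq_one_right t2] at this
      exact Or.inr this

theorem Ef.can (h : Ef d ι t O b u E) (g : G) (hg : g * t * g⁻¹ ∈ normalizer (E : Set G)) :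
    ∃ n ∈ normalizer (E : Set G), g * t * g⁻¹ = n * t * n⁻¹ := by
  have hy := h.wf.hy
  have t2 := hy.t2
  have big := h.wcan_big
  have sqc : ∀ (a : G) (X : Subgroup G), (∀ y ∈ X, y * y = 1) → ∀ y ∈ cj a X, y * y = 1 :=
    fun a X sq y hy' => by
      have := sq _ (mem_cj.1 hy')
      rwa [show a⁻¹ * y * a * (a⁻¹ * y * a) = a⁻¹ * (y * y) * a by group, mul_assoc,
        inv_mul_eq_one, eq_comm, mul_eq_right] at this
  have sq1 := sqc g⁻¹ E h.sq
  have c1 : Nat.card (cj g⁻¹ E) = Nat.card E := card_cj _ _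
  have n1 : t ∈ normalizer (cj g⁻¹ E : Set G) := by
    rw [← cj_normalizer, mem_cj, inv_inv]; exact hg
  generalize hE1 : cj g⁻¹ E = E1 at sq1 c1 n1
  have b1 := card_le_sq sq1 t2 n1
  set C := E1 ⊓ centralizer {t} with hC
  have tC : t ∉ C := fun ht =>
    hy.not_conj (fun e he => wcan_comm sq1 he ht.1) sq1 (by omega) (IsConj.refl t)
  have cT : ∀ y ∈ zpowers t ⊔ C, y * t = t * y := fun y hy' =>
    mem_centralizer_singleton_iff.1 ((sup_le (zpowers_le.2 (mem_centralizer_singleton_iff.2 rfl))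
      inf_le_right : zpowers t ⊔ C ≤ centralizer {t}) hy')
  have sT : ∀ y ∈ zpowers t ⊔ C, y * y = 1 := fun y hy' => by
    rcases wcan_sup t2 (wcan_nt E1) hy' with h1 | ⟨n, hn, rfl⟩
    · exact sq1 y h1.1
    · rw [mul_assoc, ← mul_assoc n, mem_centralizer_singleton_iff.1 hn.2, mul_assoc, sq1 n hn.1,
        mul_one, t2]
  have lt : Nat.card C < Nat.card (zpowers t ⊔ C : Subgroup G) := by
    refine lt_of_le_of_ne (card_le_of_le le_sup_right) fun e => tC ?_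
    rw [eq_of_le_of_card_ge (le_sup_right : C ≤ zpowers t ⊔ C) e.ge]
    exact mem_sup_left (mem_zpowers t)
  have r32 := hy.rank cT sT
  obtain ⟨i, hi⟩ := (wcan_pg fun y (hy' : y ∈ C) => sq1 y hy'.1).exists_card_eq
  obtain ⟨j, hj⟩ := (wcan_pg sT).exists_card_eq
  have hi4 : 4 ≤ i := by
    by_contra hlt
    have : Nat.card C ≤ 2 ^ 3 := hi ▸ Nat.pow_le_pow_right two_pos (by omega)
    have := Nat.pow_le_pow_left this 2
    omega
  have hij : i < j := by rwa [hi, hj, Nat.pow_lt_pow_iff_right one_lt_two] at lt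
  have hj5 : j ≤ 5 := by
    rw [hj] at r32
    exact (Nat.pow_le_pow_iff_right one_lt_two).1 r32
  obtain rfl : i = 4 := by omega
  obtain rfl : j = 5 := by omega
  obtain ⟨n, hn, e5⟩ := hy.rank' cT sT hj.ge
  have nt' : n * t * n⁻¹ = t := by rw [hn, mul_inv_cancel_right]
  have eC : cj n E1 ⊓ centralizer {t} = cj n C := by
    ext y
    rw [hC, mem_inf, mem_cj, mem_cj, mem_inf, mem_centralizer_singleton_iff,
      mem_centralizer_singleton_iff]
    refine and_congr_right fun _ => ⟨fun e => ?_, fun e => ?_⟩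
    · calc n⁻¹ * y * n * t = n⁻¹ * (y * (n * t * n⁻¹)) * n := by group
        _ = n⁻¹ * (n * t * n⁻¹ * y) * n := by rw [nt', e]
        _ = _ := by group
    · calc y * t = y * (n * t * n⁻¹) := by rw [nt']
        _ = n * (n⁻¹ * y * n * t) * n⁻¹ := by group
        _ = n * t * n⁻¹ * y := by rw [e]; group
        _ = _ := by rw [nt']
  have eZ : cj n (zpowers t) = zpowers t := by
    rw [cj, MonoidHom.map_zpowers]
    exact congrArg zpowers nt'
  obtain ⟨o, ho, e⟩ := h.wcan_key (E' := cj n E1) (sqc n E1 sq1) (by rw [card_cj, c1])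
    (by rw [← cj_normalizer, ← nt']; exact conj_mem_cj n1)
    (by rw [eC, ← e5, cj_sup, eZ]) (by rw [eC, card_cj, hi]; rfl)
  rw [← hE1, cj_cj, cj_cj, cj_eq_iff_mem_normalizer] at e
  refine ⟨_, inv_mem e, ?_⟩
  have ot : o * t * o⁻¹ = t := by rw [ho, mul_inv_cancel_right]
  conv_lhs => rw [← inv_inv g]
  calc g⁻¹⁻¹ * t * g⁻¹⁻¹⁻¹ = (o * n * g⁻¹)⁻¹ * (o * (n * t * n⁻¹) * o⁻¹) * (o * n * g⁻¹)⁻¹⁻¹ := by group
    _ = _ := by rw [nt', ot]

end Cfsg.Agent.MS
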