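import Cfsg.Agent.MS.BaseB
import Cfsg.Agent.MS.S4
import Cfsg.Agent.MS.WCan

/-! notes/MS.md, section WBar. -/

set_option autoImplicit false

namespace Cfsg.Agent.MS

open Subgroup H29 H42

variable {A G : Type*} [Group A] [Group G] [Finite G] {d : AD A} {ι : A →* G} {t u x : G}
  {O E Q : Subgroup G} {b : F4 → G} {η ν : F4}

namespace WBar

/-- the elements normalising `Z` and acting trivially on `S` modulo `Z` -/
def B1 (S : Set G) (Z : Subgroup G) : Subgroup G where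
  carrier := {y | y ∈ normalizer (Z : Set G) ∧ ∀ e ∈ S, y * e * y⁻¹ * e⁻¹ ∈ Z}
  one_mem' := ⟨one_mem _, fun e _ => by simp⟩
  mul_mem' := by
    rintro y y' ⟨h1, h2⟩ ⟨h3, h4⟩
    refine ⟨mul_mem h1 h3, fun e he => ?_⟩
    rw [show y * y' * e * (y * y')⁻¹ * e⁻¹ = y * (y' * e * y'⁻¹ * e⁻¹) * y⁻¹ * (y * e * y⁻¹ * e⁻¹) by group]
    exact mul_mem (conj_mem_of_mem_normalizer h1 (h4 e he)) (h2 e he)
  inv_mem' := by
    rintro y ⟨h1, h2⟩
    refine ⟨inv_mem h1, fun e he => ?_⟩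
    rw [show y⁻¹ * e * y⁻¹⁻¹ * e⁻¹ = y⁻¹ * (y * e * y⁻¹ * e⁻¹)⁻¹ * y⁻¹⁻¹ by group]
    exact conj_mem_of_mem_normalizer (inv_mem h1) (inv_mem (h2 e he))

omit [Finite G] in
theorem cj_B1 {Z : Subgroup G} {n y : G} (hE : n ∈ normalizer (E : Set G)) (hZ : n ∈ normalizer (Z : Set G))
    (hy : y ∈ B1 (E : Set G) Z) : n * y * n⁻¹ ∈ B1 (E : Set G) Z := by
  refine ⟨mul_mem (mul_mem hZ hy.1) (inv_mem hZ), fun e he => ?_⟩
  have := conj_mem_of_mem_normalizer hZ (hy.2 _ (conj_mem_of_mem_normalizer (inv_mem hE) he))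
  rwa [show n * (y * (n⁻¹ * e * n⁻¹⁻¹) * y⁻¹ * (n⁻¹ * e * n⁻¹⁻¹)⁻¹) * n⁻¹ =
    n * y * n⁻¹ * e * (n * y * n⁻¹)⁻¹ * e⁻¹ by group] at this

omit [Finite G] in
theorem cen_B1 {S : Set G} {Z : Subgroup G} {y : G} (hZ : y ∈ centralizer (Z : Set G))
    (hS : ∀ e ∈ S, e * y = y * e) : y ∈ B1 S Z :=
  ⟨centralizer_le_normalizer _ hZ, fun e he => by rw [← hS e he]; simp⟩

/-- the subgroup `B` -/
def BB (E Z : Subgroup G) : Subgroup G := B1 (E : Set G) Z ⊓ centralizer (Z : Set G)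

theorem n_BB {Z : Subgroup G} {n : G} (hE : n ∈ normalizer (E : Set G)) (hZ : n ∈ normalizer (Z : Set G)) :
    n ∈ normalizer (BB E Z : Set G) :=
  mem_normalizer_of_conj_mem fun _ hy => ⟨cj_B1 hE hZ hy.1,
    conj_mem_of_mem_normalizer (normalizer_le_normalizer_centralizer _ hZ) hy.2⟩

theorem BB_le {Z : Subgroup G} (hZ : Z ≤ E) : BB E Z ≤ normalizer (E : Set G) := fun y hy =>
  mem_normalizer_of_conj_mem fun e he => by
    simpa using mul_mem (hZ (hy.1.2 e he)) he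

omit [Finite G] in
theorem le_BB {Z : Subgroup G} (hZ : Z ≤ E) : centralizer (E : Set G) ≤ BB E Z := fun _ hy =>
  ⟨cen_B1 (centralizer_le hZ hy) hy, centralizer_le hZ hy⟩

omit [Finite G] in
theorem sq_BB {Z : Subgroup G} (hZ : Z ≤ E) (sq : ∀ e ∈ E, e * e = 1) {y : G} (hy : y ∈ BB E Z) :
    y * y ∈ centralizer (E : Set G) := fun e he => by
  have h1 := hy.1.2 e he
  have h2 : y * e * y⁻¹ * e⁻¹ * y = y * (y * e * y⁻¹ * e⁻¹) := hy.2 _ h1
  have h3 := sq _ (hZ h1)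
  calc e * (y * y) = y * e * y⁻¹ * e⁻¹ * (y * e * y⁻¹ * e⁻¹) * e * (y * y) := by rw [h3, one_mul]
    _ = y * e * y⁻¹ * e⁻¹ * y * e * y := by group
    _ = _ := by rw [h2]; group

omit [Finite G] in
theorem B0_le (h : Ef d ι t O b u E) : B0 d ι b ≤ E :=
  (Subgroup.closure_mono (by
    rintro y (⟨k, rfl⟩ | hy)
    exacts [Or.inl (Or.inl ⟨0, k, rfl⟩), Or.inl (Or.inr hy)])).trans h.le

omit [Finite G] in
theorem C_B0 (k : F4) : ι (d.U 0 0 k) ∈ B0 d ι b := subset_closure (Or.inl ⟨k, rfl⟩)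

omit [Finite G] in
theorem b_B0 (m : F4) : b m ∈ B0 d ι b := subset_closure (Or.inr ⟨m, rfl⟩)

theorem n_B0 (h : Ef d ι t O b u E) {n : G} (h1 : ∀ k, n * ι (d.U 0 0 k) * n⁻¹ ∈ B0 d ι b)
    (h2 : ∀ m, n * b m * n⁻¹ ∈ B0 d ι b) : n ∈ normalizer (B0 d ι b : Set G) :=
  mem_normalizer_of_conj_mem fun y hy => by
    obtain ⟨k, m, rfl⟩ := (h.wf.bf.mem_B0 h.wf.hy).1 hy
    rw [← conj_mul]
    exact mul_mem (h1 k) (h2 m)

theorem t_B0 (h : Ef d ι t O b u E) : t ∈ normalizer (B0 d ι b : Set G) :=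
  n_B0 h (fun k => by rw [h.wf.hy.tc, mul_inv_cancel_right]; exact C_B0 k)
    fun m => by rw [h.wf.bf.tb]; exact mul_mem (b_B0 _) (C_B0 _)

theorem s_B0 (h : Ef d ι t O b u E) : ι d.s ∈ normalizer (B0 d ι b : Set G) :=
  n_B0 h (fun k => by rw [← map_inv, ← map_mul, ← map_mul, h.wf.hy.af.sU, mul_zero]; exact C_B0 _)
    fun m => by rw [h.wf.bf.sb]; exact b_B0 _

theorem r_B0 (h : Ef d ι t O b u E) : ι d.r ∈ normalizer (B0 d ι b : Set G) :=
  n_B0 h (fun k => by rw [← map_inv, ← map_mul, ← map_mul, h.wf.hy.af.rU, mul_zero]; exact C_B0 _)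
    fun m => by rw [h.wf.bf.rb]; exact b_B0 _

theorem U_B0 (h : Ef d ι t O b u E) (l k : F4) : ι (d.U l 0 k) ∈ centralizer (B0 d ι b : Set G) :=
  fun y hy => by
    obtain ⟨k', m, rfl⟩ := (h.wf.bf.mem_B0 h.wf.hy).1 hy
    rw [mul_assoc, h.wf.bf.cU, ← mul_assoc, ← mul_assoc, ← map_mul, ← map_mul, h.wf.hy.af.mul,
      h.wf.hy.af.mul]
    congr 3 <;> ring

omit [Finite G] in
theorem E_K (h : Ef d ι t O b u E) : E ≤ centralizer (E : Set G) := fun _ hy _ he => wcan_comm h.sq he hy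

theorem r_B1 (h : Ef d ι t O b u E) : ι d.r ∈ B1 (E : Set G) (B0 d ι b) :=
  ⟨r_B0 h, fun e he => by
    obtain ⟨y, hy, e1⟩ := h.rE e he
    rwa [e1, wcan_comm h.sq he (B0_le h hy), mul_inv_cancel_right]⟩

theorem U_BB (h : Ef d ι t O b u E) : ι (d.U 1 0 0) ∈ BB E (B0 d ι b) ∧ ι (d.U F4.w 0 0) ∈ BB E (B0 d ι b) := by
  have af := h.wf.hy.af
  have k : ∀ l, ι (d.U l 0 0) * (ι (d.U (F4.w * l) 0 0))⁻¹ ∈ B1 (E : Set G) (B0 d ι b) := fun l => by
    have := mul_mem (cj_B1 (h.nU l 0 0) (centralizer_le_normalizer _ (U_B0 h l 0)) (r_B1 h)) (inv_mem (r_B1 h))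
    have e := congrArg ι (af.rU l 0 0)
    rw [mul_zero, map_mul, map_mul, map_inv] at e
    rw [← e]
    convert this using 1
    group
  have kC : ∀ k, ι (d.U 0 0 k) ∈ B1 (E : Set G) (B0 d ι b) := fun k =>
    (le_BB (B0_le h) (E_K h (h.wcan_F 0 k))).1
  have k1 : ι (d.U 1 0 0) ∈ B1 (E : Set G) (B0 d ι b) := by
    rw [show ι (d.U 1 0 0) = ι (d.U 0 0 F4.v) * (ι (d.U F4.w 0 0) * (ι (d.U (F4.w * F4.w) 0 0))⁻¹)⁻¹ by
      rw [mul_inv_rev, inv_inv, ← mul_assoc, eq_mul_inv_iff_mul_eq, ← map_mul, ← map_mul, af.mul, af.mul]; rfl]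
    exact mul_mem (kC F4.v) (inv_mem (k F4.w))
  refine ⟨⟨k1, U_B0 h _ _⟩, ?_, U_B0 h _ _⟩
  have := mul_mem (inv_mem (k 1)) k1
  simpa using this

theorem t_BB (h : Ef d ι t O b u E) : t ∉ BB E (B0 d ι b) := fun ht => by
  have := h.wf.hy.finA
  have e := h.wf.bf.tb 1
  rw [← ht.2 _ (b_B0 1), mul_inv_cancel_right, h.wf.bf.cU] at e
  have e1 : ι (d.U 0 0 0) * b 1 = ι (d.U 0 0 1) * b 1 := by rw [h.wf.hy.af.U_one, map_one, one_mul, ← e]
  exact absurd (h.wf.bf.nf h.wf.hy e1).2.2.1 (by decide)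

theorem t_K (h : Ef d ι t O b u E) : t ∉ centralizer (E : Set G) := fun ht => t_BB h (le_BB (B0_le h) ht)

theorem U_K (h : Ef d ι t O b u E) : ι (d.U 1 0 0) ∉ centralizer (E : Set G) := fun hU => by
  have := h.wf.hy.finA
  have e := hU _ (h.wcan_F 1 0)
  rw [← map_mul, ← map_mul, h.wf.hy.af.mul, h.wf.hy.af.mul] at e
  exact absurd (h.wf.hy.af.U_inj (h.wf.hy.inj e)).2.2 (by decide)

theorem s_K (h : Ef d ι t O b u E) : ι d.s ∉ centralizer (E : Set G) := fun hU => by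
  have := h.wf.hy.finA
  have e := hU _ (h.wcan_F 0 F4.w)
  rw [← map_mul, ← map_mul, BA.sU' h.wf.hy.af] at e
  exact absurd (h.wf.hy.af.U_inj (mul_right_cancel (h.wf.hy.inj e))).2.2 (by decide)

theorem big (h : Ef d ι t O b u E) : ∃ y ∈ BB E (B0 d ι b),
    y ∉ centralizer (E : Set G) ⊔ closure {ι (d.U 1 0 0), ι (d.U F4.w 0 0)} := by
  have hy := h.wf.hy
  have := hy.finA
  obtain ⟨g, hg, gB, k, e⟩ := h.gg
  have gC : g ∈ centralizer (B0 d ι b : Set G) := fun y hy => (gB y hy).symm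
  have VB : VV d ι ≤ B0 d ι b := Subgroup.closure_mono Set.subset_union_left
  refine ⟨g⁻¹ * (ι d.r * g * (ι d.r)⁻¹), mem_inf.2 ⟨?_, mul_mem (inv_mem gC)
    (conj_mem_of_mem_normalizer (normalizer_le_normalizer_centralizer _ (r_B0 h)) gC)⟩, fun hm => ?_⟩
  · have := mul_mem (cj_B1 (inv_mem hg) (inv_mem (centralizer_le_normalizer _ gC)) (r_B1 h)) (inv_mem (r_B1 h))
    convert this using 1
    group
  have kU : ∀ l, ι (d.U l 0 0) ∈ B1 {ι (d.U 0 1 0)} (VV d ι) := fun l =>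
    ⟨centralizer_le_normalizer _ (centralizer_le VB (U_B0 h l 0)), fun e he => by
      rw [he, ← map_inv, ← map_inv, ← map_mul, ← map_mul, ← map_mul, hy.af.U_conj, hy.af.U_inv, hy.af.mul,
        show (0 : F4) + 0 = 0 from rfl, show (1 : F4) + 1 = 0 from rfl]
      exact subset_closure ⟨_, rfl⟩⟩
  have le : centralizer (E : Set G) ⊔ closure {ι (d.U 1 0 0), ι (d.U F4.w 0 0)} ≤
      B1 {ι (d.U 0 1 0)} (VV d ι) := by
    refine sup_le (fun y hy' => cen_B1 (centralizer_le (VB.trans (B0_le h)) hy') fun e he => ?_)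
      ((closure_le _).2 ?_)
    · exact hy' _ (he ▸ h.wcan_F 1 0)
    · rintro _ (rfl | rfl)
      exacts [kU 1, kU F4.w]
  obtain ⟨k', e1⟩ := hy.mem_VV.1 ((le hm).2 _ rfl)
  have ra : ι d.r * ι (d.U 0 1 0) * (ι d.r)⁻¹ = ι (d.U 0 1 0) := by
    rw [← map_inv, ← map_mul, ← map_mul, hy.af.rU, mul_zero]
  have e2 : ι d.r * (g * ι (d.U 0 1 0) * g⁻¹) * (ι d.r)⁻¹ = ι (d.U 0 0 k') * (g * ι (d.U 0 1 0) * g⁻¹) := by
    calc _ = ι d.r * g * (ι d.r)⁻¹ * (ι d.r * ι (d.U 0 1 0) * (ι d.r)⁻¹) * (ι d.r * g * (ι d.r)⁻¹)⁻¹ := by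
          group
      _ = g * (g⁻¹ * (ι d.r * g * (ι d.r)⁻¹) * ι (d.U 0 1 0) * (g⁻¹ * (ι d.r * g * (ι d.r)⁻¹))⁻¹ *
          (ι (d.U 0 1 0))⁻¹) * ι (d.U 0 1 0) * g⁻¹ := by rw [ra]; group
      _ = _ := by rw [e1, gB _ (C_B0 k')]; group
  rw [e, ← conj_mul, h.wf.bf.rb, ← map_inv, ← map_mul, ← map_mul, hy.af.rU, ← mul_assoc, ← map_mul,
    hy.af.mul] at e2
  exact absurd (h.wf.bf.nf hy e2).2.2.2 (by decide)

theorem key (h : Ef d ι t O b u E) {n : G} (hn : n * t * n⁻¹ * t⁻¹ ∈ E) :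
    ∃ x ∈ E, x⁻¹ * n * t = t * (x⁻¹ * n) := by
  have t2 := h.wf.hy.t2
  have ti : t⁻¹ = t := inv_eq_of_mul_eq_one_right t2
  have e1 : n * t * n⁻¹ * t⁻¹ * t = t * (n * t * n⁻¹ * t⁻¹) := by
    have e2 := h.sq _ hn
    have e3 : n * t * n⁻¹ * (n * t * n⁻¹) = 1 := by rw [conj_mul, t2]; simp
    rw [ti] at e2 ⊢
    generalize n * t * n⁻¹ = y at e2 e3
    calc y * t * t = y * (y * t * (y * t)) * t * t := by rw [e2, mul_one]
      _ = y * y * t * y * t * (t * t) := by group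
      _ = _ := by rw [e3, t2]; group
  obtain ⟨f, k, e⟩ := h.wf.cen_E h.le h.sq hn e1
  have e2 : n * t * n⁻¹ = t * ι (d.U 0 f k) := by rw [← e, ← e1, inv_mul_cancel_right]
  obtain ⟨x, hx, e3⟩ := h.tr f k (isConj_iff.2 ⟨n, e2⟩)
  refine ⟨x, hx, ?_⟩
  calc x⁻¹ * n * t = x⁻¹ * (n * t * n⁻¹) * n := by group
    _ = _ := by rw [e2, ← e3]; group

theorem n_E5 (h : Ef d ι t O b u E) {n : G} (hn : n ∈ normalizer (E : Set G)) (ht : n * t = t * n) :
    n ∈ normalizer (E5 d ι t : Set G) := by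
  have hy := h.wf.hy
  have k : ∀ f k, ∃ f' k', n * ι (d.U 0 f k) * n⁻¹ = ι (d.U 0 f' k') := fun f k =>
    h.wf.cen_E h.le h.sq (conj_mem_of_mem_normalizer hn (h.wcan_F f k)) (by
      have e : n * t * n⁻¹ = t := by rw [ht, mul_inv_cancel_right]
      conv_lhs => rw [← e, conj_mul, ← hy.tc, ← conj_mul, e])
  refine mem_normalizer_of_conj_mem fun y hy' => ?_
  obtain ⟨f, k', rfl | rfl⟩ := hy.mem_E5.1 hy'
  · obtain ⟨f', k'', e⟩ := k f k'
    exact hy.mem_E5.2 ⟨f', k'', Or.inl e⟩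
  · obtain ⟨f', k'', e⟩ := k f k'
    exact hy.mem_E5.2 ⟨f', k'', Or.inr (by rw [← conj_mul, e, ht, mul_inv_cancel_right])⟩

theorem syl (h : Ef d ι t O b u E) : SylIn 2 E (centralizer (E : Set G)) := by
  have hy := h.wf.hy
  refine syl_of_inv (E_K h) (wcan_pg h.sq) hy.t2 (normalizer_le_normalizer_centralizer _ h.nt) h.nt ?_
  rintro n hn hn' ⟨j, hj⟩ he
  obtain ⟨x, hx, e⟩ := key h he
  have yK : x⁻¹ * n ∈ centralizer (E : Set G) := mul_mem (inv_mem (E_K h hx)) hn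
  obtain ⟨o, ho, ho', e5, he5, e1⟩ := hy.cE5 e (fun k => (yK _ (h.wcan_F 0 k)).symm)
    (yK _ (h.wcan_F 1 0)).symm (n_E5 h (centralizer_le_normalizer _ yK) e)
  have c : Commute x⁻¹ n := hn _ (inv_mem hx)
  have o1 : o = 1 := odd_two (hy.oddO ho) (ho' e5 he5) (i := 1) (k := j + 1)
    (by rw [pow_one, pow_two, BG.sq hy he5]) (by
      rw [← e1, c.mul_pow, pow_succ 2 j, pow_mul n, hj, one_pow, mul_one, mul_comm (2 ^ j), pow_mul, pow_two,
        h.sq _ (inv_mem hx), one_pow])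
  rw [o1, one_mul] at e1
  obtain ⟨f, k, rfl | rfl⟩ := hy.mem_E5.1 he5
  · rw [inv_mul_eq_iff_eq_mul.1 e1]
    exact mul_mem hx (h.wcan_F f k)
  · rw [e1] at yK
    exact absurd ((mul_mem_cancel_right (E_K h (h.wcan_F f k))).1 yK) (t_K h)

theorem n_T1 (h : Ef d ι t O b u E) {M : Subgroup G} (hU : ∀ l f k, ι (d.U l f k) ∈ M) (hs : ι d.s ∈ M)
    (hr : ι d.r ∈ M) (n : ℕ) {l : A} (hl : l ∈ T1 d) : ι (d.r ^ n * l) ∈ M := by
  have := h.wf.hy.finA
  rw [map_mul, map_pow]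
  refine mul_mem (pow_mem hr n) ?_
  obtain ⟨l, f, k, rfl | rfl⟩ := h.wf.hy.af.mem_T1.1 hl
  · exact hU _ _ _
  · rw [map_mul]; exact mul_mem (hU _ _ _) hs

theorem cen (h : Ef d ι t O b u E) {y : G} (hN : y ∈ normalizer (E : Set G))
    (he : y * t * y⁻¹ * t⁻¹ ∈ centralizer (E : Set G)) :
    y ∈ centralizer (E : Set G) ⊔ closure {t, ι (d.U 1 0 0), ι (d.U F4.w 0 0), ι d.s, ι d.r} := by
  have hy := h.wf.hy
  have := hy.finA
  obtain ⟨k, hk, e⟩ := conj_coset (syl h) hy.t2 (t_K h) (normalizer_le_normalizer_centralizer _ h.nt) h.nt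
    (y := y * t * y⁻¹) (by rw [conj_mul, hy.t2]; simp) he
  obtain ⟨x, hx, e1⟩ := key h (n := k * y) (by convert e using 2; group)
  have nN : x⁻¹ * (k * y) ∈ normalizer (E : Set G) :=
    mul_mem (inv_mem (le_normalizer hx)) (mul_mem (centralizer_le_normalizer _ hk) hN)
  obtain ⟨o, ho, ho', n, l, hl, e2⟩ := hy.nFt e1 (n_E5 h nN e1)
  have lN := n_T1 h h.nU h.ns h.nr n hl
  have oN : o ∈ normalizer (E : Set G) := by
    rcases e2 with e2 | e2 <;> rw [e2] at nN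
    · exact (mul_mem_cancel_right lN).1 nN
    · exact (mul_mem_cancel_right (mul_mem h.nt lN)).1 nN
  have oK : o ∈ centralizer (E : Set G) := fun e he =>
    (cen_of_odd h.sq hy.t2 h.nt oN (hy.oddO ho) (hy.Ot o ho) (fun x hx hx' => by
      obtain ⟨f, k, rfl⟩ := h.wf.cen_E h.le h.sq hx hx'
      exact ho' _ (hy.mem_E5.2 ⟨f, k, Or.inl rfl⟩)) e he).symm
  set M := centralizer (E : Set G) ⊔ closure {t, ι (d.U 1 0 0), ι (d.U F4.w 0 0), ι d.s, ι d.r} with hM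
  have m1 : ι (d.U 1 0 0) ∈ M := mem_sup_right (subset_closure (by simp))
  have m2 : ι (d.U F4.w 0 0) ∈ M := mem_sup_right (subset_closure (by simp))
  have mF : ∀ f k, ι (d.U 0 f k) ∈ M := fun f k => mem_sup_left (E_K h (h.wcan_F f k))
  have mU : ∀ l f k, ι (d.U l f k) ∈ M := fun l f k => by
    have e0 : ∀ κ, ι (d.U l 0 κ) ∈ M → ι (d.U l f k) ∈ M := fun κ hκ => by
      have := mul_mem hκ (mF f (k + κ))
      rwa [← map_mul, hy.af.mul, add_zero, zero_add, 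
        (by decide : ∀ l k κ : F4, κ + (k + κ) + l * l * (0 * 0) + 0 * 0 = k)] at this
    rcases (by decide : ∀ m : F4, m = 0 ∨ m = 1 ∨ m = F4.w ∨ m = 1 + F4.w) l with rfl | rfl | rfl | rfl
    · exact mF f k
    · exact e0 0 m1
    · exact e0 0 m2
    · have := mul_mem m1 m2
      rw [← map_mul, hy.af.mul] at this
      exact e0 _ this
  have lM : ι (d.r ^ n * l) ∈ M := n_T1 h mU (mem_sup_right (subset_closure (by simp)))
    (mem_sup_right (subset_closure (by simp))) n hl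
  have nM : x⁻¹ * (k * y) ∈ M := by
    rcases e2 with e2 | e2 <;> rw [e2]
    · exact mul_mem (mem_sup_left oK) lM
    · exact mul_mem (mem_sup_left oK) (mul_mem (mem_sup_right (subset_closure (by simp))) lM)
  exact (mul_mem_cancel_left (mem_sup_left hk)).1
    ((mul_mem_cancel_left (inv_mem (mem_sup_left (E_K h hx)))).1 nM)

theorem ncj (h : Ef d ι t O b u E) (y : G) : y * t * y⁻¹ * (ι d.s)⁻¹ ∉ centralizer (E : Set G) := fun he => by
  have hy := h.wf.hy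
  obtain ⟨k, -, e⟩ := conj_coset (syl h) (by rw [← map_mul, hy.af.s2, map_one]) (s_K h)
    (normalizer_le_normalizer_centralizer _ h.ns) h.ns (y := y * t * y⁻¹) (by rw [conj_mul, hy.t2]; simp) he
  exact h.wf.ns h.le h.sq e (isConj_iff.2 ⟨k * y, by group⟩)

theorem nB (h : Ef d ι t O b u E) {y : G} (hN : y ∈ normalizer (E : Set G))
    (ht : t ∈ normalizer (cj y (BB E (B0 d ι b)) : Set G)) (h1 : ι (d.U 1 0 0) ∈ cj y (BB E (B0 d ι b))) :
    ι d.s ∉ cj y (BB E (B0 d ι b)) := fun h2 => by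
  have hy := h.wf.hy
  have := hy.finA
  set E1 := E ⊓ centralizer (cj y (BB E (B0 d ι b)) : Set G) with hE1
  have le : cj y (B0 d ι b) ≤ E1 := by
    refine le_inf (cj_le_iff.2 fun x hx => conj_mem_of_mem_normalizer hN (B0_le h hx)) ?_
    rw [← cj_centralizer]
    exact cj_mono y fun z hz a ha => (ha.2 z hz).symm
  have c1 := card_le_of_le le
  rw [card_cj, h.wf.bf.card_B0 hy] at c1
  have c2 := card_le_sq (E := E1) (fun x hx => h.sq x hx.1) hy.t2 (mem_normalizer_of_conj_mem fun x hx =>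
    ⟨conj_mem_of_mem_normalizer h.nt hx.1,
      conj_mem_of_mem_normalizer (normalizer_le_normalizer_centralizer _ ht) hx.2⟩)
  have c3 := BA.card_le (E := E1 ⊓ centralizer {t}) ({0, 1} : Finset F4) (fun k => ι (d.U 0 0 k))
    fun x hx => by
      obtain ⟨f, k, rfl⟩ := h.wf.cen_E h.le h.sq hx.1.1 (mem_centralizer_singleton_iff.1 hx.2)
      have e1 := hx.1.2 _ h1
      have e2 := hx.1.2 _ h2
      rw [← map_mul, ← map_mul, hy.af.mul, hy.af.mul] at e1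
      rw [← map_mul, ← map_mul, BA.sU' hy.af] at e2
      have e3 := (hy.af.U_inj (hy.inj e1)).2.2
      have e4 := (hy.af.U_inj (mul_right_cancel (hy.inj e2))).2.2
      have e5 : f = 0 ∧ k ∈ ({0, 1} : Finset F4) := by
        clear e1 e2 hx
        revert f k; decide
      exact ⟨k, e5.2, by rw [e5.1]⟩
  have c4 := Nat.pow_le_pow_left c3 2
  have c5 : ({0, 1} : Finset F4).card = 2 := by decide
  rw [c5] at c4
  omega

end WBar

open WBar

theorem Ef.bar (h : Ef d ι t O b u E) : Pt (normalizer (E : Set G)) t := by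
  have hy := h.wf.hy
  have := hy.finA
  have af := hy.af
  have k : ι (d.U F4.v 0 0) * (ι (d.U 1 0 0) * ι (d.U F4.w 0 0))⁻¹ ∈ centralizer (E : Set G) := by
    rw [← map_mul, ← map_inv, ← map_mul, af.mul, af.U_inv, af.mul]
    exact E_K h (h.wcan_F _ _)
  refine s4d (K := centralizer (E : Set G)) (B := BB E (B0 d ι b)) (w₁ := ι (d.U 1 0 0))
    (w₂ := ι (d.U F4.w 0 0)) (σ := ι d.s) (ρ := ι d.r) (le_BB (B0_le h)) (BB_le (B0_le h))
    (normalizer_le_normalizer_centralizer _) h.nt h.ns h.nr (U_BB h).1 (U_BB h).2 hy.t2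
    (by rw [← map_mul, af.s2, map_one]) (by rw [← map_mul, ← map_mul, af.r3, map_one])
    (by rw [← map_inv, ← map_mul, ← map_mul, af.sr, map_inv]) (hy.tc _) (hy.tc _) (hy.tc _)
    (by rw [← map_inv, ← map_mul, ← map_mul, af.rU]; rfl) ?_
    (by rw [← map_inv, ← map_mul, ← map_mul, af.sU]; rfl) ?_ (U_K h)
    (fun y hy => sq_BB (B0_le h) h.sq hy) (n_BB h.nt (t_B0 h)) (n_BB h.ns (s_B0 h)) (n_BB h.nr (r_B0 h))
    (t_BB h) (big h) (fun y hN he => cen h hN he) (fun y _ => ncj h y) fun y hN ht h1 => nB h hN ht h1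
  · rw [← map_inv ι d.r, ← map_mul, ← map_mul, af.rU]
    exact k
  · rw [← map_inv ι d.s, ← map_mul, ← map_mul, af.sU]
    exact k

end Cfsg.Agent.MS
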