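import Cfsg.Agent.MS.XW0

/-! notes/MS.md, section WX. -/

set_option autoImplicit false
set_option linter.unusedSectionVars false

namespace Cfsg.Agent.MS

open Subgroup H29 H42

variable {A G : Type*} [Group A] [Group G] [Finite G] {d : AD A} {ι : A →* G} {t u x : G}
  {O E Q : Subgroup G} {b : F4 → G} {η ν : F4}

namespace WX

open XW

/-- the defining property of the element `u` modulo `V` -/
structure PP (d : AD A) (ι : A →* G) (t : G) (b : F4 → G) (κ : G) : Prop where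
  ht : cn κ t = t * X d ι b 0 1 0 0
  hx : ∀ l f k m, cn κ (X d ι b l f k m) = X d ι b l f k (m + l)

section
variable (hb : Bf d ι t b 0) (h : Hy d ι t ⊥)
include hb h

theorem w0 : X d ι b 0 0 (0 * F4.w) 1 = X d ι b 0 0 0 1 := by xeq

theorem ga : cn (gE d ι b) (X d ι b 0 1 0 0) = X d ι b 0 1 0 1 := by
  rw [g_a hb h, w0 hb h, p_b1 hb h, X_mul hb h]
  xeq

theorem hN : ∃ ζ, X d ι b 0 0 0 F4.v * gE d ι b * cn (ι d.p)⁻¹ (X d ι b 0 0 0 F4.v) =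
    X d ι b 0 0 ζ 0 := by
  obtain ⟨l, k, -, e⟩ := gN hb h
  have h1 := X_X hb h l l k 0 0 1 0 0
  rw [← e, mul_cn, mul_cn, g3_a hb h, w0 hb h, inv_cn (p_b1 hb h), cn_mul (gE d ι b), ga hb h,
    g_b1 hb h, X_mul hb h, X_X hb h] at h1
  have h2 := (X_inj hb h h1).2.2.1
  have h3 : l = 0 := by clear * - h2; decide +revert
  exact ⟨k, h3 ▸ e⟩

theorem gg : gE d ι b * gE d ι b = 1 := hb.g_sq0 h

theorem gi : (gE d ι b)⁻¹ = gE d ι b := inv_eq_of_mul_eq_one_right (gg hb h)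

theorem gβ : cn (gE d ι b) (X d ι b 0 0 0 F4.v) = X d ι b 0 0 0 F4.v := by
  obtain ⟨k, e⟩ := hN hb h
  have h1 : cn (X d ι b 0 0 0 F4.v) (X d ι b 0 0 k 0) = X d ι b 0 0 k 0 := by
    rw [X_X hb h]; xeq
  have h2 : X d ι b 0 0 0 F4.v * X d ι b 0 0 0 F4.v = 1 := by
    rw [X_mul hb h, ← X_one hb h]; xeq
  rw [aux1 e h1 (g_X hb h _ _), ← cn_mul, h2, cn_one, gg hb h]
  simp only [X_inv hb h, X_mul hb h, inv_one, mul_one]
  xeq

theorem gb (m : F4) : cn (gE d ι b) (X d ι b 0 0 0 m) = X d ι b 0 0 0 m := by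
  cases m
  · exact g_X hb h 0 0
  · exact g_b1 hb h
  · have h1 : X d ι b 0 0 0 F4.w = X d ι b 0 0 0 1 * X d ι b 0 0 0 F4.v := by
      rw [X_mul hb h]; xeq
    rw [h1, cn_mul, g_b1 hb h, gβ hb h]
  · exact gβ hb h

theorem gc : ∃ ζ, cn (gE d ι b) (X d ι b 0 F4.v 0 0) = X d ι b 0 F4.v ζ F4.v := by
  obtain ⟨k, e⟩ := hN hb h
  have h1 : X d ι b 0 F4.v 0 0 * X d ι b 0 F4.v 0 0 = 1 := by
    rw [X_mul hb h, ← X_one hb h]; xeq
  rw [aux2 e (g_X hb h _ _) h1 (c_g hb h), inv_cn (gβ hb h), gg hb h]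
  simp only [X_inv hb h, X_mul hb h, inv_one, mul_one]
  exact ⟨_, X_congr (by decide) (by decide) rfl (by decide)⟩

theorem gX : ∃ ζ, ∀ l f k m, cn (gE d ι b) (X d ι b l f k m) =
    X d ι b l f (k + ζ * (l + f + (l + f) * (l + f))) (m + l + f) := by
  obtain ⟨ζ, e⟩ := gc hb h
  have gf : ∀ f, cn (gE d ι b) (X d ι b 0 f 0 0) = X d ι b 0 f (ζ * (f + f * f)) f := by
    intro f
    cases f
    · refine (g_X hb h 0 0).trans ?_
      xeq
    · refine (ga hb h).trans ?_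
      xeq
    · have h1 : X d ι b 0 F4.w 0 0 = X d ι b 0 1 0 0 * X d ι b 0 F4.v 0 0 := by
        rw [X_mul hb h]; xeq
      rw [h1, cn_mul, ga hb h, e, X_mul hb h]
      xeq
    · refine e.trans ?_
      xeq
  refine ⟨ζ, fun l f k m => ?_⟩
  have h1 : X d ι b l f k m = X d ι b l l k 0 * X d ι b 0 (l + f) 0 0 * X d ι b 0 0 0 m := by
    rw [X_mul hb h, X_mul hb h]; xeq
  rw [h1, cn_mul, cn_mul, g_X hb h, gf, gb hb h, X_mul hb h, X_mul hb h]
  xeq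

theorem si : (ι d.s)⁻¹ = ι d.s := inv_eq_of_mul_eq_one_right (s_s hb h)

theorem cenR {δ : G} (h1 : cn δ t = t) (h2 : ∀ l f k m, cn δ (X d ι b l f k m) = X d ι b l f k m) :
    ∃ k, δ = X d ι b 0 0 k 0 := by
  obtain ⟨o, ho, l, f, k, e⟩ := h.cVt (cn_self.1 h1)
    (fun k => by rw [U_eq hb h]; exact cn_self.1 (h2 _ _ _ _))
  rw [Subgroup.mem_bot.1 ho, one_mul, one_mul, U_eq hb h] at e
  rcases e with e | e
  · have h3 := h2 0 1 0 0
    have h4 := h2 1 0 0 0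
    rw [e, X_X hb h] at h3 h4
    have h5 := (X_inj hb h h3).2.2.1
    have h6 := (X_inj hb h h4).2.2.1
    have h7 : l = 0 := by clear * - h5; decide +revert
    have h8 : f = 0 := by clear * - h6; decide +revert
    exact ⟨k, by rw [e, h7, h8]⟩
  · have h3 := h2 0 0 0 1
    rw [e, mul_cn, X_X hb h, t_X hb h] at h3
    have h5 := (X_inj hb h h3).2.2.1
    exfalso
    clear * - h5
    revert h5
    decide +revert

theorem diff {κ κ' : G} (p : PP d ι t b κ) (p' : PP d ι t b κ') :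
    ∃ k, κ' = κ * X d ι b 0 0 k 0 := by
  obtain ⟨k, e⟩ := cenR hb h (δ := κ⁻¹ * κ') (by rw [mul_cn, p'.ht, inv_cn p.ht])
    (fun l f k m => by rw [mul_cn, p'.hx, inv_cn (p.hx l f k m)])
  exact ⟨k, by rw [← e, mul_inv_cancel_left]⟩

theorem sq {κ : G} (p : PP d ι t b κ) : ∃ k, κ * κ = X d ι b 0 0 k 0 := by
  refine cenR hb h ?_ (fun l f k m => ?_)
  · rw [mul_cn, p.ht, cn_mul, p.ht, p.hx, mul_assoc, X_mul hb h]
    nth_rewrite 2 [← mul_one t]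
    rw [← X_one hb h]
    refine congrArg _ ?_
    xeq
  · rw [mul_cn, p.hx, p.hx]
    xeq

theorem mulC {κ : G} (p : PP d ι t b κ) (k : F4) : PP d ι t b (κ * X d ι b 0 0 k 0) where
  ht := by rw [mul_cn, X_t hb h, X_one hb h, mul_one, p.ht]
  hx := fun l f k' m => by
    rw [mul_cn, X_X hb h, p.hx]
    xeq

theorem conj_r {κ : G} (p : PP d ι t b κ) : PP d ι t b (cn (ι d.r) κ) where
  ht := by
    rw [cn_cn, ιi_t hb h, p.ht, cn_mul, ι_t hb h, r_X hb h]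
    refine congrArg _ ?_
    xeq
  hx := fun l f k m => by
    rw [cn_cn, ri_X hb h, p.hx, r_X hb h]
    xeq

theorem conj_s {κ : G} (p : PP d ι t b κ) : PP d ι t b (cn (ι d.s) κ) where
  ht := by
    rw [cn_cn, ιi_t hb h, p.ht, cn_mul, ι_t hb h, s_X hb h]
    refine congrArg _ ?_
    xeq
  hx := fun l f k m => by
    rw [cn_cn, si hb h, s_X hb h, p.hx, s_X hb h]
    xeq

theorem exists_PP : ∃ κ, PP d ι t b κ := by
  obtain ⟨ζ, e⟩ := gX hb h
  have w1 : cn (cn (ι d.r) (gE d ι b)) t = t * X d ι b F4.w 1 0 0 := by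
    rw [cn_cn, ιi_t hb h, g_t hb h, cn_mul, ι_t hb h, r_X hb h]
    refine congrArg _ ?_
    xeq
  have w2 : ∀ l f k m, cn (cn (ι d.r) (gE d ι b)) (X d ι b l f k m) = X d ι b l f
      (k + F4.w * ζ * (F4.v * l + f + (F4.v * l + f) * (F4.v * l + f))) (m + l + F4.w * f) := by
    intro l f k m
    rw [cn_cn, ri_X hb h, e, r_X hb h]
    xeq
  have v1 : cn (cn (ι d.r)⁻¹ (gE d ι b)) t = t * X d ι b F4.v 1 0 0 := by
    rw [cn_cn, inv_inv, ι_t hb h, g_t hb h, cn_mul, ιi_t hb h, ri_X hb h]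
    refine congrArg _ ?_
    xeq
  have v2 : ∀ l f k m, cn (cn (ι d.r)⁻¹ (gE d ι b)) (X d ι b l f k m) = X d ι b l f
      (k + F4.v * ζ * (F4.w * l + f + (F4.w * l + f) * (F4.w * l + f))) (m + l + F4.v * f) := by
    intro l f k m
    rw [cn_cn, inv_inv, r_X hb h, e, ri_X hb h]
    xeq
  refine ⟨X d ι b 0 0 0 (F4.w * (1 + ζ)) * (gE d ι b * (cn (ι d.r) (gE d ι b) *
    (cn (ι d.r)⁻¹ (gE d ι b) * X d ι b 0 ζ 0 0))), ?_, fun l f k m => ?_⟩
  · rw [mul_cn, mul_cn, mul_cn, mul_cn, X_t hb h 0 ζ, X_one hb h, mul_one, v1, cn_mul, w1, w2,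
      mul_assoc, X_mul hb h, cn_mul, g_t hb h, e, mul_assoc, X_mul hb h, cn_mul, X_t hb h,
      X_X hb h, mul_assoc, X_mul hb h]
    refine congrArg _ ?_
    xeq
  · rw [mul_cn, mul_cn, mul_cn, mul_cn, X_X hb h, v2, w2, e, X_X hb h]
    xeq

theorem exists_u : ∃ u, PP d ι t b u ∧ cn (ι d.r) u = u := by
  obtain ⟨κ, p⟩ := exists_PP hb h
  obtain ⟨m, e⟩ := diff hb h p (conj_r hb h p)
  refine ⟨κ * X d ι b 0 0 (F4.w * m) 0, mulC hb h p _, ?_⟩
  rw [cn_mul, e, r_X hb h, mul_assoc, X_mul hb h]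
  refine congrArg _ ?_
  xeq

theorem r_fix {k : F4} (e : cn (ι d.r) (X d ι b 0 0 k 0) = X d ι b 0 0 k 0) :
    X d ι b 0 0 k 0 = 1 := by
  rw [r_X hb h] at e
  have h1 := (X_inj hb h e).2.2.1
  have h2 : k = 0 := by clear * - h1; decide +revert
  rw [h2, X_one hb h]

variable (p : PP d ι t b u) (hr : cn (ι d.r) u = u)
include p hr

theorem u2 : u * u = 1 := by
  obtain ⟨k, e⟩ := sq hb h p
  rw [e]
  refine r_fix hb h ?_
  rw [← e, cn_mul, hr]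

theorem us : cn (ι d.s) u = u := by
  obtain ⟨k, e⟩ := diff hb h p (conj_s hb h p)
  have h1 : cn (ι d.s) (ι d.r) = (ι d.r)⁻¹ := by rw [ι_cn, h.af.sr, map_inv]
  have h2 : cn (ι d.r)⁻¹ (cn (ι d.s) u) = cn (ι d.s) u := by rw [← h1, cn_cn', hr]
  have h3 := inv_cn h2
  rw [inv_inv, e, cn_mul, hr, mul_right_inj] at h3
  rw [e, r_fix hb h h3, mul_one]

theorem uX (f k m : F4) : cn u (X d ι b 0 f k m) = X d ι b 0 f k m := by rw [p.hx, add_zero]

theorem uj : cn u (ι d.j) = ι d.j := by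
  have ja : cn (ι d.j) (X d ι b 0 1 0 0) = X d ι b 0 1 0 0 := by
    rw [← U_eq hb h, cn_self, ← map_mul, ← map_mul, h.af.ja]
  have jc : cn (ι d.j) (X d ι b 0 F4.v 0 0) = X d ι b 0 F4.v 0 0 := by
    rw [← U_eq hb h, cn_self, ← map_mul, ← map_mul, h.af.jc]
  have jr : cn (ι d.j) (ι d.r) = (ι d.r)⁻¹ := by rw [ι_cn, h.af.jr, map_inv]
  have jz : (ι d.j * X d ι b 0 0 1 0) ^ 3 = 1 := by
    rw [← U_eq hb h, ← map_mul, ← map_pow, h.af.jz, map_one]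
  have a1 : cn (cn u (ι d.j)) (X d ι b 0 1 0 0) = X d ι b 0 1 0 0 := by
    rw [← uX hb h p hr, cn_cn', ja]
  have c1 : cn (cn u (ι d.j)) (X d ι b 0 F4.v 0 0) = X d ι b 0 F4.v 0 0 := by
    rw [← uX hb h p hr, cn_cn', jc]
  have r1 : cn (cn u (ι d.j)) (ι d.r) = (ι d.r)⁻¹ := by
    rw [← cn_comm hr, cn_cn', jr, cn_inv]
  have z1 : (cn u (ι d.j) * X d ι b 0 0 1 0) ^ 3 = 1 := by
    rw [← uX hb h p hr, ← cn_mul, cn, conj_pow, jz]
    group
  have t1 : cn (cn u (ι d.j)) t = t := by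
    have h1 : cn (cn u (ι d.j)) (cn u t) = cn u t := by rw [cn_cn', ι_t hb h]
    rwa [p.ht, cn_mul, a1, mul_left_inj] at h1
  obtain ⟨o, ho, y, e⟩ := h.cen _ (cn_self.1 t1)
  rw [Subgroup.mem_bot.1 ho, one_mul, one_mul] at e
  rcases e with e | e
  · rw [e] at a1 c1 r1 z1 ⊢
    rw [← U_eq hb h] at a1 c1 z1
    refine congrArg ι (h.af.cj y (h.inj ?_) (h.inj ?_) (h.inj ?_) (h.inj ?_))
    · rw [map_mul, map_mul]; exact cn_self.1 a1
    · rw [map_mul, map_mul]; exact cn_self.1 c1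
    · rw [← ι_cn, r1, map_inv]
    · rw [map_pow, map_mul, z1, map_one]
  · exfalso
    rw [e, ← U_eq hb h, mul_assoc, ← map_mul, Commute.mul_pow (h.tc _), pow_succ, pow_two, h.t2,
      one_mul, ← map_pow] at z1
    exact h.tr _ (by rw [map_inv]; exact (eq_inv_of_mul_eq_one_left z1).symm)

theorem gu : ∃ k, cn (gE d ι b) u = u * X d ι b 0 0 0 1 * X d ι b 0 0 k 0 := by
  obtain ⟨ζ, e⟩ := gX hb h
  have p' : PP d ι t b (cn (gE d ι b) u * X d ι b 0 0 0 1) := by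
    refine ⟨?_, fun l f k m => ?_⟩
    · rw [mul_cn, X_t hb h, cn_cn, gi hb h, cn_mul, g_t hb h, e, mul_assoc, X_mul hb h, cn_mul,
        p.ht, p.hx, mul_assoc, X_mul hb h, cn_mul, g_t hb h, e, mul_assoc, X_mul hb h]
      refine congrArg _ ?_
      xeq
    · rw [mul_cn, X_X hb h, cn_cn, gi hb h, e, p.hx, e]
      xeq
  obtain ⟨k, e1⟩ := diff hb h p p'
  refine ⟨k, ?_⟩
  rw [eq_mul_inv_of_mul_eq e1, X_inv hb h, mul_assoc, mul_assoc, X_mul hb h, X_mul hb h]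
  refine congrArg _ ?_
  xeq

theorem u3 : ∃ k, k * k = k ∧
    u * cn (ι d.p) u * cn (ι d.p)⁻¹ u = X d ι b 0 0 k 0 := by
  have := h.finA
  have su := cn_comm (us hb h p hr)
  have uas : cn u (X d ι b 0 1 0 0 * ι d.s) = X d ι b 0 1 0 0 * ι d.s := by
    rw [cn_mul, uX hb h p hr, su]
  -- the second conjugate
  have z2 : cn (cn (ι d.p) u) (X d ι b 0 0 1 0) = X d ι b 0 0 1 0 := by
    rw [← p_z hb h, cn_cn', uX hb h p hr]
  have b2 : cn (cn (ι d.p) u) (X d ι b 0 0 0 1) = X d ι b 0 0 0 1 := by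
    rw [← p_b1 hb h, cn_cn', uX hb h p hr]
  have a2 : cn (cn (ι d.p) u) (X d ι b 0 1 0 0) = X d ι b 0 1 0 0 := by
    rw [← p_as hb h, cn_cn', uas]
  have s2 : cn (cn (ι d.p) u) (ι d.s) = ι d.s := by
    rw [← p_a hb h, cn_cn', uX hb h p hr]
  have t2 : cn (cn (ι d.p) u) t = t * ι d.s := by
    rw [cn_cn, ιi_t hb h, p.ht, cn_mul, ι_t hb h, p_a hb h]
  -- the third conjugate
  have z3 : cn (cn (ι d.p)⁻¹ u) (X d ι b 0 0 1 0) = X d ι b 0 0 1 0 := by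
    rw [← inv_cn (p_z hb h), cn_cn', uX hb h p hr]
  have b3 : cn (cn (ι d.p)⁻¹ u) (X d ι b 0 0 0 1) = X d ι b 0 0 0 1 := by
    rw [← inv_cn (p_b1 hb h), cn_cn', uX hb h p hr]
  have a3 : cn (cn (ι d.p)⁻¹ u) (X d ι b 0 1 0 0) = X d ι b 0 1 0 0 := by
    rw [← inv_cn (p_a hb h), cn_cn', su]
  have s3 : cn (cn (ι d.p)⁻¹ u) (ι d.s) = ι d.s := by
    rw [← inv_cn (p_s hb h), cn_cn', uas]
  have t3 : cn (cn (ι d.p)⁻¹ u) t = t * (X d ι b 0 1 0 0 * ι d.s) := by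
    rw [cn_cn, inv_inv, ι_t hb h, p.ht, cn_mul, ιi_t hb h, inv_cn (p_as hb h)]
  have aa : X d ι b 0 1 0 0 * X d ι b 0 1 0 0 = 1 := by
    rw [X_mul hb h, ← X_one hb h]; xeq
  have pp : cn (ι d.p) (u * cn (ι d.p) u * cn (ι d.p)⁻¹ u) =
      cn u⁻¹ (u * cn (ι d.p) u * cn (ι d.p)⁻¹ u) := by
    rw [cn_mul, cn_mul, ← mul_cn, ← cube_inv (p3 hb h)]
    unfold cn
    group
  generalize hn : u * cn (ι d.p) u * cn (ι d.p)⁻¹ u = n at pp
  have zn : cn n (X d ι b 0 0 1 0) = X d ι b 0 0 1 0 := by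
    rw [← hn, mul_cn, mul_cn, z3, z2, uX hb h p hr]
  have bn : cn n (X d ι b 0 0 0 1) = X d ι b 0 0 0 1 := by
    rw [← hn, mul_cn, mul_cn, b3, b2, uX hb h p hr]
  have an : cn n (X d ι b 0 1 0 0) = X d ι b 0 1 0 0 := by
    rw [← hn, mul_cn, mul_cn, a3, a2, uX hb h p hr]
  have sn : cn n (ι d.s) = ι d.s := by
    rw [← hn, mul_cn, mul_cn, s3, s2, su]
  have tn : cn n t = t := by
    rw [← hn, mul_cn, mul_cn, t3, cn_mul (cn (ι d.p) u), cn_mul (cn (ι d.p) u), t2, a2, s2, a_s hb h, mul_assoc, ← mul_assoc (ι d.s),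
      s_s hb h, one_mul, cn_mul, p.ht, uX hb h p hr, mul_assoc, aa, mul_one]
  obtain ⟨o, ho, y, e⟩ := h.cen _ (cn_self.1 tn)
  rw [Subgroup.mem_bot.1 ho, one_mul, one_mul] at e
  have ty : ∀ w, cn t (cn (ι y) (ι w)) = cn (ι y) (ι w) := fun w => by
    rw [ι_cn]; exact cn_self.2 (h.tc _)
  have hy : ∀ w, cn n (ι w) = ι w → y * w = w * y := by
    intro w hw
    refine h.inj ?_
    rw [map_mul, map_mul, ← cn_self]
    rcases e with e | e
    · rw [← e, hw]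
    · rw [← ty, ← mul_cn, ← e, hw]
  rw [← U_eq hb h] at zn an
  obtain ⟨f, k, hf, hk, e1⟩ := h.af.cza (hy _ zn) (hy _ an) (hy _ sn)
  have yb : cn (ι y) (X d ι b 0 0 0 1) = X d ι b 0 0 0 1 := by
    rcases e1 with e1 | e1
    · rw [e1, U_eq hb h, X_X hb h]; xeq
    · rw [e1, map_mul, mul_cn, s_X hb h, U_eq hb h, X_X hb h]; xeq
  have uy : cn u (ι y) = ι y := by
    rcases e1 with e1 | e1
    · rw [e1, U_eq hb h, uX hb h p hr]
    · rw [e1, map_mul, cn_mul, su, U_eq hb h, uX hb h p hr]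
  rcases e with e | e
  · rw [e, inv_cn uy] at pp
    have pk : cn (ι d.p) (X d ι b 0 0 k 0) = X d ι b 0 0 k 0 := by
      have : k = 0 ∨ k = 1 := by clear * - hk; decide +revert
      rcases this with rfl | rfl
      · rw [X_one hb h, cn_one]
      · exact p_z hb h
    rcases e1 with e1 | e1
    · rw [e1, cn_self, ← map_mul, ← map_mul] at pp
      rcases (h.af.cpU (h.inj pp)).1 with ⟨-, h1⟩ | ⟨h1, -⟩
      · exact ⟨k, hk, by rw [e, e1, h1, U_eq hb h]⟩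
      · exact absurd h1 (by decide)
    · exfalso
      rw [e1, map_mul, U_eq hb h] at pp
      have : f = 0 ∨ f = 1 := by clear * - hf; decide +revert
      rcases this with rfl | rfl
      · rw [cn_mul, pk, p_s hb h, mul_right_inj, mul_eq_right, ← X_one hb h] at pp
        exact absurd (X_inj hb h pp).2.1 (by decide)
      · have h1 : X d ι b 0 1 k 0 = X d ι b 0 0 k 0 * X d ι b 0 1 0 0 := by
          rw [X_mul hb h]; xeq
        rw [h1, mul_assoc, cn_mul, pk, p_as hb h, mul_right_inj, left_eq_mul, ← X_one hb h,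
          ← U_eq hb h] at pp
        exact h.af.s_ne _ _ _ (h.inj pp).symm
  · exfalso
    rw [e, mul_cn, yb, t_X hb h] at bn
    exact absurd (X_inj hb h bn).2.2.1 (by decide)

theorem uu : u * cn (ι d.p) u = cn (ι d.p) u * u := by
  obtain ⟨k, hk, e⟩ := u3 hb h p hr
  have h1 := u2 hb h p hr
  have h2 : cn (ι d.p) u * cn (ι d.p) u = 1 := by rw [← cn_mul, h1, cn_one]
  have h3 : cn (ι d.p)⁻¹ u * cn (ι d.p)⁻¹ u = 1 := by rw [← cn_mul, h1, cn_one]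
  have pk : cn (ι d.p) (X d ι b 0 0 k 0) = X d ι b 0 0 k 0 := by
    have : k = 0 ∨ k = 1 := by clear * - hk; decide +revert
    rcases this with rfl | rfl
    · rw [X_one hb h, cn_one]
    · exact p_z hb h
  have h4 : cn (cn (ι d.p)⁻¹ u) (X d ι b 0 0 k 0) = X d ι b 0 0 k 0 := by
    rw [← inv_cn pk, cn_cn', uX hb h p hr]
  have h5 : X d ι b 0 0 k 0 * X d ι b 0 0 k 0 = 1 := by
    rw [X_mul hb h, ← X_one hb h]; xeq
  have h6 : u * cn (ι d.p) u = X d ι b 0 0 k 0 * cn (ι d.p)⁻¹ u := by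
    rw [← e, mul_assoc, h3, mul_one]
  have h7 : u * cn (ι d.p) u * (u * cn (ι d.p) u) = 1 := by
    rw [h6, mul_assoc, ← mul_assoc (cn (ι d.p)⁻¹ u), cn_self.1 h4, mul_assoc, h3, mul_one, h5]
  rw [← inv_eq_of_mul_eq_one_right h7, mul_inv_rev, inv_eq_of_mul_eq_one_right h1,
    inv_eq_of_mul_eq_one_right h2]

end

end WX

theorem Bf.wx (hb : Bf d ι t b 0) (h : Hy d ι t ⊥) : ∃ u, Wf d ι t ⊥ b u := by
  obtain ⟨u, p, hr⟩ := WX.exists_u hb h
  refine ⟨u, h, hb, fun o ho m => ?_, fun o ho => ?_, fun m => ?_, fun f k => ?_, WX.u2 hb h p hr, ?_,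
    fun l f k => ?_, fun m => ?_, (XW.cn_self.1 hr).symm, (XW.cn_self.1 (WX.us hb h p hr)).symm,
    XW.cn_self.1 (WX.uj hb h p hr), ?_, WX.uu hb h p hr, ?_⟩
  · rw [Subgroup.mem_bot.1 ho, one_mul, mul_one]
  · rw [Subgroup.mem_bot.1 ho, one_mul, mul_one]
  · have h1 := WX.gb hb h m
    rw [← XW.b_eq hb h] at h1
    exact XW.cn_self.1 h1
  · obtain ⟨ζ, e⟩ := WX.gX hb h
    have h1 := e 0 f k 0
    rw [← XW.U_eq hb h, add_zero, zero_add] at h1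
    exact ⟨_, h1⟩
  · have h1 := p.ht
    rw [← XW.U_eq hb h] at h1
    exact h1
  · have h1 := p.hx l f k 0
    rw [← XW.U_eq hb h, zero_add] at h1
    exact h1
  · have h1 := WX.uX hb h p hr 0 0 m
    rw [← XW.b_eq hb h] at h1
    exact XW.cn_self.1 h1
  · obtain ⟨k, e⟩ := WX.gu hb h p hr
    rw [← XW.b_eq hb h, ← XW.U_eq hb h] at e
    exact ⟨k, e⟩
  · obtain ⟨k, -, e⟩ := WX.u3 hb h p hr
    rw [← XW.U_eq hb h, XW.cn, XW.cn, inv_inv] at e
    exact ⟨k, e⟩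

end Cfsg.Agent.MS
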