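import Cfsg.Agent.MS.BaseG
import Cfsg.Agent.MS.AutP

/-! notes/MS.md, section X1. -/

set_option autoImplicit false

namespace Cfsg.Agent.MS

open Subgroup H29 H42

variable {A G : Type*} [Group A] [Group G] [Finite G] {d : AD A} {ι : A →* G} {t u x : G}
  {O E Q : Subgroup G} {b : F4 → G} {η ν : F4}

theorem Hy.x1_cen (h : Hy d ι t ⊥) {y : G} (hy : y * t = t * y) : ∃ l, y = ι l ∨ y = t * ι l := by
  obtain ⟨o, ho, l, hl⟩ := h.cen y hy
  rw [mem_bot.1 ho, one_mul, one_mul] at hl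
  exact ⟨l, hl⟩

theorem Hy.x1_ne (h : Hy d ι t O) (l l' : A) : ι l ≠ t * ι l' := fun e =>
  h.tr (l * l'⁻¹) (by rw [map_mul, map_inv, e, mul_inv_cancel_right])

theorem AF.x1_zz (h : AF d) : d.U 0 0 1 * d.U 0 0 1 = 1 := by
  haveI : Finite F4 := inferInstance
  have e : d.U 0 0 0 * d.U 0 0 0 = d.U 0 0 0 := by rw [h.mul]; rfl
  rw [h.mul]
  exact mul_left_cancel (e.trans (mul_one _).symm)

theorem AF.x1_Uz (h : AF d) (l f k : F4) : d.U l f k * d.U 0 0 1 = d.U 0 0 1 * d.U l f k := by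
  rw [h.mul, h.mul]
  congr 1 <;> ring

theorem Hy.x1_Z1 (h : Hy d ι t O) : ι (d.U 0 0 1) ≠ 1 := fun e =>
  absurd (h.af.inj 0 0 1 (h.inj (e.trans (map_one ι).symm))).2.2 (by decide)

theorem Hy.x1_ZZ (h : Hy d ι t O) : ι (d.U 0 0 1) * ι (d.U 0 0 1) = 1 := by
  rw [← map_mul, h.af.x1_zz, map_one]

/-- the centraliser of `t` and `Q` -/
theorem Hy.x1_four (h : Hy d ι t ⊥) {w : G} (ht : w * t = t * w)
    (hQ : ∀ l f k, l * l = l → f * f = f → w * ι (d.U l f k) = ι (d.U l f k) * w)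
    (hs : w * ι d.s = ι d.s * w) :
    w = 1 ∨ w = ι (d.U 0 0 1) ∨ w = t ∨ w = t * ι (d.U 0 0 1) := by
  haveI := h.finA
  obtain ⟨x, hx⟩ := h.x1_cen ht
  have key : ∀ y, w * ι y = ι y * w → x * y = y * x := fun y hy => h.inj (by
    rw [map_mul, map_mul]
    rcases hx with rfl | rfl
    · exact hy
    · rw [← mul_assoc, ← h.tc, mul_assoc, mul_assoc] at hy
      exact mul_left_cancel hy)
  obtain ⟨l, f, k, rfl⟩ := h.af.cV (key _ (hQ 0 0 1 (by decide) (by decide)))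
    (key _ (hQ 0 0 F4.w (by decide) (by decide)))
  have e1 := key _ (hQ 0 1 0 (by decide) (by decide))
  have e2 := key _ (hQ 1 0 0 (by decide) (by decide))
  have e3 := key _ hs
  rw [← mul_inv_eq_iff_eq_mul, h.af.U_conj] at e1 e2
  rw [eq_comm, ← mul_inv_eq_iff_eq_mul, h.af.sU] at e3
  have l0 : l = 0 := by simpa using (h.af.U_inj e1).2.2
  have f0 : f = 0 := by simpa using (h.af.U_inj e2).2.2
  have k0 : k = 0 ∨ k = 1 := by
    have := (h.af.U_inj e3).2.2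
    revert this
    clear e1 e2 e3 key hx
    revert k
    decide
  subst l0 f0
  rcases k0 with rfl | rfl
  · rw [h.af.U_one, map_one, mul_one] at hx
    tauto
  · tauto

theorem Hy.x1_uf (h : Hy d ι t ⊥) (u2 : u * u = 1) (ut : u * t * u⁻¹ = t * ι (d.U 0 0 1))
    (uQ : ∀ l f k, l * l = l → f * f = f → u * ι (d.U l f k) = ι (d.U l f k) * u)
    (us : u * ι d.s = ι d.s * u) (up : u * ι d.p = ι d.p * u) : Uf d ι t u := by
  haveI := h.finA
  refine ⟨u2, ut, uQ, us, up, fun x hx => ?_⟩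
  have hM : ∀ y ∈ closure ({y | ∃ l f k, l * l = l ∧ f * f = f ∧ y = d.U l f k} ∪ {d.s, d.p}),
      u * ι y = ι y * u := by
    intro y hy
    have : closure ({y | ∃ l f k, l * l = l ∧ f * f = f ∧ y = d.U l f k} ∪ {d.s, d.p}) ≤
        (centralizer {u}).comap ι := by
      rw [closure_le]
      rintro _ (⟨l, f, k, hl, hf, rfl⟩ | rfl | rfl)
      · exact mem_centralizer_singleton_iff.2 (uQ l f k hl hf).symm
      · exact mem_centralizer_singleton_iff.2 us.symm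
      · exact mem_centralizer_singleton_iff.2 up.symm
    exact (mem_centralizer_singleton_iff.1 (this hy)).symm
  have hx' : x⁻¹ * d.U 0 0 1 = d.U 0 0 1 * x⁻¹ := by
    rw [inv_mul_eq_iff_eq_mul, ← mul_assoc, hx, mul_inv_cancel_right]
  have hM' : ∀ y ∈ closure ({y | ∃ l f k, l * l = l ∧ f * f = f ∧ y = d.U l f k} ∪ {d.s, d.p}),
      u⁻¹ * (ι x * u * (ι x)⁻¹) * ι y = ι y * (u⁻¹ * (ι x * u * (ι x)⁻¹)) := by
    intro y hy
    have e1 := hM _ (h.af.nQp hx' hy)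
    have e2 := hM y hy
    rw [inv_inv, map_mul, map_mul, map_inv] at e1
    calc u⁻¹ * (ι x * u * (ι x)⁻¹) * ι y = u⁻¹ * ι x * (u * ((ι x)⁻¹ * ι y * ι x)) * (ι x)⁻¹ := by
          group
      _ = u⁻¹ * (ι y * u) * (u⁻¹ * (ι x * u * (ι x)⁻¹)) := by rw [e1]; group
      _ = _ := by rw [← e2]; group
  have uZ := uQ 0 0 1 (by decide) (by decide)
  have xZ : ι x * ι (d.U 0 0 1) = ι (d.U 0 0 1) * ι x := by rw [← map_mul, hx, map_mul]
  have ut' : u * t = t * ι (d.U 0 0 1) * u := by rw [← ut, inv_mul_cancel_right]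
  have ht : u⁻¹ * (ι x * u * (ι x)⁻¹) * t = t * (u⁻¹ * (ι x * u * (ι x)⁻¹)) := by
    have e1 : (ι x)⁻¹ * t = t * (ι x)⁻¹ := by rw [← map_inv, h.tc]
    calc u⁻¹ * (ι x * u * (ι x)⁻¹) * t = u⁻¹ * ι x * (u * t) * (ι x)⁻¹ := by
          rw [mul_assoc, mul_assoc _ _ t, e1]; group
      _ = u⁻¹ * (ι x * t) * ι (d.U 0 0 1) * u * (ι x)⁻¹ := by rw [ut']; group
      _ = u⁻¹ * t * (ι x * ι (d.U 0 0 1)) * u * (ι x)⁻¹ := by rw [← h.tc]; group
      _ = u⁻¹ * (t * ι (d.U 0 0 1) * u) * (u⁻¹ * (ι x * u * (ι x)⁻¹)) := by rw [xZ]; group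
      _ = _ := by rw [← ut']; group
  have sq : u * (u⁻¹ * (ι x * u * (ι x)⁻¹)) * (u * (u⁻¹ * (ι x * u * (ι x)⁻¹))) = 1 := by
    rw [mul_inv_cancel_left, conj_mul, u2]; group
  have utut : u * t * (u * t) = ι (d.U 0 0 1) := by
    calc u * t * (u * t) = u * t * u⁻¹ * (u * u) * t := by group
      _ = _ := by rw [ut, u2, mul_one, h.tc, mul_assoc, h.t2, mul_one]
  rcases h.x1_four ht (fun l f k hl hf => hM' _ (subset_closure (Or.inl ⟨l, f, k, hl, hf, rfl⟩)))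
    (hM' _ (subset_closure (Or.inr (Or.inl rfl)))) with e | e | e | e
  · exact Or.inl (by rw [inv_mul_eq_iff_eq_mul, mul_one] at e; exact e)
  · exact Or.inr (inv_mul_eq_iff_eq_mul.1 e)
  · rw [e, utut] at sq
    exact (h.x1_Z1 sq).elim
  · rw [e] at sq
    refine (h.x1_Z1 ?_).elim
    calc ι (d.U 0 0 1) = u * t * (u * t) * (ι (d.U 0 0 1) * ι (d.U 0 0 1)) := by
          rw [utut, h.x1_ZZ, mul_one]
      _ = u * t * (u * (t * ι (d.U 0 0 1))) * ι (d.U 0 0 1) := by group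
      _ = u * t * (u * ι (d.U 0 0 1)) * t * ι (d.U 0 0 1) := by rw [h.tc]; group
      _ = 1 := by rw [uZ, ← sq]; group

theorem Hy.exists_u (h : Hy d ι t ⊥) {g : G} (e : g * t * g⁻¹ = t * ι (d.U 0 0 1))
    (ez : g * ι (d.U 0 0 1) = ι (d.U 0 0 1) * g) : ∃ u, Uf d ι t u := by
  classical
  haveI := h.finA
  have ez' : g * ι (d.U 0 0 1) * g⁻¹ = ι (d.U 0 0 1) := by rw [ez, mul_inv_cancel_right]
  have et : g * (t * ι (d.U 0 0 1)) * g⁻¹ = t := by
    rw [← conj_mul, e, ez', mul_assoc, h.x1_ZZ, mul_one]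
  have cZ : ∀ x, x * d.U 0 0 1 = d.U 0 0 1 * x →
      g * ι x * g⁻¹ * ι (d.U 0 0 1) = ι (d.U 0 0 1) * (g * ι x * g⁻¹) := fun x hx => by
    rw [← ez', conj_mul, conj_mul, ← map_mul, hx, map_mul]
  have ex : ∀ x, ∃ l, x * d.U 0 0 1 = d.U 0 0 1 * x →
      g * ι x * g⁻¹ = ι l ∨ g * ι x * g⁻¹ = t * ι l := fun x => by
    by_cases hx : x * d.U 0 0 1 = d.U 0 0 1 * x
    · obtain ⟨l, hl⟩ := h.x1_cen (y := g * ι x * g⁻¹) (by
        rw [← et, conj_mul, conj_mul, ← mul_assoc (ι x), ← h.tc, mul_assoc t, mul_assoc t,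
          ← map_mul, hx, map_mul])
      exact ⟨l, fun _ => hl⟩
    · exact ⟨1, fun h' => (hx h').elim⟩
  choose α hα using ex
  have uq : ∀ {y : G} {l l' : A}, (y = ι l ∨ y = t * ι l) → (y = ι l' ∨ y = t * ι l') → l = l' := by
    rintro y l l' (rfl | rfl) (e' | e')
    · exact h.inj e'
    · exact (h.x1_ne _ _ e').elim
    · exact (h.x1_ne _ _ e'.symm).elim
    · exact h.inj (mul_left_cancel e')
  have tt : ∀ l l', t * ι l * (t * ι l') = ι (l * l') := fun l l' => by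
    rw [← mul_assoc, mul_assoc t, ← h.tc, ← mul_assoc, h.t2, one_mul, map_mul]
  have hcm : ∀ x y, x * d.U 0 0 1 = d.U 0 0 1 * x → y * d.U 0 0 1 = d.U 0 0 1 * y →
      x * y * d.U 0 0 1 = d.U 0 0 1 * (x * y) := fun x y hx hy => by
    rw [mul_assoc, hy, ← mul_assoc, hx, mul_assoc]
  obtain ⟨y, hy, hp, hs, hU⟩ := h.af.autP α (fun x hx => h.inj (by
      have := cZ x hx
      rw [map_mul, map_mul]
      rcases hα x hx with e' | e'
      · rwa [e'] at this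
      · rw [e', ← mul_assoc, ← h.tc, mul_assoc, mul_assoc] at this
        exact mul_left_cancel this))
    (fun x y hx hy => uq (hα _ (hcm x y hx hy)) (by
      rw [map_mul, ← conj_mul]
      rcases hα x hx with e1 | e1 <;> rcases hα y hy with e2 | e2 <;> rw [e1, e2]
      · exact Or.inl (map_mul ι _ _).symm
      · exact Or.inr (by rw [← mul_assoc, ← h.tc, mul_assoc, map_mul])
      · exact Or.inr (by rw [mul_assoc, map_mul])
      · exact Or.inl (tt _ _)))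
    (fun x hx h1 => by
      rcases hα x hx with e' | e'
      · rw [h1, map_one, mul_inv_eq_one, mul_eq_left] at e'
        exact h.inj (e'.trans (map_one ι).symm)
      · rw [h1, map_one, mul_one, ← et] at e'
        exact (h.x1_ne _ _ (mul_left_cancel (mul_right_cancel e'))).elim)
  let K : Subgroup A := (ι.range.comap (MulAut.conj g).toMonoidHom).comap ι
  have mK : ∀ x, x ∈ K ↔ ∃ l, ι l = g * ι x * g⁻¹ := fun x => Iff.rfl
  have hK : ∀ x y, x * d.U 0 0 1 = d.U 0 0 1 * x → y * d.U 0 0 1 = d.U 0 0 1 * y → x ∉ K → y ∉ K →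
      x * y ∈ K := fun x y hx hy hx' hy' => by
    rcases hα x hx with e1 | e1
    · exact (hx' ((mK _).2 ⟨_, e1.symm⟩)).elim
    rcases hα y hy with e2 | e2
    · exact (hy' ((mK _).2 ⟨_, e2.symm⟩)).elim
    exact (mK _).2 ⟨α x * α y, by rw [map_mul ι x, ← conj_mul, e1, e2, tt]⟩
  have hsq : ∀ x, x * d.U 0 0 1 = d.U 0 0 1 * x → x * x ∈ K := fun x hx => by
    by_cases h' : x ∈ K
    · exact K.mul_mem h' h'
    · exact hK x x hx hx h' h'
  have pz : d.p * d.U 0 0 1 = d.U 0 0 1 * d.p := mul_inv_eq_iff_eq_mul.1 h.af.pz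
  have sz : d.s * d.U 0 0 1 = d.U 0 0 1 * d.s := mul_inv_eq_iff_eq_mul.1 (h.af.sU 0 0 1)
  have pK : d.p ∈ K := by
    have := hsq _ (hcm _ _ pz pz)
    rwa [← mul_assoc, h.af.p3, one_mul] at this
  have three : ∀ x x', x * d.U 0 0 1 = d.U 0 0 1 * x → x' * d.U 0 0 1 = d.U 0 0 1 * x' →
      d.p * x * d.p⁻¹ = x' → d.p * x' * d.p⁻¹ = x * x' → x ∈ K ∧ x' ∈ K := by
    intro x x' hx hx' e1 e2
    have cj : ∀ y, d.p * y * d.p⁻¹ ∈ K ↔ y ∈ K := fun y => by
      rw [K.mul_mem_cancel_right (K.inv_mem pK), K.mul_mem_cancel_left pK]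
    have : x ∈ K := by
      by_contra hn
      have hn' : x' ∉ K := by rwa [← e1, cj]
      exact hn' ((cj _).1 (e2 ▸ hK x x' hx hx' hn hn'))
    exact ⟨this, e1 ▸ (cj _).2 this⟩
  obtain ⟨aK, sK⟩ := three _ _ (h.af.x1_Uz 0 1 0) sz h.af.pa h.af.ps
  obtain ⟨y1K, y2K⟩ := three _ _ (h.af.x1_Uz 0 0 F4.v) (h.af.x1_Uz 1 1 0) h.af.py1
    (by rw [h.af.py2, h.af.mul]; rfl)
  have zK : d.U 0 0 1 ∈ K := h.af.sq_z ▸ hsq _ (h.af.x1_Uz 1 0 0)
  have CK : ∀ k, d.U 0 0 k ∈ K := fun k => by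
    cases k
    · exact (h.af.U_one ▸ K.one_mem : d.U 0 0 0 ∈ K)
    · exact zK
    · have := K.mul_mem zK y1K
      rwa [h.af.mul] at this
    · exact y1K
  have UK : ∀ l f k, l * l = l → f * f = f → d.U l f k ∈ K := fun l f k hl hf => by
    have h01 : ∀ m : F4, m * m = m → m = 0 ∨ m = 1 := by decide
    have e1 := K.mul_mem aK (CK k)
    have e2 := K.mul_mem y2K (CK k)
    have e3 := K.mul_mem y2K e1
    rw [h.af.mul] at e1 e2
    rw [h.af.mul, h.af.mul] at e3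
    rcases h01 l hl with rfl | rfl <;> rcases h01 f hf with rfl | rfl
    · exact CK k
    · simpa using e1
    · have h11 : (1 + 1 : F4) = 0 := rfl
      simpa [h11] using e3
    · simpa using e2
  have fix : ∀ x, x * d.U 0 0 1 = d.U 0 0 1 * x → x ∈ K → α x = y * x * y⁻¹ →
      (ι y)⁻¹ * g * ι x = ι x * ((ι y)⁻¹ * g) := fun x hx hx' e1 => by
    obtain ⟨l, hl⟩ := (mK _).1 hx'
    rw [← uq (hα x hx) (Or.inl hl.symm), e1, map_mul, map_mul, map_inv] at hl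
    calc (ι y)⁻¹ * g * ι x = (ι y)⁻¹ * (g * ι x * g⁻¹) * g := by group
      _ = _ := by rw [← hl]; group
  obtain ⟨u, hu⟩ : ∃ u, u = (ι y)⁻¹ * g := ⟨_, rfl⟩
  rw [← hu] at fix
  have uQ : ∀ l f k, l * l = l → f * f = f → u * ι (d.U l f k) = ι (d.U l f k) * u :=
    fun l f k hl hf => fix _ (h.af.x1_Uz l f k) (UK l f k hl hf) (hU l f k hl hf)
  have us := fix _ sz sK hs
  have up := fix _ pz pK hp
  have ut : u * t * u⁻¹ = t * ι (d.U 0 0 1) := by
    have yZ : ι y * ι (d.U 0 0 1) = ι (d.U 0 0 1) * ι y := by rw [← map_mul, hy, map_mul]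
    calc u * t * u⁻¹ = (ι y)⁻¹ * (g * t * g⁻¹) * ι y := by rw [hu]; group
      _ = (ι y)⁻¹ * t * (ι (d.U 0 0 1) * ι y) := by rw [e]; group
      _ = (ι y)⁻¹ * (t * ι y) * ι (d.U 0 0 1) := by rw [← yZ]; group
      _ = _ := by rw [h.tc]; group
  have uZ := uQ 0 0 1 (by decide) (by decide)
  have utZ : u * (t * ι (d.U 0 0 1)) * u⁻¹ = t := by
    rw [← conj_mul, ut, uZ, mul_inv_cancel_right, mul_assoc, h.x1_ZZ, mul_one]
  have cm : ∀ w, u * w = w * u → u * u * w = w * (u * u) := fun w hw => by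
    rw [mul_assoc, hw, ← mul_assoc, hw, mul_assoc]
  have ntZ : t ≠ t * ι (d.U 0 0 1) := fun e' => h.x1_Z1 (left_eq_mul.1 e')
  rcases h.x1_four (w := u * u) (by
      calc u * u * t = u * (u * t * u⁻¹) * u⁻¹ * (u * u) := by group
        _ = _ := by rw [ut, utZ]) (fun l f k hl hf => cm _ (uQ l f k hl hf)) (cm _ us)
    with e' | e' | e' | e'
  · exact ⟨u, h.x1_uf e' ut uQ us up⟩
  · have ct : ∀ w, u * ι w = ι w * u → u * t * ι w = ι w * (u * t) := fun w hw => by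
      rw [mul_assoc, h.tc, ← mul_assoc, hw, mul_assoc]
    refine ⟨u * t, h.x1_uf ?_ (by rw [← ut]; group) (fun l f k hl hf => ct _ (uQ l f k hl hf))
      (ct _ us) (ct _ up)⟩
    calc u * t * (u * t) = u * t * u⁻¹ * (u * u) * t := by group
      _ = 1 := by rw [ut, e', mul_assoc t, h.x1_ZZ, mul_one, h.t2]
  · refine (ntZ ?_).elim
    rw [← ut, ← e']; group
  · refine (ntZ ?_).elim
    rw [← e'] at utZ
    rw [← e', ← utZ]
    group

end Cfsg.Agent.MS
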