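import Cfsg.Agent.MS.BaseG

/-! notes/MS.md, section X2. -/

set_option autoImplicit false
set_option linter.unusedSectionVars false

namespace Cfsg.Agent.MS

open Subgroup H29 H42

variable {A G : Type*} [Group A] [Group G] [Finite G] {d : AD A} {ι : A →* G} {t u x : G}
  {O E Q : Subgroup G} {b : F4 → G} {η ν : F4}

namespace X2

/-- conjugation -/
def cn (x y : G) : G := x * y * x⁻¹

theorem cn_mul (x y z : G) : cn x (y * z) = cn x y * cn x z := conj_mul.symm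
theorem mul_cn (x y z : G) : cn (x * y) z = cn x (cn y z) := by simp only [cn]; group
theorem cn_cn (g x y : G) : cn (cn g x) (cn g y) = cn g (cn x y) := by simp only [cn]; group
theorem cn_one (x : G) : cn x 1 = 1 := by simp only [cn]; group
theorem one_cn (x : G) : cn 1 x = x := by simp only [cn]; group
theorem cn_iff {x y : G} : cn x y = y ↔ x * y = y * x := mul_inv_eq_iff_eq_mul
theorem cn_symm {x y : G} (h : cn x y = y) : cn y x = x := cn_iff.2 (cn_iff.1 h).symm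
theorem cn_map (x y : A) : cn (ι x) (ι y) = ι (x * y * x⁻¹) := by simp only [cn, map_mul, map_inv]

theorem ind {P : F4 → Prop} (h0 : P 0) (h1 : P 1) (h : ∀ m, P m → P (F4.w * m)) (m : F4) : P m := by
  cases m
  exacts [h0, h1, h 1 h1, h _ (h 1 h1)]

/-- the conjugates of `u` under `r` -/
def vv (r u : G) : F4 → G
  | .o => 1
  | .i => u
  | .w => cn r u
  | .v => cn r (cn r u)

variable (h : Hy d ι t O)
include h

theorem xm (l f k l' f' k' : F4) : ι (d.U l f k) * ι (d.U l' f' k') =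
    ι (d.U (l + l') (f + f') (k + k' + l * l * (l' * l') + l' * f)) := by rw [← map_mul, h.af.mul]

theorem xc (l f k l' f' k' : F4) : cn (ι (d.U l f k)) (ι (d.U l' f' k')) = ι (d.U l' f' (k' + l' * f + l * f')) := by
  have := h.finA
  rw [cn_map, h.af.U_conj]

theorem xinj {l f k l' f' k' : F4} (e : ι (d.U l f k) = ι (d.U l' f' k')) : l = l' ∧ f = f' ∧ k = k' := by
  have := h.finA
  exact h.af.U_inj (h.inj e)

theorem x0 : ι (d.U 0 0 0) = 1 := by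
  have := h.finA
  rw [h.af.U_one, map_one]

theorem cc (k k' : F4) : ι (d.U 0 0 k) * ι (d.U 0 0 k') = ι (d.U 0 0 (k + k')) := by
  rw [xm h]; simp only [add_zero, mul_zero]

theorem xC (l f k k' : F4) : cn (ι (d.U l f k)) (ι (d.U 0 0 k')) = ι (d.U 0 0 k') := by
  rw [xc h]; simp only [add_zero, mul_zero, zero_mul]

theorem ct (l : A) : cn (ι l) t = t := cn_iff.2 (h.tc l).symm

theorem rx (l f k : F4) : cn (ι d.r) (ι (d.U l f k)) = ι (d.U (F4.w * l) f (F4.w * k)) := by rw [cn_map, h.af.rU]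

theorem rC (k : F4) : cn (ι d.r) (ι (d.U 0 0 k)) = ι (d.U 0 0 (F4.w * k)) := by rw [rx h, mul_zero]

theorem rv (m : F4) : cn (ι d.r) (vv (ι d.r) u m) = vv (ι d.r) u (F4.w * m) := by
  cases m
  · exact cn_one _
  · rfl
  · rfl
  · change cn _ (cn _ (cn _ u)) = u
    rw [← mul_cn, ← mul_cn, ← map_mul, ← map_mul, h.af.r3, map_one, one_cn]

variable (hu : Uf d ι t u)
include hu

theorem sv (m : F4) : cn (ι d.s) (vv (ι d.r) u m) = vv (ι d.r) u (m * m) := by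
  have e : d.s * d.r * d.s⁻¹ = d.r * d.r := h.af.sr.trans (inv_eq_of_mul_eq_one_left h.af.r3)
  have e' : cn (ι d.s) u = u := cn_iff.2 hu.us.symm
  have e2 : ∀ y, cn (ι d.s) (cn (ι d.r) y) = cn (ι d.r) (cn (ι d.r) (cn (ι d.s) y)) := fun y => by
    rw [← cn_cn, cn_map, e, map_mul, mul_cn]
  cases m
  · exact cn_one _
  · exact e'
  · exact (e2 u).trans (by rw [e']; rfl)
  · refine (e2 _).trans ?_
    rw [e2, e']
    exact congrArg _ (rv h .v)

theorem v2 (m : F4) : vv (ι d.r) u m * vv (ι d.r) u m = 1 :=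
  ind (P := fun m => vv (ι d.r) u m * vv (ι d.r) u m = 1) (one_mul 1) hu.u2
    (fun m e => by rw [← rv h, ← cn_mul, e, cn_one]) m

theorem vt (m : F4) : cn (vv (ι d.r) u m) t = t * ι (d.U 0 0 m) :=
  ind (P := fun m => cn (vv (ι d.r) u m) t = t * ι (d.U 0 0 m)) (by rw [x0 h, mul_one]; exact one_cn t) hu.ut
    (fun m e => by rw [← rv h, ← rC h, ← ct h d.r, cn_cn, ← cn_mul, e]) m

variable (hc : u * ι (d.U 0 F4.v 0) = ι (d.U 0 F4.v 0) * u)
include hc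

theorem xu : ∃ ξ : F4, ξ * ξ = ξ ∧ ∀ l f k, cn (ι (d.U l f k)) u = u * ι (d.U 0 0 (ξ * (l + l * l))) := by
  have a0 : ∀ l f k, l * l = l → f * f = f → cn (ι (d.U l f k)) u = u := fun l f k a b =>
    cn_iff.2 (hu.uQ l f k a b).symm
  have a1 : ∀ f, cn (ι (d.U 0 f 0)) u = u := fun f => by
    by_cases e : f * f = f
    · exact a0 0 f 0 rfl e
    · rw [show ι (d.U 0 f 0) = ι (d.U 0 F4.v 0) * ι (d.U 0 (f + F4.v) 0) by
        rw [xm h]; congr 2; revert f; decide, mul_cn, a0 0 _ 0 rfl (by revert f; decide), cn_iff.2 hc.symm]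
  have a2 : ∀ l f k, l * l = l → cn (ι (d.U l f k)) u = u := fun l f k e => by
    rw [show ι (d.U l f k) = ι (d.U l 0 k) * ι (d.U 0 f 0) by
      rw [xm h]; simp only [add_zero, zero_add, mul_zero], mul_cn, a1, a0 l 0 k e rfl]
  obtain ⟨ξ, e1, e2⟩ : ∃ ξ : F4, ξ * ξ = ξ ∧ cn (ι (d.U F4.w F4.w 0)) u = u * ι (d.U 0 0 ξ) := by
    rcases hu.nz (d.U F4.w F4.w 0) (by rw [h.af.mul, h.af.mul]; rfl) with e | e
    · exact ⟨0, rfl, by rw [x0 h, mul_one]; exact e⟩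
    · exact ⟨1, rfl, e⟩
  refine ⟨ξ, e1, fun l f k => ?_⟩
  by_cases e : l * l = l
  · rw [a2 l f k e, (by decide : ∀ ξ l : F4, l * l = l → ξ * (l + l * l) = 0) ξ l e, x0 h, mul_one]
  · rw [show ι (d.U l f k) = ι (d.U F4.w F4.w 0) *
        ι (d.U (l + F4.w) (f + F4.w) (k + F4.v * ((l + F4.w) * (l + F4.w)) + (l + F4.w) * F4.w)) by
      rw [xm h]; congr 2 <;> revert l f k <;> decide, mul_cn, a2 _ _ _ (by revert l; decide), e2,
      (by decide : ∀ ξ l : F4, ¬ l * l = l → ξ * (l + l * l) = ξ) ξ l e]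

theorem xv : ∃ ξ : F4, ξ * ξ = ξ ∧ ∀ m l f k, cn (ι (d.U l f k)) (vv (ι d.r) u m) =
    vv (ι d.r) u m * ι (d.U 0 0 (ξ * (m * m * m * l + l * l * (m * m)))) := by
  obtain ⟨ξ, e1, e2⟩ := xu h hu hc
  refine ⟨ξ, e1, ind (fun l f k => ?_) (fun l f k => by simp only [mul_one, one_mul]; exact e2 l f k)
    fun m e l f k => ?_⟩
  · simp only [mul_zero, zero_mul, add_zero, x0 h, mul_one]
    exact cn_one _
  · rw [← rv h, show ι (d.U l f k) = cn (ι d.r) (ι (d.U (F4.v * l) f (F4.v * k))) by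
      rw [rx h]; congr 2 <;> revert l k <;> decide, cn_cn, e, cn_mul, rC h]
    congr 3
    clear e e2 e1
    revert ξ m l
    decide

end X2

open X2

section
variable (h : Hy d ι t ⊥)
include h

/-- elements that centralise `t` and `V` -/
theorem X2.cen {y : G} (h1 : cn y t = t) (h2 : ∀ k, cn y (ι (d.U 0 0 k)) = ι (d.U 0 0 k)) :
    ∃ τ, (τ = 1 ∨ τ = t) ∧ (∀ l, cn (ι l) τ = τ) ∧ ∃ l f k, y = τ * ι (d.U l f k) := by
  obtain ⟨o, ho, l, f, k, e⟩ := h.cVt (cn_iff.1 h1) fun k => cn_iff.1 (h2 k)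
  obtain rfl := mem_bot.1 ho
  rcases e with e | e
  · exact ⟨1, .inl rfl, fun _ => cn_one _, l, f, k, e⟩
  · exact ⟨t, .inr rfl, ct h, l, f, k, e.trans (one_mul _)⟩

/-- the element `β = u₃ c` does not exist -/
theorem X2.no {β : G} (h1 : cn β t = t * ι (d.U 0 0 F4.v)) (h2 : ∀ k, cn β (ι (d.U 0 0 k)) = ι (d.U 0 0 k))
    (h3 : cn β (ι (d.U 1 1 0)) = ι (d.U 1 1 0))
    (h4 : cn (ι (d.U F4.w F4.w 0)) β = β * (ι (d.U 0 0 F4.v) * ι (d.U 0 0 1))) : False := by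
  have y3 : ι (d.U 1 1 F4.v) = ι (d.U 1 1 0) * ι (d.U 0 0 F4.v) := by rw [xm h]; rfl
  have p0 : cn (ι d.p) (ι (d.U 0 0 1)) = ι (d.U 0 0 1) := by rw [cn_map, h.af.pz]
  have p1 : cn (ι d.p) (ι (d.U 0 0 F4.v)) = ι (d.U 1 1 0) := by rw [cn_map, h.af.py1]
  have p2 : cn (ι d.p) (ι (d.U 1 1 0)) = ι (d.U 1 1 F4.v) := by rw [cn_map, h.af.py2]
  have p3 : cn (ι d.p) (ι (d.U 1 1 F4.v)) = ι (d.U 0 0 F4.v) := by
    rw [← p2, ← p1, ← mul_cn, ← mul_cn, ← map_mul, ← map_mul, h.af.p3, map_one, one_cn]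
  have p4 : cn (ι d.p) (ι (d.U F4.w F4.w 0)) = ι (d.U F4.w F4.w 0) := by rw [cn_map, h.af.pe]
  let P : G → Prop := fun γ => cn γ (ι (d.U 0 0 1)) = ι (d.U 0 0 1) ∧ cn γ (ι (d.U 0 0 F4.v)) = ι (d.U 0 0 F4.v) ∧
    cn γ (ι (d.U 1 1 0)) = ι (d.U 1 1 0) ∧ cn γ (ι (d.U 1 1 F4.v)) = ι (d.U 1 1 F4.v)
  have st : ∀ γ y, P γ ∧ cn γ t = t * y ∧ cn (ι (d.U F4.w F4.w 0)) γ = γ * (y * ι (d.U 0 0 1)) →
      P (cn (ι d.p) γ) ∧ cn (cn (ι d.p) γ) t = t * cn (ι d.p) y ∧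
        cn (ι (d.U F4.w F4.w 0)) (cn (ι d.p) γ) = cn (ι d.p) γ * (cn (ι d.p) y * ι (d.U 0 0 1)) :=
    fun γ y ⟨⟨a, b, c, e⟩, f, g⟩ => ⟨⟨by rw [← p0, cn_cn, a], by rw [← p3, cn_cn, e], by rw [← p1, cn_cn, b],
      by rw [← p2, cn_cn, c]⟩, by rw [← ct h d.p, cn_cn, ← cn_mul, f],
      by rw [← p4, ← p0, cn_cn, g, cn_mul, cn_mul]⟩
  have s1 : P β ∧ _ ∧ _ := ⟨⟨h2 _, h2 _, h3, by rw [y3, cn_mul, h3, h2]⟩, h1, h4⟩
  have s2 := st _ _ s1
  rw [p1] at s2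
  have s3 := st _ _ s2
  rw [p2] at s3
  generalize cn (ι d.p) (cn (ι d.p) β) = β3 at s3
  generalize cn (ι d.p) β = β2 at s2
  obtain ⟨⟨a1, b1, c1, e1⟩, f1, g1⟩ := s1
  obtain ⟨⟨a2, b2, c2, e2⟩, f2, g2⟩ := s2
  obtain ⟨⟨a3, b3, c3, e3⟩, f3, g3⟩ := s3
  obtain ⟨τ, -, k1, l, f, k, e⟩ := X2.cen h (y := β * β2 * β3) (by
      rw [mul_cn, mul_cn, f3, cn_mul, f2, e2, cn_mul, cn_mul, f1, c1, e1, mul_assoc, mul_assoc, xm h, xm h]
      exact (congrArg _ (x0 h)).trans (mul_one t)) fun k => by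
    have n1 : cn (β * β2 * β3) (ι (d.U 0 0 1)) = ι (d.U 0 0 1) := by rw [mul_cn, mul_cn, a3, a2, a1]
    have n2 : cn (β * β2 * β3) (ι (d.U 0 0 F4.v)) = ι (d.U 0 0 F4.v) := by rw [mul_cn, mul_cn, b3, b2, b1]
    cases k
    · exact (congrArg _ (x0 h)).trans ((cn_one _).trans (x0 h).symm)
    · exact n1
    · rw [show ι (d.U 0 0 F4.w) = ι (d.U 0 0 1) * ι (d.U 0 0 F4.v) by rw [cc h]; rfl, cn_mul, n1, n2]
    · exact n2
  have n3 : cn (β * β2 * β3) (ι (d.U 1 1 0)) = ι (d.U 1 1 0) := by rw [mul_cn, mul_cn, c3, c2, c1]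
  rw [e, mul_cn, xc h, cn_symm (k1 _)] at n3
  have n4 : cn (ι (d.U F4.w F4.w 0)) (β * β2 * β3) = β * β2 * β3 := by
    rw [e, cn_mul, k1, xc h]
    congr 3
    exact (by decide : ∀ l f k : F4, 0 + 1 * f + l * 1 = 0 → k + l * F4.w + F4.w * f = k) l f k (xinj h n3).2.2
  rw [cn_mul, cn_mul, g1, g2, g3] at n4
  have m2 : ι (d.U 0 0 F4.v) * ι (d.U 0 0 1) * β2 = β2 * (ι (d.U 0 0 F4.v) * ι (d.U 0 0 1)) :=
    (cn_iff.1 (by rw [cn_mul, a2, b2])).symm
  have m3 : ι (d.U 0 0 F4.v) * ι (d.U 0 0 1) * (ι (d.U 1 1 0) * ι (d.U 0 0 1)) * β3 =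
      β3 * (ι (d.U 0 0 F4.v) * ι (d.U 0 0 1) * (ι (d.U 1 1 0) * ι (d.U 0 0 1))) :=
    (cn_iff.1 (by rw [cn_mul, cn_mul, cn_mul, a3, b3, c3])).symm
  rw [mul_assoc β, ← mul_assoc _ β2, m2, mul_assoc β2, ← mul_assoc β, mul_assoc (β * β2), ← mul_assoc _ β3, m3,
    mul_assoc β3, ← mul_assoc (β * β2), mul_eq_left, xm h, xm h, xm h, xm h, xm h, ← x0 h] at n4
  exact absurd (xinj h n4).2.2 (by decide)

end

theorem Uf.exists_b (hu : Uf d ι t u) (h : Hy d ι t ⊥)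
    (hc : u * ι (d.U 0 F4.v 0) = ι (d.U 0 F4.v 0) * u) :
    ∃ b, Bf d ι t b 0 ∨ Bf d ι t b 1 := by
  obtain ⟨ξ, e1, e2⟩ := xv h hu hc
  have a1 := rv (u := u) h
  have a2 := sv h hu
  have a3 := v2 h hu
  have a4 := vt h hu
  have a5 : vv (ι d.r) u 0 = 1 := rfl
  have a6 : ι d.p * vv (ι d.r) u 1 = vv (ι d.r) u 1 * ι d.p := hu.up.symm
  generalize vv (ι d.r) u = v at e2 a1 a2 a3 a4 a5 a6
  have vF : ∀ m f k, cn (v m) (ι (d.U 0 f k)) = ι (d.U 0 f k) := fun m f k => cn_symm (by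
    rw [e2]; simp only [mul_zero, zero_mul, add_zero, x0 h, mul_one])
  have vi : ∀ m, (v m)⁻¹ = v m := fun m => inv_eq_of_mul_eq_one_right (a3 m)
  obtain rfl : ξ = 0 := by
    by_contra h0
    obtain rfl : ξ = 1 := by clear e2; revert ξ; decide
    refine X2.no h (β := v F4.v * ι (d.U 0 F4.v 0)) (by rw [mul_cn, ct h, a4]) (fun k => by rw [mul_cn, xC h, vF])
      ?_ ?_
    · have e := e2 F4.v 1 1 0
      have e' : cn (v F4.v) (ι (d.U 1 1 0)) = ι (d.U 0 0 F4.v) * ι (d.U 1 1 0) := by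
        rw [cn, vi, mul_assoc, mul_inv_eq_iff_eq_mul.1 e, ← mul_assoc, ← mul_assoc, a3, one_mul]
        rfl
      rw [mul_cn, xc h, show ι (d.U 1 1 (0 + 1 * F4.v + 0 * 1)) = ι (d.U 1 1 0) * ι (d.U 0 0 F4.v) by rw [xm h]; rfl,
        cn_mul, e', vF, xm h, xm h]
      rfl
    · rw [cn_mul, e2, xc h, mul_assoc (v _), mul_assoc (v _), xm h, xm h, xm h]
      rfl
  have vU : ∀ m l f k, cn (v m) (ι (d.U l f k)) = ι (d.U l f k) := fun m l f k => cn_symm (by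
    rw [e2, zero_mul, x0 h, mul_one])
  obtain ⟨τ, k0, k1, l, f, k, e⟩ := X2.cen h (y := v 1 * v F4.w * v F4.v) (by
    rw [mul_cn, mul_cn, a4, cn_mul, a4, vU, cn_mul, cn_mul, a4, vU, vU, mul_assoc, mul_assoc, cc h, cc h]
    exact (congrArg _ (x0 h)).trans (mul_one t)) fun k => by rw [mul_cn, mul_cn, vU, vU, vU]
  obtain ⟨i, i1, i2, i3, i4⟩ : ∃ i : F4, (i = 0 ∨ i = 1) ∧ τ * τ = 1 ∧ cn t τ = τ ∧
      ∀ m, cn (v m) τ = τ * ι (d.U 0 0 (i * m)) := by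
    rcases k0 with rfl | rfl
    · exact ⟨0, .inl rfl, one_mul 1, cn_one _, fun m => by rw [zero_mul, x0 h, cn_one, one_mul]⟩
    · exact ⟨1, .inr rfl, h.t2, cn_iff.2 rfl, fun m => by rw [one_mul, a4]⟩
  have b1 : ∀ l' f', ι (d.U l' f' (0 + l' * f + l * f')) = ι (d.U l' f' 0) := fun l' f' => by
    have : cn (v 1 * v F4.w * v F4.v) (ι (d.U l' f' 0)) = ι (d.U l' f' 0) := by rw [mul_cn, mul_cn, vU, vU, vU]
    rwa [e, mul_cn, xc h, cn_symm (k1 _)] at this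
  obtain rfl : l = 0 := by simpa using (xinj h (b1 0 1)).2.2
  obtain rfl : f = 0 := by simpa using (xinj h (b1 1 0)).2.2
  have b2 := congrArg (cn (ι d.r)) e
  rw [cn_mul, cn_mul, cn_mul, a1, a1, a1, k1, rC h] at b2
  have b3 := congrArg (cn (v 1)) e
  rw [cn_mul (v 1) τ, i4, vU, mul_assoc τ, cc h, cn, vi, ← mul_assoc, ← mul_assoc, a3, one_mul] at b3
  obtain rfl : k = F4.w * i := (by decide : ∀ k i : F4, F4.w * k = i * 1 + k → k = F4.w * i) k i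
    (xinj h (mul_left_cancel (b2.symm.trans b3))).2.2
  have b4 := congrArg (cn (ι d.r)) b2
  rw [cn_mul, cn_mul, cn_mul, a1, a1, a1, k1, rC h] at b4
  change v F4.v * v 1 * v F4.w = _ at b4
  have tC : ∀ k, ι (d.U 0 0 k) * τ = τ * ι (d.U 0 0 k) := fun k => cn_iff.1 (k1 _)
  have vC : ∀ k m, ι (d.U 0 0 k) * v m = v m * ι (d.U 0 0 k) := fun k m => (cn_iff.1 (vU m 0 0 k)).symm
  have vτ : ∀ m, v m * τ = τ * (v m * ι (d.U 0 0 (i * m))) := fun m => by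
    rw [← vC, ← mul_assoc, ← i4, cn, inv_mul_cancel_right]
  have tt : ∀ m, τ * v 1 * (τ * v m) = v 1 * v m * ι (d.U 0 0 i) := fun m => by
    rw [mul_assoc, ← mul_assoc (v 1), vτ, ← mul_assoc, ← mul_assoc, i2, one_mul, mul_one, mul_assoc, vC, mul_assoc]
  let b : F4 → G := fun m => if m = 0 then 1 else τ * v m
  have c1 : ∀ m, cn (ι d.r) (b m) = b (F4.w * m) := fun m => by
    by_cases m0 : m = 0
    · simp only [b, m0, mul_zero, if_true, cn_one]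
    · simp only [b, if_neg m0, if_neg (mul_ne_zero (show F4.w ≠ 0 by decide) m0), cn_mul, k1, a1]
  have B : Bf d ι t b i := ⟨rfl, ind (fun m => ?_) (fun m => ?_) fun m e m' => ?_, fun m => ?_,
    fun m l f k => ?_, fun m => ?_, c1, ?_⟩
  · exact ⟨b, i1.imp (fun e : i = 0 => e ▸ B) fun e : i = 1 => e ▸ B⟩
  · simp only [mul_zero, zero_mul, zero_add, x0 h, mul_one]
    exact one_mul _
  · cases m
    · exact congrArg _ ((congrArg (fun k => ι (d.U 0 0 k)) (mul_zero _)).trans (x0 h)).symm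
    · change τ * v 1 * (τ * v 1) = 1 * ι (d.U 0 0 (i * (1 * 1) * (1 * 1)))
      rw [tt, a3, mul_one, mul_one, mul_one]
    · change τ * v 1 * (τ * v F4.w) = τ * v F4.v * _
      rw [tt, eq_mul_inv_of_mul_eq e, vi, mul_assoc τ, vC, mul_assoc τ, mul_assoc, cc h, mul_assoc]
      congr 4
      generalize i = j; revert j; decide
    · change τ * v 1 * (τ * v F4.v) = τ * v F4.w * _
      have b5 := congrArg (·⁻¹) b4
      simp only [mul_inv_rev, vi, inv_eq_of_mul_eq_one_right i2] at b5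
      rw [tt, eq_inv_mul_of_mul_eq b5, vi, inv_eq_of_mul_eq_one_right ((cc h _ (F4.w * (F4.w * (F4.w * i)))).trans
        ((congrArg (fun k => ι (d.U 0 0 k)) (by generalize i = j; revert j; decide)).trans (x0 h))), tC,
        ← mul_assoc, vτ, mul_assoc τ, mul_assoc τ, mul_assoc, mul_assoc, cc h, cc h, mul_assoc]
      congr 4
      generalize i = j; revert j; decide
  · have := congrArg (cn (ι d.r)) (e (F4.v * m'))
    rw [cn_mul, cn_mul, c1, c1, c1, rC h] at this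
    rwa [(by decide : ∀ m : F4, F4.w * (F4.v * m) = m), (by decide : ∀ m m' : F4, F4.w * (m + F4.v * m') = F4.w * m + m'),
      (by decide : ∀ i m m' : F4, F4.w * (i * (m * m) * (F4.v * m' * (F4.v * m'))) =
        i * (F4.w * m * (F4.w * m)) * (m' * m'))] at this
  · by_cases m0 : m = 0
    · simp only [b, m0, if_true, x0 h, mul_one, mul_inv_cancel]
    · have : cn t (v m) = v m * ι (d.U 0 0 m) := by
        have e := mul_inv_eq_iff_eq_mul.1 (a4 m)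
        rw [cn, inv_eq_of_mul_eq_one_right h.t2, mul_assoc, e, mul_assoc, vC, ← mul_assoc, ← mul_assoc, h.t2, one_mul]
      simp only [b, if_neg m0]
      exact (cn_mul t τ (v m)).trans (by rw [i3, this, mul_assoc])
  · by_cases m0 : m = 0
    · simp only [b, m0, if_true, mul_one, one_mul]
    · simp only [b, if_neg m0]
      exact cn_iff.1 (by rw [mul_cn, vU, cn_symm (k1 _)])
  · by_cases m0 : m = 0
    · simp only [b, m0, mul_zero, if_true, mul_one, mul_inv_cancel]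
    · simp only [b, if_neg m0, if_neg (mul_ne_zero m0 m0)]
      exact (cn_mul _ τ (v m)).trans (by rw [k1, a2])
  · change ι d.p * (τ * v 1) = τ * v 1 * ι d.p
    rw [← mul_assoc, cn_iff.1 (k1 d.p), mul_assoc, a6, mul_assoc]

end Cfsg.Agent.MS
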