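import Cfsg.Agent.MS.BaseB

/-! Calculus in `R0` shared by the files WX and ZX (notes/MS.md). -/

set_option autoImplicit false
set_option linter.unusedSectionVars false

namespace Cfsg.Agent.MS.XW

open Subgroup H29 H42

section cn
variable {G : Type*} [Group G]

/-- conjugation -/
def cn (g x : G) : G := g * x * g⁻¹

theorem cn_mul (g x y : G) : cn g (x * y) = cn g x * cn g y := by unfold cn; group

theorem mul_cn (g h x : G) : cn (g * h) x = cn g (cn h x) := by unfold cn; group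

theorem cn_inv (g x : G) : cn g x⁻¹ = (cn g x)⁻¹ := by unfold cn; group

theorem cn_one (g : G) : cn g 1 = 1 := by unfold cn; group

theorem inv_cn {g x y : G} (h : cn g x = y) : cn g⁻¹ y = x := by rw [← h]; unfold cn; group

theorem cn_self {g x : G} : cn g x = x ↔ g * x = x * g := by
  unfold cn; exact mul_inv_eq_iff_eq_mul

theorem cn_cn (g h x : G) : cn (cn g h) x = cn g (cn h (cn g⁻¹ x)) := by unfold cn; group

theorem cn_cn' (g h x : G) : cn (cn g h) (cn g x) = cn g (cn h x) := by unfold cn; group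

theorem cn_comm {g x : G} (h : cn g x = x) : cn x g = g := cn_self.2 (cn_self.1 h).symm

theorem cn_inj {g x y : G} (h : cn g x = cn g y) : x = y := by
  rw [← inv_cn (rfl : cn g x = cn g x), h, inv_cn (rfl : cn g y = cn g y)]

theorem cube_inv {p : G} (h : p * p * p = 1) : p⁻¹ = p * p :=
  inv_eq_of_mul_eq_one_left h

theorem aux1 {β g g3 N : G} (h : β * g * g3 = N) (h1 : cn β N = N) (h2 : cn g N = N) :
    cn g β = β⁻¹ * (N * N) * (g3 * g3)⁻¹ * (g * g)⁻¹ := by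
  have e : g3 = (β * g)⁻¹ * N := by rw [← h]; group
  have c : cn N (β * g) = β * g := by rw [cn_mul, cn_comm h1, cn_comm h2]
  calc cn g β = β⁻¹ * (β * g) * (β * g) * (g * g)⁻¹ := by unfold cn; group
    _ = β⁻¹ * cn N (β * g) * (β * g) * (g * g)⁻¹ := by rw [c]
    _ = _ := by rw [e]; unfold cn; group

theorem aux2 {β g g3 N c : G} (h : β * g * g3 = N) (h2 : cn g N = N) (hc : c * c = 1)
    (hg : cn c g = g3) : cn g c = c * (cn g⁻¹ β)⁻¹ * (g * g)⁻¹ * N := by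
  have e : g3 = (β * g)⁻¹ * N := by rw [← h]; group
  have hc' : c⁻¹ = c := inv_eq_of_mul_eq_one_right hc
  calc cn g c = c⁻¹ * cn c g * (c * c) * g⁻¹ := by unfold cn; group
    _ = c * ((β * g)⁻¹ * N) * g⁻¹ := by rw [hc', hc, hg, e, mul_one]
    _ = c * (cn g⁻¹ β)⁻¹ * (g * g)⁻¹ * cn g N := by unfold cn; group
    _ = _ := by rw [h2]

end cn

variable {A G : Type*} [Group A] [Group G] [Finite G] {d : AD A} {ι : A →* G} {t : G}
  {O : Subgroup G} {b : F4 → G} {η : F4}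

/-- the general element of `R0` -/
def X (d : AD A) (ι : A →* G) (b : F4 → G) (l f k m : F4) : G := ι (d.U l f k) * b m

theorem X_congr {l f k m l' f' k' m' : F4} (h1 : l = l') (h2 : f = f') (h3 : k = k') (h4 : m = m') :
    X d ι b l f k m = X d ι b l' f' k' m' := by rw [h1, h2, h3, h4]

/-- equality of two elements of `R0` by comparing coordinates -/
scoped macro "xeq" : tactic => `(tactic| (refine X_congr ?_ ?_ ?_ ?_ <;> (clear * -; decide +revert)))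

theorem ι_cn (x y : A) : cn (ι x) (ι y) = ι (x * y * x⁻¹) := by
  unfold cn; rw [map_mul, map_mul, map_inv]

section
variable (hb : Bf d ι t b η) (h : Hy d ι t O)
include hb h

theorem U_eq (l f k : F4) : ι (d.U l f k) = X d ι b l f k 0 := by
  unfold X; rw [hb.b0, mul_one]

theorem b_eq (m : F4) : b m = X d ι b 0 0 0 m := by
  have := h.finA
  unfold X; rw [h.af.U_one, map_one, one_mul]

theorem X_one : X d ι b 0 0 0 0 = 1 := by rw [← b_eq hb h, hb.b0]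

theorem X_mul (l f k m l' f' k' m' : F4) : X d ι b l f k m * X d ι b l' f' k' m' =
    X d ι b (l + l') (f + f') (k + k' + l * l * (l' * l') + l' * f + η * (m * m) * (m' * m'))
      (m + m') := by
  unfold X
  calc ι (d.U l f k) * b m * (ι (d.U l' f' k') * b m')
      = ι (d.U l f k) * (b m * ι (d.U l' f' k')) * b m' := by group
    _ = ι (d.U l f k) * ι (d.U l' f' k') * (b m * b m') := by rw [hb.cU]; group
    _ = ι (d.U l f k * d.U l' f' k' * d.U 0 0 (η * (m * m) * (m' * m'))) * b (m + m') := by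
        rw [hb.mul, hb.cU, map_mul, map_mul]; group
    _ = _ := by
        rw [h.af.mul, h.af.mul]
        simp only [add_zero, mul_zero, zero_mul]

theorem X_inv (l f k m : F4) : (X d ι b l f k m)⁻¹ = X d ι b l f (k + l + l * f + η * m) m := by
  refine inv_eq_of_mul_eq_one_right ?_
  rw [X_mul hb h, ← X_one hb h]
  clear hb h
  generalize η = e
  xeq

theorem X_inj {l f k m l' f' k' m' : F4} (e : X d ι b l f k m = X d ι b l' f' k' m') :
    l = l' ∧ f = f' ∧ k = k' ∧ m = m' := hb.nf h e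

theorem s_X (l f k m : F4) :
    cn (ι d.s) (X d ι b l f k m) = X d ι b (l * l) (f * f) (k * k) (m * m) := by
  unfold X
  rw [cn_mul, ι_cn, h.af.sU]
  exact congrArg _ (hb.sb m)

theorem r_X (l f k m : F4) :
    cn (ι d.r) (X d ι b l f k m) = X d ι b (F4.w * l) f (F4.w * k) (F4.w * m) := by
  unfold X
  rw [cn_mul, ι_cn, h.af.rU]
  exact congrArg _ (hb.rb m)

theorem ri_X (l f k m : F4) :
    cn (ι d.r)⁻¹ (X d ι b l f k m) = X d ι b (F4.v * l) f (F4.v * k) (F4.v * m) := by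
  refine inv_cn ?_
  rw [r_X hb h]
  xeq

theorem t_X (l f k m : F4) : cn t (X d ι b l f k m) = X d ι b l f (k + m) m := by
  have h1 : cn t (b m) = X d ι b 0 0 m m := by
    unfold cn X
    rw [hb.tb, hb.cU]
  have h2 : X d ι b l f k m = ι (d.U l f k) * b m := rfl
  rw [h2, cn_mul, cn_self.2 (h.tc _), h1, U_eq hb h, X_mul hb h]
  xeq

theorem X_t (l f k m : F4) : cn (X d ι b l f k m) t = t * X d ι b 0 0 m 0 := by
  have h1 : cn (b m) t = t * ι (d.U 0 0 m) := hb.bt h m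
  have := h.finA
  unfold X
  rw [mul_cn, h1, cn_mul, cn_self.2 (h.tc _).symm, ι_cn, h.af.U_conj, hb.b0, mul_one]
  simp only [zero_mul, mul_zero, add_zero]

theorem X_X (l f k m l' f' k' m' : F4) : cn (X d ι b l f k m) (X d ι b l' f' k' m') =
    X d ι b l' f' (k' + l' * f + l * f') m' := by
  unfold cn
  rw [mul_inv_eq_iff_eq_mul, X_mul hb h, X_mul hb h]
  refine X_congr (add_comm _ _) (add_comm _ _) ?_ (add_comm _ _)
  have h2 : l * f' + l * f' = 0 := by decide +revert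
  linear_combination (-1 : F4) * h2

theorem ι_t (x : A) : cn (ι x) t = t := cn_self.2 (h.tc x).symm

theorem ιi_t (x : A) : cn (ι x)⁻¹ t = t := inv_cn (ι_t hb h x)

theorem s_s : ι d.s * ι d.s = 1 := by rw [← map_mul, h.af.s2, map_one]

theorem p3 : ι d.p * ι d.p * ι d.p = 1 := by rw [← map_mul, ← map_mul, h.af.p3, map_one]

theorem p_a : cn (ι d.p) (X d ι b 0 1 0 0) = ι d.s := by rw [← U_eq hb h, ι_cn, h.af.pa]

theorem p_s : cn (ι d.p) (ι d.s) = X d ι b 0 1 0 0 * ι d.s := by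
  rw [← U_eq hb h, ι_cn, h.af.ps, map_mul]

theorem a_s : X d ι b 0 1 0 0 * ι d.s = ι d.s * X d ι b 0 1 0 0 := by
  refine (cn_self.1 ?_).symm
  rw [s_X hb h]
  xeq

theorem p_as : cn (ι d.p) (X d ι b 0 1 0 0 * ι d.s) = X d ι b 0 1 0 0 := by
  rw [cn_mul, p_a hb h, p_s hb h, a_s hb h, ← mul_assoc, s_s hb h, one_mul]

theorem p_z : cn (ι d.p) (X d ι b 0 0 1 0) = X d ι b 0 0 1 0 := by
  rw [← U_eq hb h, ι_cn, h.af.pz]

theorem p_b1 : cn (ι d.p) (X d ι b 0 0 0 1) = X d ι b 0 0 0 1 := by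
  rw [← b_eq hb h]; exact cn_self.2 hb.pb

theorem p_y1 : cn (ι d.p) (X d ι b 0 0 F4.v 0) = X d ι b 1 1 0 0 := by
  rw [← U_eq hb h, ← U_eq hb h, ι_cn, h.af.py1]

theorem p_y2 : cn (ι d.p) (X d ι b 1 1 0 0) = X d ι b 1 1 F4.v 0 := by
  rw [← U_eq hb h, ← U_eq hb h, ι_cn, h.af.py2]

theorem p_y3 : cn (ι d.p) (X d ι b 1 1 F4.v 0) = X d ι b 0 0 F4.v 0 := by
  rw [← p_y2 hb h, ← p_y1 hb h, ← mul_cn, ← mul_cn, p3 hb h]
  unfold cn
  group

theorem g_X (l k : F4) : cn (gE d ι b) (X d ι b l l k 0) = X d ι b l l k 0 := by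
  rw [← U_eq hb h]; exact cn_self.2 (hb.g_E h l k)

theorem g_b1 : cn (gE d ι b) (X d ι b 0 0 0 1) = X d ι b 0 0 0 1 := by
  rw [← b_eq hb h]; exact cn_self.2 hb.g_b1

theorem g_t : cn (gE d ι b) t = t * X d ι b 1 1 0 0 := by
  rw [← U_eq hb h]; exact hb.g_t h

theorem g_eq : gE d ι b = cn (ι d.p) (X d ι b 0 0 0 F4.v) := by
  rw [← b_eq hb h]; rfl

/-- `c g c⁻¹ = g3` -/
theorem c_g : cn (X d ι b 0 F4.v 0 0) (gE d ι b) = cn (ι d.p)⁻¹ (X d ι b 0 0 0 F4.v) := by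
  have h1 : cn (X d ι b 0 F4.v 0 0) (ι d.p) = (ι d.p)⁻¹ := by
    rw [← U_eq hb h, ι_cn, h.af.cp, map_inv]
  have h2 : cn (X d ι b 0 F4.v 0 0) (X d ι b 0 0 0 F4.v) = X d ι b 0 0 0 F4.v := by
    rw [X_X hb h]; xeq
  rw [g_eq hb h, ← cn_cn', h1, h2]

/-- `β s β⁻¹` -/
theorem β_s : cn (X d ι b 0 0 0 F4.v) (ι d.s) = ι d.s * X d ι b 0 0 (η * F4.w) 1 := by
  have h1 : cn (ι d.s) (X d ι b 0 0 0 F4.w) = X d ι b 0 0 0 F4.v := by
    rw [s_X hb h]; xeq
  have h2 : X d ι b 0 0 (η * F4.w) 1 = X d ι b 0 0 0 F4.w * (X d ι b 0 0 0 F4.v)⁻¹ := by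
    rw [X_inv hb h, X_mul hb h]
    clear h1 hb h
    generalize η = e
    xeq
  rw [h2]
  unfold cn at h1 ⊢
  nth_rewrite 1 [← h1]
  group

theorem β_a : cn (X d ι b 0 0 0 F4.v) (X d ι b 0 1 0 0) = X d ι b 0 1 0 0 := by
  rw [X_X hb h]; xeq

theorem g_a : cn (gE d ι b) (X d ι b 0 1 0 0) =
    X d ι b 0 1 0 0 * cn (ι d.p) (X d ι b 0 0 (η * F4.w) 1) := by
  rw [g_eq hb h]
  nth_rewrite 1 [← p_as hb h]
  rw [cn_cn', cn_mul, β_a hb h, β_s hb h, ← mul_assoc, cn_mul, p_as hb h]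

theorem g3_a : cn (cn (ι d.p)⁻¹ (X d ι b 0 0 0 F4.v)) (X d ι b 0 1 0 0) =
    X d ι b 0 1 0 0 * cn (ι d.p)⁻¹ (X d ι b 0 0 (η * F4.w) 1) := by
  nth_rewrite 1 [← inv_cn (p_a hb h)]
  rw [cn_cn', β_s hb h, cn_mul, inv_cn (p_a hb h)]

end

theorem gN (hb : Bf d ι t b η) (h : Hy d ι t ⊥) : ∃ l k, k * k = k ∧
    X d ι b 0 0 0 F4.v * gE d ι b * cn (ι d.p)⁻¹ (X d ι b 0 0 0 F4.v) = X d ι b l l k 0 := by
  obtain ⟨l, k, -, hk, e⟩ := hb.g_N h
  refine ⟨l, k, hk, ?_⟩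
  rw [← U_eq hb h, ← b_eq hb h, ← e, cn, inv_inv]

end Cfsg.Agent.MS.XW
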