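import Cfsg.Agent.MS.ZNR

/-! notes/MS.md, section Z4. -/

set_option autoImplicit false

namespace Cfsg.Agent.MS

open Subgroup H29 H42

variable {A G : Type*} [Group A] [Group G] [Finite G] {d : AD A} {ι : A →* G} {t u x : G}
  {O E Q : Subgroup G} {b : F4 → G} {η ν : F4}

namespace Z4

omit [Finite G] in
theorem card_rel (H K : Subgroup G) : Nat.card K = Nat.card (H ⊓ K : Subgroup G) * H.relIndex K := by
  rw [relIndex, ← (H.subgroupOf K).card_mul_index]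
  congr 1
  rw [← inf_subgroupOf_right]
  exact Nat.card_congr (subgroupOfEquivOfLe inf_le_right).toEquiv

omit [Finite G] in
theorem UC (h : Hy d ι t O) (l f k k' : F4) :
    ι (d.U l f k) * ι (d.U 0 0 k') = ι (d.U l f (k + k')) := by
  rw [← map_mul, h.af.mul]
  congr 2 <;> ring

theorem V_sq (h : Hy d ι t O) {y : G} (hy : y ∈ VV d ι) : y * y = 1 := by
  have := h.finA
  obtain ⟨k, rfl⟩ := h.mem_VV.mp hy
  rw [UC h, show k + k = 0 from (by decide : ∀ k : F4, k + k = 0) k, h.af.U_one, map_one]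

theorem pow4 (h : Hy d ι t O) {y : G} (hy : y * y ∈ VV d ι) : y ^ 2 ^ 2 = 1 := by
  have := V_sq h hy
  rw [← this, show 2 ^ 2 = 4 from rfl]
  simp only [pow_succ, pow_zero, one_mul, mul_assoc]

omit [Finite G] in
theorem HV_comm {n : G} (hn : n ∈ HV d ι) (k : F4) : ι (d.U 0 0 k) * n = n * ι (d.U 0 0 k) :=
  hn _ ⟨k, rfl⟩

omit [Finite G] in
theorem O_RR (h : Zf d ι t O b) {o y : G} (ho : o ∈ O) (hy : y ∈ RR d ι t b) : o * y = y * o := by
  have : RR d ι t b ≤ centralizer {o} := by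
    refine (closure_le _).mpr ?_
    rintro z ((⟨l, f, k, rfl⟩ | ⟨m, rfl⟩) | rfl)
    · exact mem_centralizer_singleton_iff.mpr (h.AO o ho _).symm
    · exact mem_centralizer_singleton_iff.mpr (h.bO o ho _).symm
    · exact mem_centralizer_singleton_iff.mpr (h.hy.Ot o ho).symm
  exact (mem_centralizer_singleton_iff.mp (this hy)).symm

theorem RR_pow (h : Zf d ι t O b) {y : G} (hy : y ∈ RR d ι t b) : y ^ 2 ^ 9 = 1 := by
  have e := pow_card_eq_one' (x := (⟨y, hy⟩ : RR d ι t b))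
  rw [h.bf.card_RR h.hy] at e
  exact congrArg Subtype.val e

theorem dg_V (h : Zf d ι t O b) {y : G} (hy : y ∈ VV d ι) : Dg d ι b y 1 := by
  have := h.hy.finA
  obtain ⟨k, rfl⟩ := h.hy.mem_VV.mp hy
  intro l f k'
  refine ⟨k' + l * 0 + 0 * f, 0, ?_⟩
  rw [← map_inv, ← map_mul, ← map_mul, h.hy.af.U_conj, h.bf.b0]
  simp

/-- `Q' / V` is abelian -/
theorem comm_V (h : Hy d ι t O) {Q' : Subgroup G} (hH : Q' ≤ HV d ι)
    (h2 : ∀ n ∈ Q', n * n ∈ VV d ι) {y z : G} (hy : y ∈ Q') (hz : z ∈ Q') :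
    ∃ k, y * z * y⁻¹ = z * ι (d.U 0 0 k) := by
  obtain ⟨k1, e1⟩ := h.mem_VV.mp (h2 y hy)
  obtain ⟨k2, e2⟩ := h.mem_VV.mp (h2 z hz)
  obtain ⟨k3, e3⟩ := h.mem_VV.mp (h2 _ (Q'.mul_mem hy hz))
  have c1 := HV_comm (hH hz) k1
  have c3 := HV_comm (hH hy) k3
  have c4 := HV_comm (hH hz) k3
  have m : (ι (d.U 0 0 k2))⁻¹ * ι (d.U 0 0 k3) * (ι (d.U 0 0 k1))⁻¹ ∈ VV d ι :=
    mul_mem (mul_mem (inv_mem (h.mem_VV.mpr ⟨_, rfl⟩)) (h.mem_VV.mpr ⟨_, rfl⟩))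
      (inv_mem (h.mem_VV.mpr ⟨_, rfl⟩))
  obtain ⟨k, e⟩ := h.mem_VV.mp m
  refine ⟨k, ?_⟩
  rw [← e, ← e2, ← e1]
  have a1 : y * z = ι (d.U 0 0 k3) * z⁻¹ * y⁻¹ := by rw [← e3]; group
  have a2 : ι (d.U 0 0 k3) * z⁻¹ = z⁻¹ * ι (d.U 0 0 k3) := by
    rw [mul_inv_eq_iff_eq_mul, mul_assoc, c4]; group
  rw [a1, a2]; group

end Z4

open Z4 in
theorem Qf.z4 (h : Qf d ι t O b Q) {Q' : Subgroup G} (_hV : VV d ι ≤ Q') (hH : Q' ≤ HV d ι)
    (h2 : ∀ n ∈ Q', n * n ∈ VV d ι) (hc : Nat.card Q' = 1024) (ht : t ∈ normalizer (Q' : Set G)) :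
    Q' = Q := by
  have zf := h.zf
  have hy := zf.hy
  have := hy.finA
  have t2 := hy.t2
  have ti : t⁻¹ = t := inv_eq_of_mul_eq_one_right t2
  -- every element of `Q'` normalises `RR`
  have hN : ∀ y ∈ Q', y ∈ normalizer (RR d ι t b : Set G) := by
    intro y hyQ
    have wQ : t * y * t⁻¹ * y⁻¹ ∈ Q' :=
      mul_mem ((mem_normalizer_iff.mp ht y).mp hyQ) (inv_mem hyQ)
    set w := t * y * t⁻¹ * y⁻¹ with hw
    obtain ⟨k, ek⟩ := hy.mem_VV.mp (h2 _ (inv_mem wQ))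
    have e1 : w * t * w⁻¹ = t * ι (d.U 0 0 k) := by
      rw [← ek, hw, ti]
      simp only [mul_inv_rev, inv_inv, ti, mul_assoc]
    obtain ⟨o, ho, y', hy', e⟩ := zf.bf.RO hy (hH wQ) e1
    have c := O_RR zf ho hy'
    have o1 : o = 1 := odd_two (hy.oddO ho) c (RR_pow zf hy')
      (k := 2) (by rw [c, ← e]; exact pow4 hy (h2 _ wQ))
    rw [o1, mul_one] at e
    have tR : t ∈ RR d ι t b := subset_closure (Or.inr rfl)
    refine zf.nR (hH hyQ) ?_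
    have : y * t * y⁻¹ = t * w := by
      rw [hw, ti]
      simp only [← mul_assoc, t2, one_mul]
    rw [this, e]
    exact mul_mem tR hy'
  have hB : ∀ y ∈ Q', y ∈ normalizer (B0 d ι b : Set G) := fun y hyQ =>
    (zf.mono (hH hyQ) (hN y hyQ)).2.1
  have dg1 : ∀ y ∈ Q', ∀ α, Dg d ι b y α → Dg d ι b y 1 := by
    intro y hyQ α e
    have e1 := zf.dg_uniq (zf.dg_dg (hB y hyQ) e e) (dg_V zf (h2 y hyQ))
    have : α = 1 := (by decide : ∀ α : F4, α * α = 1 → α = 1) α e1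
    rwa [this] at e
  have alt : ∀ y ∈ Q', Dg d ι b y 1 ∨ ∃ α, α ≠ 0 ∧ Sw d ι b y α := by
    intro y hyQ
    obtain ⟨α, hα, e | e⟩ := (zf.mono (hH hyQ) (hN y hyQ)).1
    · exact Or.inl (dg1 y hyQ α e)
    · exact Or.inr ⟨α, hα, e⟩
  let Q0 : Subgroup G :=
    { carrier := {y | y ∈ Q' ∧ Dg d ι b y 1}
      one_mem' := ⟨one_mem _, dg_V zf (one_mem _)⟩
      mul_mem' := by
        rintro y z ⟨hy1, hy2⟩ ⟨hz1, hz2⟩
        exact ⟨mul_mem hy1 hz1, by simpa using zf.dg_dg (hB y hy1) hy2 hz2⟩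
      inv_mem' := by
        rintro y ⟨hy1, hy2⟩
        refine ⟨inv_mem hy1, ?_⟩
        rcases alt _ (inv_mem hy1) with e | ⟨α, _, e⟩
        · exact e
        · have e' := zf.dg_sw (hB y hy1) hy2 e
          rw [mul_inv_cancel] at e'
          exact (zf.dg_ne_sw one_ne_zero (dg_V zf (one_mem _)) e').elim }
  have mQ0 : ∀ y, y ∈ Q0 ↔ y ∈ Q' ∧ Dg d ι b y 1 := fun y => Iff.rfl
  have le0 : Q0 ≤ Q' := fun y hy => hy.1
  -- elements of `Q0`
  have el : ∀ y ∈ Q0, y ∈ Q ∨ ∃ q ∈ R0 d ι b, y = q * t := by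
    intro y hy0
    obtain ⟨hyQ, e⟩ := (mQ0 y).mp hy0
    obtain ⟨o, ho, q, hq, e1 | e1⟩ := h.dg1 (hH hyQ) (hN y hyQ) e
    · have o1 : o = 1 := odd_two (hy.oddO ho) (h.QO o ho q hq) (h.isP hq).1
        (k := 2) (by rw [← e1]; exact pow4 hy (h2 _ hyQ))
      rw [o1, one_mul] at e1
      exact Or.inl (e1 ▸ hq)
    · obtain ⟨k, ek⟩ := (h.isP hq).2
      have c : o * (q * t) = q * t * o := by
        rw [← mul_assoc, h.QO o ho q hq, mul_assoc, hy.Ot o ho, mul_assoc]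
      have o1 : o = 1 := odd_two (hy.oddO ho) c ek
        (k := 2) (by rw [← e1]; exact pow4 hy (h2 _ hyQ))
      rw [o1, one_mul] at e1
      exact Or.inr ⟨q, h.qt hq (e1 ▸ h2 y hyQ), e1⟩
  -- index at most two
  have idx : Q0.relIndex Q' ∣ 2 := by
    rw [relIndex_dvd_two_iff]
    by_cases hs : ∃ y ∈ Q', ∃ α, α ≠ 0 ∧ Sw d ι b y α
    · obtain ⟨y, hyQ, α, hα, e⟩ := hs
      refine ⟨y, hyQ, fun z hz => ?_⟩
      rcases alt z hz with e' | ⟨β, _, e'⟩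
      · exact Or.inr ⟨hz, e'⟩
      · exact Or.inl ⟨mul_mem hz hyQ, dg1 _ (mul_mem hz hyQ) _ (zf.sw_sw (hB z hz) e' e hα)⟩
    · refine ⟨1, one_mem _, fun z hz => Or.inr ⟨hz, ?_⟩⟩
      rcases alt z hz with e' | e'
      · exact e'
      · exact (hs ⟨z, hz, e'⟩).elim
  have c0 : 512 ≤ Nat.card Q0 := by
    have e := card_rel Q0 Q'
    rw [inf_eq_left.mpr le0, hc] at e
    have := Nat.le_of_dvd two_pos idx
    nlinarith
  -- a swapping element restricts the elements of `Q' ∩ R0`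
  have sw : ∀ y ∈ Q', ∀ α, Sw d ι b y α → ∀ l f k m, ι (d.U l f k) * b m ∈ Q' → l = α * f := by
    intro y hyQ α e l f k m hx
    obtain ⟨k1, e1⟩ := comm_V hy hH h2 hyQ hx
    obtain ⟨k2, m2, e2⟩ := e l f k
    have bm : b m ∈ B0 d ι b := subset_closure (Or.inr ⟨m, rfl⟩)
    obtain ⟨k3, m3, e3⟩ :=
      (zf.bf.mem_B0 hy).mp ((mem_normalizer_iff.mp (hB y hyQ) _).mp bm)
    have e4 : y * (ι (d.U l f k) * b m) * y⁻¹ = y * ι (d.U l f k) * y⁻¹ * (y * b m * y⁻¹) := by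
      group
    rw [e2, e3, e1, mul_assoc, zf.bf.cU, ← mul_assoc, UC hy, mul_assoc, ← mul_assoc (b m2),
      zf.bf.cU, mul_assoc (ι (d.U 0 0 k3)), zf.bf.mul, zf.bf.cU, ← mul_assoc (ι (d.U _ _ k2)), UC hy,
      ← mul_assoc (ι (d.U _ _ (k2 + k3))), UC hy] at e4
    exact (zf.bf.nf hy e4).1
  have hne : Q0 ≠ Q' → ∃ y ∈ Q', ∃ α, α ≠ 0 ∧ Sw d ι b y α := by
    intro hne
    by_contra hs
    refine hne (le_antisymm le0 fun z hz => ⟨hz, ?_⟩)
    rcases alt z hz with e' | e'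
    · exact e'
    · exact (hs ⟨z, hz, e'⟩).elim
  have leQ : Q0 ≤ Q := by
    intro y0 hy0
    rcases el y0 hy0 with e | ⟨q0, hq0, e0⟩
    · exact e
    exfalso
    have leR : Q0 ≤ RR d ι t b := by
      intro y hy1
      rw [zf.bf.mem_RR hy]
      rcases el y hy1 with e | ⟨q, hq, e⟩
      · left
        have m := h2 _ (le0 (mul_mem hy1 hy0))
        rw [e0, ← mul_assoc y] at m
        have := h.qt (mul_mem e (h.le hq0)) m
        simpa using mul_mem this (inv_mem hq0)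
      · right
        rwa [e, mul_assoc, t2, mul_one]
    have eR : Q0 = RR d ι t b :=
      eq_of_le_of_card_ge leR (by rw [zf.bf.card_RR hy]; exact c0)
    obtain ⟨y, hyQ, α, hα, e⟩ := hne (by
      intro e
      have := zf.bf.card_RR hy
      rw [← eR, e, hc] at this
      omega)
    have ha : ι (d.U 0 1 0) * b 0 ∈ Q' := by
      refine le0 (eR ▸ ?_)
      exact (zf.bf.mem_RR hy).mpr (Or.inl ((zf.bf.mem_R0 hy).mpr ⟨_, _, _, _, rfl⟩))
    have := sw y hyQ α e _ _ _ _ ha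
    rw [mul_one] at this
    exact hα this.symm
  by_cases e0 : Q0 = Q'
  · exact eq_of_le_of_card_ge (e0 ▸ leQ) (by rw [hc, h.card])
  exfalso
  obtain ⟨y, hyQ, α, hα, e⟩ := hne e0
  have r4 : (R0 d ι b).relIndex Q = 4 := by
    have e := card_rel (R0 d ι b) Q
    rw [inf_eq_left.mpr h.le, h.card, zf.bf.card_R0 hy] at e
    omega
  have r5 : (R0 d ι b).relIndex Q0 ≤ 4 := r4 ▸ relIndex_le_of_le_right leQ (by rw [r4]; decide)
  have c1 : Nat.card (R0 d ι b ⊓ Q0 : Subgroup G) ≤ 64 := by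
    have hs : ((R0 d ι b ⊓ Q0 : Subgroup G) : Set G) ⊆
        Set.range (fun p : F4 × F4 × F4 => ι (d.U (α * p.1) p.1 p.2.1) * b p.2.2) := by
      rintro z ⟨hz1, hz2⟩
      obtain ⟨l, f, k, m, rfl⟩ := (zf.bf.mem_R0 hy).mp hz1
      have := sw y hyQ α e l f k m (le0 hz2)
      exact ⟨(f, k, m), by rw [this]⟩
    calc Nat.card (R0 d ι b ⊓ Q0 : Subgroup G) ≤ Nat.card (Set.range _) :=
          Nat.card_mono (Set.toFinite _) hs
      _ ≤ Nat.card (F4 × F4 × F4) := Finite.card_range_le _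
      _ = 64 := by simp [F4.card_eq]
  have e1 := card_rel (R0 d ι b) Q0
  nlinarith

end Cfsg.Agent.MS
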