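import Cfsg.Agent.MS.ZNR
import Cfsg.Agent.MS.GenB

/-! notes/MS.md, section Z5. -/

set_option autoImplicit false

namespace Cfsg.Agent.MS

open Subgroup H29 H42

variable {A G : Type*} [Group A] [Group G] [Finite G] {d : AD A} {ι : A →* G} {t u x : G}
  {O E Q : Subgroup G} {b : F4 → G} {η ν : F4}

omit [Finite G] in
theorem z5_memHV {y : G} : y ∈ HV d ι ↔ ∀ k, ι (d.U 0 0 k) * y = y * ι (d.U 0 0 k) := by
  unfold HV
  rw [mem_centralizer_iff]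
  constructor
  · intro h k
    exact h _ ⟨k, rfl⟩
  · rintro h _ ⟨k, rfl⟩
    exact h k

omit [Finite G] in
theorem z5_CC (h : Hy d ι t O) (k k' : F4) :
    ι (d.U 0 0 k) * ι (d.U 0 0 k') = ι (d.U 0 0 (k + k')) := by
  rw [← map_mul, h.af.mul]
  simp

theorem z5_UR0 (h : Zf d ι t O b) (l f k : F4) : ι (d.U l f k) ∈ R0 d ι b :=
  (h.bf.mem_R0 h.hy).2 ⟨l, f, k, 0, by rw [h.bf.b0, mul_one]⟩

theorem z5_HVV (h : Hy d ι t O) {y v : G} (hy : y ∈ HV d ι) (hv : v ∈ VV d ι) : v * y = y * v := by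
  obtain ⟨k, rfl⟩ := h.mem_VV.1 hv
  exact z5_memHV.1 hy k

omit [Finite G] in
theorem z5_tH (h : Hy d ι t O) : t ∈ HV d ι := z5_memHV.2 fun _ => (h.tc _).symm

omit [Finite G] in
theorem z5_og (h : Zf d ι t O b) {o : G} (ho : o ∈ O) : o * gE d ι b = gE d ι b * o := by
  have h1 : Commute o (ι d.p) := h.AO o ho _
  have h2 : Commute o (b F4.v) := h.bO o ho _
  exact ((h1.mul_right h2).mul_right h1.inv_right).eq

theorem z5_tg (h : Qf d ι t O b Q) : t * gE d ι b * t⁻¹ * (gE d ι b)⁻¹ ∈ Q := by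
  have e := h.zf.bf.g_t h.zf.hy
  have e2 : t * gE d ι b * t⁻¹ * (gE d ι b)⁻¹ = t * (gE d ι b * t * (gE d ι b)⁻¹)⁻¹ := by group
  have e3 : t * (t * ι (d.U 1 1 0))⁻¹ = (ι (d.U 1 1 0))⁻¹ := by
    rw [h.zf.hy.tc]; group
  rw [e2, e, e3]
  exact Q.inv_mem (h.le (z5_UR0 h.zf _ _ _))

theorem z5_gg (h : Qf d ι t O b Q) : gE d ι b * gE d ι b ∈ Q := by
  rw [h.zf.bf.g_sq h.zf.hy]
  exact h.le (z5_UR0 h.zf _ _ _)

omit [Finite G] in
theorem z5_cj {Q : Subgroup G} {y q : G} (hy : y ∈ normalizer (Q : Set G)) (hq : q ∈ Q) :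
    y * q * y⁻¹ ∈ Q := (mem_normalizer_iff.1 hy q).1 hq

theorem z5_star (h : Qf d ι t O b Q) {x c : G} (hx : x ∈ HV d ι) (ht : x * t * x⁻¹ * t⁻¹ ∈ Q)
    (cH : c ∈ HV d ι) (cR : c ∈ normalizer (RR d ι t b : Set G)) (cD : Dg d ι b c 1)
    (e : x * gE d ι b * x⁻¹ = c * gE d ι b) :
    ∃ o ∈ O, ∃ q ∈ Q, ∃ y, (y = 1 ∨ y = t ∨ y = (gE d ι b)⁻¹ ∨ y = t * (gE d ι b)⁻¹) ∧
      x = o * (q * y) := by
  have z := h.zf
  have t2 := z.hy.t2
  have ti : t⁻¹ = t := inv_eq_of_mul_eq_one_right t2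
  have hq : x * t * x⁻¹ * t⁻¹ ∈ R0 d ι b := by
    apply h.qt ht
    have : x * t * x⁻¹ * t⁻¹ * t * (x * t * x⁻¹ * t⁻¹ * t) = x * (t * t) * x⁻¹ := by group
    rw [this, t2]
    simp
  have xR : x ∈ normalizer (RR d ι t b : Set G) := by
    apply z.nR hx
    rw [z.bf.mem_RR z.hy]
    right
    rwa [ti] at hq
  obtain ⟨gH, gR, gS⟩ := z.g_sw
  obtain ⟨⟨α, hα, hx2⟩, xB, -⟩ := z.mono hx xR
  have cB := (z.mono cH cR).2.1
  have gB := (z.mono gH gR).2.1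
  have e' : x * gE d ι b = c * (gE d ι b * x) := by
    rw [← mul_assoc, ← e]; group
  rcases hx2 with hD | hS
  · have s1 := z.dg_sw xB hD gS
    have s2 := z.dg_sw cB cD (z.sw_dg gB gS hD hα)
    rw [← e'] at s2
    have h1 := z.sw_uniq s1 s2
    have hα1 : α = 1 := by
      revert hα h1; generalize α = a; revert a; decide
    subst hα1
    obtain ⟨o, ho, q, hq', e1 | e1⟩ := h.dg1 hx xR hD
    · exact ⟨o, ho, q, hq', 1, Or.inl rfl, by simpa using e1⟩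
    · exact ⟨o, ho, q, hq', t, Or.inr (Or.inl rfl), e1⟩
  · have s1 := z.sw_sw xB hS gS one_ne_zero
    have s2 := z.dg_dg cB cD (z.sw_sw gB gS hS hα)
    rw [← e'] at s2
    have h1 := z.dg_uniq s1 s2
    have hα1 : α = 1 := by
      revert hα h1; generalize α = a; revert a; decide
    subst hα1
    simp only [mul_one] at s1
    obtain ⟨o, ho, q, hq, e1 | e1⟩ := h.dg1 (mul_mem hx gH) (mul_mem xR gR) s1
    · refine ⟨o, ho, q, hq, _, Or.inr (Or.inr (Or.inl rfl)), ?_⟩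
      rw [← mul_assoc, ← e1]; group
    · refine ⟨o, ho, q, hq, _, Or.inr (Or.inr (Or.inr rfl)), ?_⟩
      rw [← mul_assoc q, ← mul_assoc, ← e1]; group

theorem z5_y (h : Qf d ι t O b Q) {y : G}
    (hy : y = 1 ∨ y = t ∨ y = (gE d ι b)⁻¹ ∨ y = t * (gE d ι b)⁻¹) :
    y ∈ normalizer (Q : Set G) ∧ y * y ∈ Q ∧ y * gE d ι b * y⁻¹ * (gE d ι b)⁻¹ ∈ Q ∧
      ∀ o ∈ O, o * y = y * o := by
  have z := h.zf
  have t2 := z.hy.t2
  have ti : t⁻¹ = t := inv_eq_of_mul_eq_one_right t2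
  rcases hy with rfl | rfl | rfl | rfl
  · exact ⟨one_mem _, by simp, by simp, by simp⟩
  · exact ⟨h.nt, by rw [t2]; exact one_mem _, z5_tg h, z.hy.Ot⟩
  · refine ⟨inv_mem h.ng, ?_, by simp, fun o ho => ?_⟩
    · rw [← mul_inv_rev]; exact inv_mem (z5_gg h)
    · exact (Commute.inv_right (z5_og z ho)).eq
  · refine ⟨mul_mem h.nt (inv_mem h.ng), ?_, ?_, fun o ho => ?_⟩
    · have h1 := z5_cj h.nt (z5_cj (inv_mem h.ng) (z5_tg h))
      have h2 := mul_mem h1 (inv_mem (z5_gg h))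
      have : t * (gE d ι b)⁻¹ * (t * (gE d ι b)⁻¹) = t * ((gE d ι b)⁻¹ *
          (t * gE d ι b * t⁻¹ * (gE d ι b)⁻¹) * (gE d ι b)⁻¹⁻¹) * t⁻¹ * (t * t) *
            (gE d ι b * gE d ι b)⁻¹ := by group
      rw [this, t2, mul_one]
      exact h2
    · have : t * (gE d ι b)⁻¹ * gE d ι b * (t * (gE d ι b)⁻¹)⁻¹ * (gE d ι b)⁻¹ =
          t * gE d ι b * t⁻¹ * (gE d ι b)⁻¹ := by group
      rw [this]
      exact z5_tg h
    · have h1 : Commute o t := z.hy.Ot o ho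
      have h2 : Commute o (gE d ι b) := z5_og z ho
      exact (h1.mul_right h2.inv_right).eq

theorem z5_h1 (h : Qf d ι t O b Q) {x : G} (hx : x ∈ HV d ι) (hk : ∃ k : ℕ, x ^ 2 ^ k ∈ Q)
    (ht : x * t * x⁻¹ * t⁻¹ ∈ Q) (hg : x * gE d ι b * x⁻¹ * (gE d ι b)⁻¹ ∈ Q) :
    x ∈ Q ∨ x * t ∈ Q ∨ x * gE d ι b ∈ Q ∨ x * (t * gE d ι b) ∈ Q := by
  have z := h.zf
  have t2 := z.hy.t2
  obtain ⟨o, ho, q, hq, y, hy, e⟩ :=
    z5_star h hx ht (h.leH hg) (h.nR hg).1 (h.nR hg).2 (by group)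
  obtain ⟨yN, y2, -, yO⟩ := z5_y h hy
  have w2 : (q * y) ^ 2 ∈ Q := by
    have : (q * y) ^ 2 = q * (y * q * y⁻¹) * (y * y) := by rw [pow_two]; group
    rw [this]
    exact mul_mem (mul_mem hq (z5_cj yN hq)) y2
  have w8 : (q * y) ^ 2 ^ 3 = 1 := by
    have := (h.isP w2).1
    rw [← pow_mul] at this
    exact this
  obtain ⟨k, hk⟩ := hk
  have x8 : (o * (q * y)) ^ 2 ^ (k + 2) = 1 := by
    have := (h.isP hk).1
    rw [← pow_mul, ← pow_add, e] at this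
    exact this
  have hc : o * (q * y) = q * y * o := by
    have h1 : Commute o q := h.QO o ho q hq
    have h2 : Commute o y := yO o ho
    exact (h1.mul_right h2).eq
  have o1 := odd_two (z.hy.oddO ho) hc w8 x8
  subst o1
  rw [one_mul] at e
  subst e
  rcases hy with rfl | rfl | rfl | rfl
  · left; simpa using hq
  · right; left
    rw [mul_assoc, t2, mul_one]; exact hq
  · right; right; left
    simpa using hq
  · right; right; right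
    have h1 := z5_cj h.nt (z5_cj (inv_mem h.ng) (z5_tg h))
    have : q * (t * (gE d ι b)⁻¹) * (t * gE d ι b) = q * (t * ((gE d ι b)⁻¹ *
        (t * gE d ι b * t⁻¹ * (gE d ι b)⁻¹) * (gE d ι b)⁻¹⁻¹) * t⁻¹) * (t * t) := by group
    rw [this, t2, mul_one]
    exact mul_mem hq h1

theorem z5_h2 (h : Qf d ι t O b Q) {x : G} (hx : x ∈ HV d ι) (ht : x * t * x⁻¹ * t⁻¹ ∈ Q)
    (hg : x * gE d ι b * x⁻¹ * (t * gE d ι b)⁻¹ ∈ Q) : False := by
  have z := h.zf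
  have t2 := z.hy.t2
  have tR : t ∈ RR d ι t b := by
    rw [z.bf.mem_RR z.hy]; right; rw [t2]; exact one_mem _
  have qB := (z.mono (h.leH hg) (h.nR hg).1).2.1
  have cD := z.dg_dg qB (h.nR hg).2 z.t_dg
  rw [mul_one] at cD
  obtain ⟨o, ho, q, hq, y, hy, e⟩ :=
    z5_star h hx ht (mul_mem (h.leH hg) (z5_tH z.hy)) (mul_mem (h.nR hg).1 (le_normalizer tR)) cD
      (by group)
  obtain ⟨-, -, yg, yO⟩ := z5_y h hy
  have h1 : Commute o q := h.QO o ho q hq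
  have h2 : Commute o y := yO o ho
  have h3 : Commute o (gE d ι b) := z5_og z ho
  have h4 : Commute o (q * y * gE d ι b * (q * y)⁻¹) :=
    ((h1.mul_right h2).mul_right h3).mul_right (h1.mul_right h2).inv_right
  have e1 : x * gE d ι b * x⁻¹ = q * y * gE d ι b * (q * y)⁻¹ := by
    have : x * gE d ι b * x⁻¹ = o * (q * y * gE d ι b * (q * y)⁻¹) * o⁻¹ := by rw [e]; group
    rw [this, h4.eq]; group
  have h5 : x * gE d ι b * x⁻¹ * (gE d ι b)⁻¹ ∈ Q := by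
    have : q * y * gE d ι b * (q * y)⁻¹ * (gE d ι b)⁻¹ =
        q * (y * gE d ι b * y⁻¹ * (gE d ι b)⁻¹) * (gE d ι b * q⁻¹ * (gE d ι b)⁻¹) := by group
    rw [e1, this]
    exact mul_mem (mul_mem hq yg) (z5_cj h.ng (inv_mem hq))
  apply h.tQ
  have : t = (x * gE d ι b * x⁻¹ * (t * gE d ι b)⁻¹)⁻¹ * (x * gE d ι b * x⁻¹ * (gE d ι b)⁻¹) := by
    group
  rw [this]
  exact mul_mem (inv_mem hg) h5

omit [Finite G] in
theorem z5_nf (h : Zf d ι t O b) (l f k m l' f' k' m' : F4) :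
    ι (d.U l f k) * b m * (ι (d.U l' f' k') * b m') = ι (d.U (l + l') (f + f')
      (k + k' + l * l * (l' * l') + l' * f + m * m * (m' * m'))) * b (m + m') := by
  have e1 : ι (d.U l f k) * b m * (ι (d.U l' f' k') * b m') =
      ι (d.U l f k) * (b m * ι (d.U l' f' k')) * b m' := by group
  rw [e1, h.bf.cU, ← mul_assoc, ← map_mul, mul_assoc, h.bf.mul, h.bf.cU, ← mul_assoc, ← map_mul,
    h.hy.af.mul, h.hy.af.mul]
  simp

/-- an element of `Q` commuting with `g` modulo `V` lies in `R0` -/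
theorem z5_cen (h : Qf d ι t O b Q) {y : G} (hy : y ∈ Q)
    (hg : y * gE d ι b * y⁻¹ * (gE d ι b)⁻¹ ∈ VV d ι) : y ∈ R0 d ι b := by
  have z := h.zf
  obtain ⟨gH, -, -⟩ := z.g_sw
  have yH := h.leH hy
  have aQ := h.le (z5_UR0 z 0 1 0)
  obtain ⟨ν, hb, k, hk⟩ := h.act y hy
  obtain ⟨k', hk'⟩ := z.hy.mem_VV.1 (h.comm hy aQ)
  obtain ⟨k2, hk2⟩ := z.gU 0 1 0
  have b0 : ∀ l f k, ι (d.U l f k) = ι (d.U l f k) * b 0 := fun l f k => by rw [z.bf.b0, mul_one]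
  have cy : ∀ k, y * ι (d.U 0 0 k) * y⁻¹ = ι (d.U 0 0 k) := fun k => by
    rw [← z5_memHV.1 yH k]; group
  have cg : ∀ k, gE d ι b * ι (d.U 0 0 k) * (gE d ι b)⁻¹ = ι (d.U 0 0 k) := fun k => by
    rw [← z5_memHV.1 gH k]; group
  have ya : y * ι (d.U 0 1 0) * y⁻¹ = ι (d.U 0 0 k') * ι (d.U 0 1 0) := by rw [← hk']; group
  -- the action on `γ = t a`
  obtain ⟨k1, yγ⟩ : ∃ k1, y * (t * ι (d.U 0 1 0)) * y⁻¹ =
      t * ι (d.U 0 1 0) * (ι (d.U 0 0 k1) * b ν) := by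
    refine ⟨k + k', ?_⟩
    have : y * (t * ι (d.U 0 1 0)) * y⁻¹ = y * t * y⁻¹ * (y * ι (d.U 0 1 0) * y⁻¹) := by group
    rw [this, hk, ya, mul_assoc t, z.bf.cU, mul_assoc t, mul_assoc t, b0 0 0 k', b0 0 1 0, z5_nf z,
      z5_nf z, z5_nf z]
    simp
  obtain ⟨k3, gγ⟩ : ∃ k3, gE d ι b * (t * ι (d.U 0 1 0)) * (gE d ι b)⁻¹ =
      t * ι (d.U 0 1 0) * (ι (d.U 0 0 k3) * b 1) := by
    refine ⟨k2 + 1 + 1, ?_⟩
    have : gE d ι b * (t * ι (d.U 0 1 0)) * (gE d ι b)⁻¹ = gE d ι b * t * (gE d ι b)⁻¹ *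
        (gE d ι b * ι (d.U 0 1 0) * (gE d ι b)⁻¹) := by group
    rw [this, z.bf.g_t z.hy, hk2, mul_assoc t, mul_assoc t, b0 1 1 0, b0 0 1 0, z5_nf z, z5_nf z]
    have e11 : (1 : F4) + 1 = 0 := by decide
    simp [e11]
  have γH : t * ι (d.U 0 1 0) ∈ HV d ι := mul_mem (z5_tH z.hy) (h.leH aQ)
  have e1 : y * (gE d ι b * (t * ι (d.U 0 1 0)) * (gE d ι b)⁻¹) * y⁻¹ =
      gE d ι b * (y * (t * ι (d.U 0 1 0)) * y⁻¹) * (gE d ι b)⁻¹ := by
    have hw : gE d ι b * (y * (t * ι (d.U 0 1 0)) * y⁻¹) * (gE d ι b)⁻¹ ∈ HV d ι :=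
      mul_mem (mul_mem gH (mul_mem (mul_mem yH γH) (inv_mem yH))) (inv_mem gH)
    have := z5_HVV z.hy hw hg
    calc _ = y * gE d ι b * y⁻¹ * (gE d ι b)⁻¹ *
          (gE d ι b * (y * (t * ι (d.U 0 1 0)) * y⁻¹) * (gE d ι b)⁻¹) *
          (y * gE d ι b * y⁻¹ * (gE d ι b)⁻¹)⁻¹ := by group
      _ = _ := by rw [this]; group
  have l1 : y * (gE d ι b * (t * ι (d.U 0 1 0)) * (gE d ι b)⁻¹) * y⁻¹ =
      t * ι (d.U 0 1 0) * (ι (d.U 0 0 k1) * b ν * (ι (d.U 0 0 k3) * b 0 *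
        (ι (d.U 0 0 (ν * ν * (1 * 1))) * b 1))) := by
    have : y * (gE d ι b * (t * ι (d.U 0 1 0)) * (gE d ι b)⁻¹) * y⁻¹ =
        y * (t * ι (d.U 0 1 0)) * y⁻¹ * (y * ι (d.U 0 0 k3) * y⁻¹) * (y * b 1 * y⁻¹) := by
      rw [gγ]; group
    rw [this, yγ, cy, hb, z.bf.cU, z.bf.b0]
    group
  have l2 : gE d ι b * (y * (t * ι (d.U 0 1 0)) * y⁻¹) * (gE d ι b)⁻¹ =
      t * ι (d.U 0 1 0) * (ι (d.U 0 0 k3) * b 1 * (ι (d.U 0 0 k1) * b 0 *
        (ι (d.U 0 0 (ν + ν * ν)) * b ν))) := by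
    have : gE d ι b * (y * (t * ι (d.U 0 1 0)) * y⁻¹) * (gE d ι b)⁻¹ =
        gE d ι b * (t * ι (d.U 0 1 0)) * (gE d ι b)⁻¹ *
          (gE d ι b * ι (d.U 0 0 k1) * (gE d ι b)⁻¹) * (gE d ι b * b ν * (gE d ι b)⁻¹) := by
      rw [yγ]; group
    rw [this, gγ, cg, z.gb, z.bf.cU, z.bf.b0]
    group
  rw [l1, l2, mul_right_inj, z5_nf z, z5_nf z, z5_nf z, z5_nf z] at e1
  have e2 := (z.bf.nf z.hy e1).2.2.1
  have hν : ν = 0 := by
    revert e2; generalize ν = a; generalize k1 = c1; generalize k3 = c3; revert a c1 c3; decide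
  subst hν
  rw [z.bf.b0, mul_one] at hk
  exact h.zero y hy k hk

theorem z5_h3 (h : Qf d ι t O b Q) {x : G} (xV : x ∈ normalizer (VV d ι : Set G))
    (xQ : x ∈ normalizer (Q : Set G)) (hq : x * t * x⁻¹ * (gE d ι b)⁻¹ ∈ Q) : False := by
  have z := h.zf
  have key : ∀ r ∈ R0 d ι b, x * r * x⁻¹ * gE d ι b * (x * r * x⁻¹)⁻¹ * (gE d ι b)⁻¹ ∈ VV d ι := by
    intro r hr
    have yQ := z5_cj xQ (h.le hr)
    have h1 : r * t * r⁻¹ * t⁻¹ ∈ VV d ι := by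
      obtain ⟨l, f, k, m, rfl⟩ := (z.bf.mem_R0 z.hy).1 hr
      have e1 : ι (d.U l f k) * b m * t * (ι (d.U l f k) * b m)⁻¹ * t⁻¹ =
          ι (d.U l f k) * (b m * t * (b m)⁻¹) * (ι (d.U l f k))⁻¹ * t⁻¹ := by group
      have c1 : Commute (ι (d.U l f k)) t := (z.hy.tc _).symm
      have c2 : Commute (ι (d.U l f k)) (ι (d.U 0 0 m)) :=
        (z5_memHV.1 (h.leH (h.le (z5_UR0 z l f k))) m).symm
      rw [e1, z.bf.bt z.hy, (c1.mul_right c2).eq, mul_inv_cancel_right, z.hy.tc,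
        mul_inv_cancel_right]
      exact z.hy.mem_VV.2 ⟨m, rfl⟩
    have h2 := z5_cj xV h1
    have h3 := h.comm yQ hq
    set y := x * r * x⁻¹ with hy
    set q := x * t * x⁻¹ * (gE d ι b)⁻¹ with hqe
    have h4 : q * (y * gE d ι b * y⁻¹ * (gE d ι b)⁻¹) * q⁻¹ ∈ VV d ι := by
      have : q * (y * gE d ι b * y⁻¹ * (gE d ι b)⁻¹) * q⁻¹ =
          (y * q * y⁻¹ * q⁻¹)⁻¹ * (x * (r * t * r⁻¹ * t⁻¹) * x⁻¹) := by
        rw [hy, hqe]; group
      rw [this]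
      exact mul_mem (inv_mem h3) h2
    have h5 := z5_HVV z.hy (h.leH hq) h4
    have h6 : y * gE d ι b * y⁻¹ * (gE d ι b)⁻¹ = q * (y * gE d ι b * y⁻¹ * (gE d ι b)⁻¹) * q⁻¹ := by
      have : q * (y * gE d ι b * y⁻¹ * (gE d ι b)⁻¹) =
          q * (q * (y * gE d ι b * y⁻¹ * (gE d ι b)⁻¹) * q⁻¹) := by
        rw [← h5]; group
      exact mul_left_cancel this
    rw [h6]
    exact h4
  have hin : ∀ r ∈ R0 d ι b, x * r * x⁻¹ ∈ R0 d ι b := fun r hr =>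
    z5_cen h (z5_cj xQ (h.le hr)) (key r hr)
  have xR : x ∈ normalizer (R0 d ι b : Set G) := mem_normalizer_fintype (S := (R0 d ι b : Set G)) hin
  have ha := z5_cj (inv_mem xR) (z5_UR0 z 0 1 0)
  have h1 := key _ ha
  have e0 : x * (x⁻¹ * ι (d.U 0 1 0) * x⁻¹⁻¹) * x⁻¹ = ι (d.U 0 1 0) := by group
  rw [e0] at h1
  obtain ⟨k, hk⟩ := z.hy.mem_VV.1 h1
  obtain ⟨k2, hk2⟩ := z.gU 0 1 0
  have e1 : ι (d.U 0 1 0) = ι (d.U 0 0 k) * (gE d ι b * ι (d.U 0 1 0) * (gE d ι b)⁻¹) := by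
    rw [← hk]; group
  have b0 : ∀ l f k, ι (d.U l f k) = ι (d.U l f k) * b 0 := fun l f k => by rw [z.bf.b0, mul_one]
  rw [hk2, b0 0 1 0, b0 0 0 k, z5_nf z] at e1
  have := (z.bf.nf z.hy e1).1
  revert this
  decide

omit [Finite G] in
theorem z5_sV (h : Hy d ι t O) (k : F4) :
    ι d.s * ι (d.U 0 0 k) * (ι d.s)⁻¹ = ι (d.U 0 0 (k * k)) := by
  rw [← map_inv, ← map_mul, ← map_mul, h.af.sU]
  simp

theorem z5_hs (h : Hy d ι t O) {x : G} (hx : x ∈ NZ d ι) : x ∈ HV d ι ∨ x * ι d.s ∈ HV d ι := by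
  have := h.finA
  have hz : x * ι (d.U 0 0 1) * x⁻¹ = ι (d.U 0 0 1) := by
    have := mem_centralizer_iff.1 hx.1 _ rfl
    rw [← this]; group
  obtain ⟨k, hk⟩ := h.mem_VV.1 (z5_cj hx.2 (h.mem_VV.2 ⟨F4.w, rfl⟩))
  have aux : ∀ y : G, y * ι (d.U 0 0 1) * y⁻¹ = ι (d.U 0 0 1) →
      y * ι (d.U 0 0 F4.w) * y⁻¹ = ι (d.U 0 0 F4.w) → y ∈ HV d ι := by
    intro y h1 h2
    have c1 : Commute (ι (d.U 0 0 1)) y := by
      show _ * _ = _ * _
      conv_lhs => rw [← h1]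
      group
    have c2 : Commute (ι (d.U 0 0 F4.w)) y := by
      show _ * _ = _ * _
      conv_lhs => rw [← h2]
      group
    rw [z5_memHV]
    intro k
    have hk : k = 0 ∨ k = 1 ∨ k = F4.w ∨ k = 1 + F4.w := by revert k; decide
    rcases hk with rfl | rfl | rfl | rfl
    · rw [h.af.U_one]; simp
    · exact c1.eq
    · exact c2.eq
    · rw [← z5_CC h]; exact (c1.mul_left c2).eq
  have hk4 : k = 0 ∨ k = 1 ∨ k = F4.w ∨ k = F4.v := by clear hk; revert k; decide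
  rcases hk4 with rfl | rfl | rfl | rfl
  · exfalso
    rw [h.af.U_one, map_one] at hk
    have : ι (d.U 0 0 F4.w) = ι 1 := by
      rw [map_one]
      calc _ = x⁻¹ * (x * ι (d.U 0 0 F4.w) * x⁻¹) * x := by group
        _ = 1 := by rw [hk]; group
    have := (h.af.inj _ _ _ (h.inj this)).2.2
    revert this; decide
  · exfalso
    rw [← hz] at hk
    have : ι (d.U 0 0 F4.w) = ι (d.U 0 0 1) := mul_left_cancel (mul_right_cancel hk)
    have := (h.af.U_inj (h.inj this)).2.2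
    revert this; decide
  · exact Or.inl (aux x hz hk)
  · right
    apply aux
    · have : x * ι d.s * ι (d.U 0 0 1) * (x * ι d.s)⁻¹ =
          x * (ι d.s * ι (d.U 0 0 1) * (ι d.s)⁻¹) * x⁻¹ := by group
      rw [this, z5_sV h, mul_one, hz]
    · have : x * ι d.s * ι (d.U 0 0 F4.w) * (x * ι d.s)⁻¹ =
          x * (ι d.s * ι (d.U 0 0 F4.w) * (ι d.s)⁻¹) * x⁻¹ := by group
      have e1 : F4.w * F4.w = 1 + F4.w := by decide
      have e2 : x * (ι (d.U 0 0 1) * ι (d.U 0 0 F4.w)) * x⁻¹ =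
          x * ι (d.U 0 0 1) * x⁻¹ * (x * ι (d.U 0 0 F4.w) * x⁻¹) := by group
      have e3 : 1 + F4.v = F4.w := by decide
      rw [this, z5_sV h, e1, ← z5_CC h, e2, hz, hk, z5_CC h, e3]

theorem Qf.z5 (h : Qf d ι t O b Q) : Pt (NZ d ι ⊓ normalizer (Q : Set G)) t := by
  have z := h.zf
  have hy := z.hy
  have st : Commute (ι d.s) t := (hy.tc _).symm
  have sg : Commute (ι d.s) (gE d ι b) := (z.bf.g_s hy).symm
  have hs : ∀ x ∈ NZ d ι ⊓ normalizer (Q : Set G), x ∈ HV d ι ⊓ normalizer (Q : Set G) ∨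
      x * ι d.s ∈ HV d ι ⊓ normalizer (Q : Set G) := by
    intro x hx
    rcases z5_hs hy hx.1 with h1 | h1
    · exact Or.inl ⟨h1, hx.2⟩
    · exact Or.inr ⟨h1, mul_mem hx.2 h.ns⟩
  refine tplus (X0 := HV d ι ⊓ normalizer (Q : Set G)) (K := Q) (g := gE d ι b) (s := ι d.s)
    (le_inf h.leH le_normalizer) ?_ inf_le_right ⟨z5_tH hy, h.nt⟩ ⟨z.g_sw.1, h.ng⟩ ⟨⟨?_, ?_⟩, h.ns⟩
    hs (by rw [hy.t2]; exact one_mem _) (z5_gg h) (by rw [← map_mul, hy.af.s2, map_one]; exact one_mem _)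
    (z5_tg h) (by rw [st.eq]; simp) (by rw [sg.eq]; simp) h.tQ
    (fun hg => z.dg_ne_sw one_ne_zero (h.nR hg).2 z.g_sw.2.2)
    (fun x hx hk ht hg => z5_h1 h hx.1 hk ht hg) (fun x hx ht hg => ?_)
    (fun x hx hq => z5_h3 h hx.1.2 hx.2 hq)
  · rintro x ⟨xH, xQ⟩
    refine ⟨⟨?_, ?_⟩, xQ⟩
    · apply mem_centralizer_iff.2
      rintro _ rfl
      exact z5_memHV.1 xH 1
    · apply mem_normalizer_fintype (S := (VV d ι : Set G))
      intro v hv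
      have := z5_HVV hy xH hv
      rw [← this, mul_inv_cancel_right]
      exact hv
  · apply mem_centralizer_iff.2
    rintro _ rfl
    have := z5_sV hy 1
    rw [mul_one] at this
    conv_lhs => rw [← this]
    group
  · apply mem_normalizer_fintype (S := (VV d ι : Set G))
    intro v hv
    obtain ⟨k, rfl⟩ := hy.mem_VV.1 hv
    rw [z5_sV hy]
    exact hy.mem_VV.2 ⟨_, rfl⟩
  · rcases hs x hx with h1 | h1
    · exact z5_h2 h h1.1 ht hg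
    · apply z5_h2 h h1.1
      · have : x * ι d.s * t * (x * ι d.s)⁻¹ = x * t * x⁻¹ := by
          rw [mul_assoc x, st.eq]; group
        rw [this]; exact ht
      · have : x * ι d.s * gE d ι b * (x * ι d.s)⁻¹ = x * gE d ι b * x⁻¹ := by
          rw [mul_assoc x, sg.eq]; group
        rw [this]; exact hg

end Cfsg.Agent.MS
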