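import Cfsg.Agent.MS.BaseB
import Cfsg.Agent.H42.Index2

/-! notes/MS.md, section ZD. -/

set_option autoImplicit false
set_option linter.unusedSectionVars false

namespace Cfsg.Agent.MS

open Subgroup H29 H42

variable {A G : Type*} [Group A] [Group G] [Finite G] {d : AD A} {ι : A →* G} {t u x : G}
  {O E Q : Subgroup G} {b : F4 → G} {η ν : F4}

namespace ZD

/-- normal form of the elements of `R0` -/
def N (d : AD A) (ι : A →* G) (b : F4 → G) (l f k m : F4) : G := ι (d.U l f k) * b m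

/-- coordinates modulo `V` -/
abbrev X : Type := F4 × F4 × F4

/-- the action of `g` on `R0 / V` -/
def g0 (x : X) : X := (x.2.1, x.1, x.1 + x.2.1 + x.2.2)
/-- the action of `g` on `t R0 / V` -/
def g1 (x : X) : X := (1 + x.2.1, 1 + x.1, x.1 + x.2.1 + x.2.2)
/-- the action of `r` -/
def rr (x : X) : X := (F4.w * x.1, x.2.1, F4.w * x.2.2)
/-- the action of a word -/
def ev (g : X → X) (w : List Bool) (x : X) : X := w.foldl (fun y c => cond c (g y) (rr y)) x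

theorem w0 : ∀ l f : F4, ∃ w ∈ [[], [true], [false, true], [false, false, true], [true, false, true],
    [true, false, false, true]], (ev g0 w (l, f, l + l * f)).2.2 = 0 ∧
      ((ev g0 w (l, f, l + l * f)).2.1 = 1 ∨ ev g0 w (l, f, l + l * f) = (0, 0, 0)) := by decide +kernel

theorem w1 : ∀ l f m : F4, l = 0 ∧ f ≠ 1 ∨ l ≠ 0 ∧ f = 1 → ∃ i ∈ [[], [false], [false, false]],
    ∃ w ∈ [[], [true], [true, false, true], [true, false, false, true], [true, false, true, false, true],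
      [true, false, true, false, false, true], [true, false, false, true, false, true],
      [true, false, true, false, true, false, false, true],
      [true, false, true, false, false, true, false, true],
      [true, false, false, true, false, true, false, false, true]], ev g1 (w ++ i) (0, 0, 0) = (l, f, m) := by
  decide +kernel

variable (h : Zf d ι t O b)
include h

theorem Nmul (l f k m l' f' k' m' : F4) : N d ι b l f k m * N d ι b l' f' k' m' =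
    N d ι b (l + l') (f + f') (k + k' + l * l * (l' * l') + l' * f + m * m * (m' * m')) (m + m') := by
  calc _ = ι (d.U l f k) * (b m * ι (d.U l' f' k')) * b m' := by simp only [N, mul_assoc]
    _ = ι (d.U l f k * d.U l' f' k') * (b m * b m') := by rw [h.bf.cU, map_mul]; simp only [mul_assoc]
    _ = _ := by
      rw [h.bf.mul, h.bf.cU, ← mul_assoc, ← map_mul, h.hy.af.mul, h.hy.af.mul, N]
      congr 3 <;> ring

theorem NU (l f k : F4) : ι (d.U l f k) = N d ι b l f k 0 := by rw [N, h.bf.b0, mul_one]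

theorem Nb (m k : F4) : b m * ι (d.U 0 0 k) = N d ι b 0 0 k m := h.bf.cU ..

theorem N1 : N d ι b 0 0 0 0 = 1 := by
  have := h.hy.finA
  rw [← NU h, h.hy.af.U_one, map_one]

theorem tN (l f k m : F4) : t * N d ι b l f k m * t⁻¹ = N d ι b l f (k + m) m := by
  rw [N, ← mul_assoc, h.hy.tc, mul_assoc, mul_assoc, ← mul_assoc t, h.bf.tb, Nb h, NU h, Nmul h]
  congr 1 <;> ring

theorem rN (l f k m : F4) :
    ι d.r * N d ι b l f k m * (ι d.r)⁻¹ = N d ι b (F4.w * l) f (F4.w * k) (F4.w * m) := by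
  rw [N, N, ← h.bf.rb, ← h.hy.af.rU, map_mul, map_mul, map_inv]; group

theorem gN (l f k m : F4) :
    ∃ k', gE d ι b * N d ι b l f k m * (gE d ι b)⁻¹ = N d ι b f l k' (l + f + m) := by
  obtain ⟨k', e⟩ := h.gU l f k
  exact ⟨_, by
    rw [N, show gE d ι b * (ι (d.U l f k) * b m) * (gE d ι b)⁻¹ = gE d ι b * ι (d.U l f k) * (gE d ι b)⁻¹ *
      (gE d ι b * b m * (gE d ι b)⁻¹) by group, e, h.gb, Nb h, ← N, Nmul h, add_zero, add_zero]⟩

theorem rt : ι d.r * t * (ι d.r)⁻¹ = t := by rw [← h.hy.tc, mul_inv_cancel_right]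

theorem ev0 (w : List Bool) (x : X) (k : F4) : ∃ k', IsConj (N d ι b x.1 x.2.1 k x.2.2)
    (N d ι b (ev g0 w x).1 (ev g0 w x).2.1 k' (ev g0 w x).2.2) := by
  induction w generalizing x k with
  | nil => exact ⟨k, IsConj.refl _⟩
  | cons c w ih =>
    cases c
    · obtain ⟨k', e⟩ := ih (rr x) (F4.w * k)
      exact ⟨k', (isConj_iff.2 ⟨_, rN h ..⟩).trans e⟩
    · obtain ⟨k1, e1⟩ := gN h x.1 x.2.1 k x.2.2
      obtain ⟨k', e⟩ := ih (g0 x) k1
      exact ⟨k', (isConj_iff.2 ⟨_, e1⟩).trans e⟩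

theorem shift (l f k k' m : F4) : IsConj (t * N d ι b l f k m) (t * N d ι b l f k' m) := by
  refine isConj_iff.2 ⟨b (k + k'), ?_⟩
  have c : b (k + k') * N d ι b l f k m * (b (k + k'))⁻¹ = N d ι b l f k m := by
    rw [N, ← mul_assoc, h.bf.cU, mul_assoc (ι _), h.bf.comm, ← mul_assoc, mul_inv_cancel_right]
  rw [show b (k + k') * (t * N d ι b l f k m) * (b (k + k'))⁻¹ = b (k + k') * t * (b (k + k'))⁻¹ *
    (b (k + k') * N d ι b l f k m * (b (k + k'))⁻¹) by group, c, h.bf.bt h.hy, mul_assoc, NU h, Nmul h]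
  clear c
  congr 2 <;> revert l f k k' m <;> decide

theorem ev1 (w : List Bool) (x : X) : IsConj (t * N d ι b x.1 x.2.1 0 x.2.2)
    (t * N d ι b (ev g1 w x).1 (ev g1 w x).2.1 0 (ev g1 w x).2.2) := by
  induction w generalizing x with
  | nil => exact IsConj.refl _
  | cons c w ih =>
    cases c
    · refine IsConj.trans (isConj_iff.2 ⟨ι d.r, ?_⟩) (ih (rr x))
      rw [show ι d.r * (t * N d ι b x.1 x.2.1 0 x.2.2) * (ι d.r)⁻¹ = ι d.r * t * (ι d.r)⁻¹ *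
        (ι d.r * N d ι b x.1 x.2.1 0 x.2.2 * (ι d.r)⁻¹) by group, rt h, rN h, mul_zero]
      rfl
    · obtain ⟨k1, e1⟩ := gN h x.1 x.2.1 0 x.2.2
      obtain ⟨k2, e2⟩ : ∃ k2, gE d ι b * (t * N d ι b x.1 x.2.1 0 x.2.2) * (gE d ι b)⁻¹ =
          t * N d ι b (1 + x.2.1) (1 + x.1) k2 (x.1 + x.2.1 + x.2.2) := ⟨_, by
        rw [show gE d ι b * (t * N d ι b x.1 x.2.1 0 x.2.2) * (gE d ι b)⁻¹ = gE d ι b * t * (gE d ι b)⁻¹ *
          (gE d ι b * N d ι b x.1 x.2.1 0 x.2.2 * (gE d ι b)⁻¹) by group, h.bf.g_t h.hy, e1, mul_assoc, NU h,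
          Nmul h, zero_add (x.1 + x.2.1 + x.2.2)]⟩
      exact IsConj.trans ((isConj_iff.2 ⟨_, e2⟩).trans (shift h _ _ _ 0 _)) (ih (g1 x))

theorem Ninj {l f k m l' f' k' m' : F4} (e : N d ι b l f k m = N d ι b l' f' k' m') :
    l = l' ∧ f = f' ∧ k = k' ∧ m = m' := h.bf.nf h.hy e

theorem tN_ne (l f k m l' f' k' m' : F4) : t * N d ι b l f k m ≠ N d ι b l' f' k' m' := fun e => by
  obtain ⟨_, _, _, _, e'⟩ := (h.bf.mem_R0 h.hy).1 (mul_mem ((h.bf.mem_R0 h.hy).2 ⟨l', f', k', m', rfl⟩)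
    (inv_mem ((h.bf.mem_R0 h.hy).2 ⟨l, f, k, m, rfl⟩)))
  exact h.bf.nft h.hy _ _ _ _ (e'.symm.trans (eq_mul_inv_of_mul_eq e).symm)

/-- the action of `n` on `R0` and on `t` -/
structure Ac (d : AD A) (ι : A →* G) (t : G) (O : Subgroup G) (b : F4 → G) (n : G) (α : F4 → F4 → X)
    (β : F4 → F4) (τ : X) : Prop where
  v : ∀ k, n * N d ι b 0 0 k 0 * n⁻¹ = N d ι b 0 0 k 0
  o : ∀ o ∈ O, o * n = n * o
  U : ∀ l f k, ∃ k', n * N d ι b l f k 0 * n⁻¹ = N d ι b (α l f).1 (α l f).2.1 k' (α l f).2.2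
  b' : ∀ m, n * b m * n⁻¹ = N d ι b 0 0 (β m) m
  t' : ∃ k, n * t * n⁻¹ = t * N d ι b τ.1 τ.2.1 k τ.2.2

variable {n n' : G} {α α' : F4 → F4 → X} {β β' : F4 → F4} {τ τ' : X}

theorem Ac.N (a : Ac d ι t O b n α β τ) (l f k m : F4) :
    ∃ k', n * N d ι b l f k m * n⁻¹ = N d ι b (α l f).1 (α l f).2.1 k' ((α l f).2.2 + m) := by
  obtain ⟨k', e⟩ := a.U l f k
  exact ⟨_, by
    rw [ZD.N, NU h, show n * (ZD.N d ι b l f k 0 * b m) * n⁻¹ = n * ZD.N d ι b l f k 0 * n⁻¹ * (n * b m * n⁻¹) by group,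
      e, a.b', Nmul h, add_zero, add_zero]⟩

theorem Ac.mul (a : Ac d ι t O b n α β τ) (a' : Ac d ι t O b n' α' β' τ') :
    Ac d ι t O b (n * n') (fun l f => ((α (α' l f).1 (α' l f).2.1).1, (α (α' l f).1 (α' l f).2.1).2.1,
      (α (α' l f).1 (α' l f).2.1).2.2 + (α' l f).2.2)) (fun m => β' m + β m)
      (τ.1 + (α τ'.1 τ'.2.1).1, τ.2.1 + (α τ'.1 τ'.2.1).2.1, τ.2.2 + ((α τ'.1 τ'.2.1).2.2 + τ'.2.2)) := by
  have c : ∀ y : G, n * n' * y * (n * n')⁻¹ = n * (n' * y * n'⁻¹) * n⁻¹ := fun y => by group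
  refine ⟨fun k => by rw [c, a'.v, a.v], fun o ho => by rw [← mul_assoc, a.o o ho, mul_assoc, a'.o o ho, mul_assoc],
    fun l f k => ?_, fun m => ?_, ?_⟩
  · obtain ⟨k1, e⟩ := a'.U l f k
    rw [c, e]; exact a.N h ..
  · rw [c, a'.b', ZD.N, NU h, show n * (ZD.N d ι b 0 0 (β' m) 0 * b m) * n⁻¹ =
      n * ZD.N d ι b 0 0 (β' m) 0 * n⁻¹ * (n * b m * n⁻¹) by group, a.v, a.b', Nmul h]
    congr 1 <;> ring
  · obtain ⟨k1, e1⟩ := a'.t'
    obtain ⟨k2, e2⟩ := a.t'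
    obtain ⟨k3, e3⟩ := a.N h τ'.1 τ'.2.1 k1 τ'.2.2
    exact ⟨_, by rw [c, e1, show n * (t * ZD.N d ι b τ'.1 τ'.2.1 k1 τ'.2.2) * n⁻¹ =
      n * t * n⁻¹ * (n * ZD.N d ι b τ'.1 τ'.2.1 k1 τ'.2.2 * n⁻¹) by group, e2, e3, mul_assoc, Nmul h]⟩

theorem Ac.r (a : Ac d ι t O b n α β τ) : Ac d ι t O b (ι d.r * n * (ι d.r)⁻¹)
    (fun l f => rr (α (F4.v * l) f)) (fun m => F4.w * β (F4.v * m)) (rr τ) := by
  have c : ∀ y : G, ι d.r * n * (ι d.r)⁻¹ * (ι d.r * y * (ι d.r)⁻¹) * (ι d.r * n * (ι d.r)⁻¹)⁻¹ =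
      ι d.r * (n * y * n⁻¹) * (ι d.r)⁻¹ := fun y => by group
  have wv : ∀ y : F4, F4.w * (F4.v * y) = y := by decide
  have e : ∀ l f k, ZD.N d ι b l f k 0 = ι d.r * ZD.N d ι b (F4.v * l) f (F4.v * k) 0 * (ι d.r)⁻¹ := fun l f k => by
    rw [rN h, wv, wv, mul_zero]
  refine ⟨fun k => ?_, fun o ho => ?_, fun l f k => ?_, fun m => ?_, ?_⟩
  · rw [e, c, mul_zero, a.v]
  · exact ((show Commute o _ from h.AO o ho _).mul_right (a.o o ho)).mul_right
      (show Commute o _ from h.AO o ho _).inv_right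
  · obtain ⟨k', e'⟩ := a.U (F4.v * l) f (F4.v * k)
    exact ⟨_, by rw [e, c, e', rN h]; rfl⟩
  · conv_lhs => rw [← wv m, ← h.bf.rb, c, a.b', rN h, wv, mul_zero]
  · obtain ⟨k, e'⟩ := a.t'
    refine ⟨F4.w * k, ?_⟩
    conv_lhs => rw [← rt h, c, e']
    rw [show ι d.r * (t * ZD.N d ι b τ.1 τ.2.1 k τ.2.2) * (ι d.r)⁻¹ =
      ι d.r * t * (ι d.r)⁻¹ * (ι d.r * ZD.N d ι b τ.1 τ.2.1 k τ.2.2 * (ι d.r)⁻¹) by group, rt h, rN h]
    rfl

theorem ac_g : Ac d ι t O b (gE d ι b) (fun l f => (f, l, l + f)) (fun m => m + m * m) (1, 1, 0) := by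
  refine ⟨fun k => ?_, fun o ho => ?_, fun l f k => ?_, fun m => by rw [h.gb, Nb h], 0, ?_⟩
  · rw [← NU h, h.bf.g_E h.hy, mul_inv_cancel_right]
  · exact ((show Commute o _ from h.AO o ho _).mul_right (h.bO o ho _)).mul_right
      (show Commute o _ from h.AO o ho _).inv_right
  · rw [← NU h]; exact h.gU l f k
  · rw [h.bf.g_t h.hy, NU h]

theorem Ac.out (a : Ac d ι t O b n α β τ) (h1 : ∀ l f, α l f = (l, f, 0)) (h2 : ∀ m, β m = ν * ν * (m * m))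
    (h3 : τ = (0, 0, ν)) : n ∈ HV d ι ∧ (∀ o ∈ O, o * n = n * o) ∧
    (∀ l f k, ∃ k', n * ι (d.U l f k) * n⁻¹ = ι (d.U l f k')) ∧
    (∀ m, n * b m * n⁻¹ = b m * ι (d.U 0 0 (ν * ν * (m * m)))) ∧
    ∃ k, n * t * n⁻¹ = t * b ν * ι (d.U 0 0 k) := by
  refine ⟨?_, a.o, fun l f k => ?_, fun m => by rw [a.b', h2, Nb h], ?_⟩
  · rintro _ ⟨k, rfl⟩
    rw [NU h]; exact (mul_inv_eq_iff_eq_mul.1 (a.v k)).symm
  · obtain ⟨k', e⟩ := a.U l f k
    rw [h1] at e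
    exact ⟨k', by rw [NU h, NU h, e]⟩
  · obtain ⟨k, e⟩ := a.t'
    exact ⟨k, by rw [e, h3, mul_assoc, Nb h]⟩

theorem Nsq (l f k m : F4) : N d ι b l f k m * N d ι b l f k m = N d ι b 0 0 (l + l * f + m) 0 := by
  rw [Nmul h]
  congr 1 <;> revert l f k m <;> decide

/-- the elements `U l 0 k b l` -/
def E0 : Subgroup G where
  carrier := {y | ∃ l k, y = N d ι b l 0 k l}
  one_mem' := ⟨0, 0, (N1 h).symm⟩
  mul_mem' := by
    rintro _ _ ⟨l, k, rfl⟩ ⟨l', k', rfl⟩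
    exact ⟨_, _, by rw [Nmul h, add_zero]⟩
  inv_mem' := by
    rintro _ ⟨l, k, rfl⟩
    exact ⟨l, k, inv_eq_of_mul_eq_one_right (by
      rw [Nsq h, show l + l * 0 + l = 0 by revert l; decide, N1 h])⟩

end ZD

open ZD

theorem Zf.d0 (h : Zf d ι t O b) {y : G} (hy : y ∈ R0 d ι b) : ¬ IsConj t y := fun c => by
  have := h.hy.finA
  obtain ⟨l, f, k, m, rfl⟩ := (h.bf.mem_R0 h.hy).1 hy
  change IsConj t (N d ι b l f k m) at c
  have hm : m = l + l * f := by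
    obtain ⟨g, e⟩ := isConj_iff.1 c
    have : N d ι b l f k m * N d ι b l f k m = N d ι b 0 0 0 0 := by
      rw [← e, N1 h, show g * t * g⁻¹ * (g * t * g⁻¹) = g * (t * t) * g⁻¹ by group, h.hy.t2]; group
    rw [Nsq h] at this
    exact (by decide : ∀ l f m : F4, l + l * f + m = 0 → m = l + l * f) l f m (Ninj h this).2.2.1
  subst hm
  obtain ⟨w, -, e1, e2⟩ := w0 l f
  obtain ⟨k', e⟩ := ev0 h w (l, f, l + l * f) k
  have c' := c.trans e
  rw [e1, ← NU h] at c'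
  have q : ∀ y y' : A, IsConj (y * y) y' → ¬ IsConj t (ι y') := fun y y' e c =>
    h.hy.nsq (ι y) (c.trans (by rw [← map_mul]; exact (ι.map_isConj e).symm))
  generalize ev g0 w (l, f, l + l * f) = x at e2 c'
  by_cases h0 : x.1 = 0
  · rcases e2 with e2 | rfl
    · rw [h0, e2] at c'
      exact q _ _ (h.hy.af.sq_a ▸ h.hy.af.conj_a k') c'
    · by_cases hk : k' = 0
      · rw [hk, h.hy.af.U_one] at c'
        exact q 1 1 (by rw [mul_one]) c'
      · exact q _ _ (h.hy.af.sq_z ▸ h.hy.af.conj_z (.inr ⟨rfl, rfl, hk⟩)) c'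
  · rcases e2 with e2 | rfl
    · exact q _ _ (h.hy.af.sq_z ▸ h.hy.af.conj_z (.inl ⟨h0, e2⟩)) c'
    · exact h0 rfl

theorem Zf.d2 (h : Zf d ι t O b) {l f : F4} (e : l = 0 ∧ f ≠ 1 ∨ l ≠ 0 ∧ f = 1) (k m : F4) :
    IsConj t (t * (ι (d.U l f k) * b m)) := by
  obtain ⟨i, -, w, -, e'⟩ := w1 l f m e
  have := ev1 h (w ++ i) (0, 0, 0)
  rw [e', N1 h, mul_one] at this
  exact this.trans (shift h ..)

theorem Zf.inv (h : Zf d ι t O b) (l f k m : F4) :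
    t * (ι (d.U l f k) * b m) * (t * (ι (d.U l f k) * b m)) = ι (d.U 0 0 (l * (f + 1))) := by
  change t * N d ι b l f k m * (t * N d ι b l f k m) = _
  rw [← mul_assoc, ← inv_eq_of_mul_eq_one_right h.hy.t2, inv_eq_of_mul_eq_one_right h.hy.t2]
  nth_rw 2 [← inv_eq_of_mul_eq_one_right h.hy.t2]
  rw [tN h, Nmul h, NU h]
  congr 1 <;> revert l f k m <;> decide

theorem Zf.exists_k (h : Zf d ι t O b) (ν : F4) : ∃ n ∈ HV d ι, (∀ o ∈ O, o * n = n * o) ∧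
    (∀ l f k, ∃ k', n * ι (d.U l f k) * n⁻¹ = ι (d.U l f k')) ∧
    (∀ m, n * b m * n⁻¹ = b m * ι (d.U 0 0 (ν * ν * (m * m)))) ∧
    ∃ k, n * t * n⁻¹ = t * b ν * ι (d.U 0 0 k) := by
  have a1 := (ac_g h).mul h ((ac_g h).r h)
  have a3 := a1.mul h (a1.mul h a1)
  have a0 : Ac d ι t O b 1 (fun l f => (l, f, 0)) (fun _ => 0) (0, 0, 0) :=
    ⟨fun k => by group, fun o _ => by group, fun l f k => ⟨k, by group⟩,
      fun m => by rw [← Nb h, NU h, N1 h]; group, 0, by rw [N1 h]; group⟩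
  cases ν
  · exact ⟨_, a0.out h (fun _ _ => rfl) (by decide) rfl⟩
  · exact ⟨_, (a3.r h).out h (by decide) (by decide) (by decide)⟩
  · exact ⟨_, ((a3.r h).r h).out h (by decide) (by decide) (by decide)⟩
  · exact ⟨_, a3.out h (by decide) (by decide) (by decide)⟩

theorem Zf.d1 (h : Zf d ι t O b) (k m : F4) : ¬ IsConj t (t * (ι (d.U 0 1 k) * b m)) := fun c => by
  have := h.hy.finA
  have c1 : IsConj t (t * N d ι b 0 1 0 0) := by
    obtain ⟨n, -, -, h1, h2, k1, h3⟩ := h.exists_k m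
    obtain ⟨k2, h1⟩ := h1 0 1 k
    obtain ⟨k3, e⟩ : ∃ k3, n * (t * (ι (d.U 0 1 k) * b m)) * n⁻¹ = t * N d ι b 0 1 k3 0 := ⟨_, by
      rw [show n * (t * (ι (d.U 0 1 k) * b m)) * n⁻¹ =
        n * t * n⁻¹ * (n * ι (d.U 0 1 k) * n⁻¹ * (n * b m * n⁻¹)) by group,
        h1, h2, h3, mul_assoc t, Nb h, Nb h, NU h, Nmul h, mul_assoc t, Nmul h,
        (by decide : ∀ m : F4, m + (0 + m) = 0) m, (by decide : (0 : F4) + (0 + 0) = 0),
        (by decide : (0 : F4) + (1 + 0) = 1)]⟩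
    exact c.trans ((isConj_iff.2 ⟨n, e⟩).trans (shift h _ _ _ 0 _))
  set γ := t * N d ι b 0 1 0 0 with hγ
  have ti := inv_eq_of_mul_eq_one_right h.hy.t2
  have tc : ∀ l f k m, t * N d ι b l f k m = N d ι b l f (k + m) m * t := fun l f k m =>
    mul_inv_eq_iff_eq_mul.1 (tN h ..)
  have cg : ∀ l f k, N d ι b l f k l * γ = γ * N d ι b l f k l := fun l f k => by
    rw [hγ, mul_assoc, Nmul h, tc, tc, ← mul_assoc, Nmul h]
    congr 2 <;> revert l f k <;> decide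
  have γ2 : γ * γ = 1 := by
    have := h.inv 0 1 0 0
    rwa [zero_mul, h.hy.af.U_one, map_one] at this
  have mR : ∀ l f k m, N d ι b l f k m ∈ RR d ι t b := fun l f k m =>
    (h.bf.mem_RR h.hy).2 (.inl ((h.bf.mem_R0 h.hy).2 ⟨l, f, k, m, rfl⟩))
  have tR : t ∈ RR d ι t b := subset_closure (by simp)
  have nγ : γ ∈ normalizer (E0 h : Set G) := mem_normalizer_of_conj_mem (by
    rintro _ ⟨l, k, rfl⟩
    exact ⟨l, k, by rw [← cg, mul_inv_cancel_right]⟩)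
  have m2 : γ * γ ∈ E0 h := γ2 ▸ one_mem _
  have e0 : ∀ y ∈ E0 h, y * y = 1 ∧ y ∈ RR d ι t b ∧ y * γ = γ * y := by
    rintro _ ⟨l, k, rfl⟩
    exact ⟨by rw [Nsq h, show l + l * 0 + l = 0 by revert l; decide, N1 h], mR _ _ _ _, cg ..⟩
  have e1 : ∀ y ∈ E0 h ⊔ zpowers γ, y * y = 1 ∧ y ∈ RR d ι t b ∧ y * γ = γ * y := fun y hy => by
    rcases (mem_sup_zpowers nγ m2).1 hy with h1 | h1
    · exact e0 y h1
    · obtain ⟨h2, h3, h4⟩ := e0 _ h1
      generalize hq : y * γ⁻¹ = q at h2 h3 h4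
      obtain rfl : y = q * γ := by rw [← hq]; group
      exact ⟨by rw [mul_assoc, ← mul_assoc γ, ← h4, mul_assoc, γ2, mul_one, h2],
        mul_mem h3 (mul_mem tR (mR _ _ _ _)), by rw [← mul_assoc γ, ← h4]⟩
  have e5 : ∀ y ∈ E5 d ι t, y * y = 1 ∧ y ∈ RR d ι t b ∧ y * γ = γ * y := fun y hy => by
    obtain ⟨f, k, rfl | rfl⟩ := h.hy.mem_E5.1 hy <;> rw [NU h]
    · exact ⟨by rw [Nsq h, zero_mul, add_zero, add_zero, N1 h], mR _ _ _ _, cg 0 f k⟩
    · refine ⟨?_, mul_mem tR (mR _ _ _ _), ?_⟩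
      · have := h.inv 0 f k 0
        rwa [zero_mul, h.hy.af.U_one, map_one] at this
      · refine Commute.mul_left (Commute.mul_right (Commute.refl t) ?_) (cg 0 f k)
        exact (tc 0 1 0 0).trans (by rw [add_zero])
  have c16 : Nat.card (E0 h) = 16 := by
    refine (Nat.card_congr (Equiv.ofBijective (fun p : F4 × F4 => (⟨_, p.1, p.2, rfl⟩ : E0 h))
      ⟨fun p q e => ?_, ?_⟩)).symm.trans (by simp [F4.card_eq])
    · have := Ninj h (congrArg Subtype.val e)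
      exact Prod.ext this.1 this.2.2.1
    · rintro ⟨_, l, k, rfl⟩
      exact ⟨(l, k), rfl⟩
  have c32 := card_sup_zpowers nγ m2 fun ⟨l, k, e⟩ => tN_ne h _ _ _ _ _ _ _ _ e
  have eq := h.hy.two32 c1 (P := RR d ι t b ⊓ centralizer {γ})
    ((IsPGroup.of_card (n := 9) (by rw [h.bf.card_RR h.hy]; rfl)).to_inf_left)
    (fun e he => (mem_centralizer_singleton_iff.1 he.2))
    (fun y hy => ⟨(e5 y hy).2.1, mem_centralizer_singleton_iff.2 (e5 y hy).2.2⟩)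
    (fun y hy => ⟨(e1 y hy).2.1, mem_centralizer_singleton_iff.2 (e1 y hy).2.2⟩)
    (fun y hy => (e5 y hy).1) (fun y hy => (e1 y hy).1) h.hy.card_E5.ge (by rw [c32, c16])
  obtain ⟨f, k, e | e⟩ := h.hy.mem_E5.1 (eq ▸ mem_sup_left ⟨1, 0, rfl⟩ : N d ι b 1 0 0 1 ∈ E5 d ι t)
  · rw [NU h] at e
    exact one_ne_zero (Ninj h e).1
  · rw [NU h] at e
    exact tN_ne h _ _ _ _ _ _ _ _ e.symm

end Cfsg.Agent.MS
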