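import Cfsg.Agent.MS.ZD

/-! notes/MS.md, section ZNR. -/

set_option autoImplicit false

namespace Cfsg.Agent.MS

open Subgroup H29 H42

variable {A G : Type*} [Group A] [Group G] [Finite G] {d : AD A} {ι : A →* G} {t u x : G}
  {O E Q : Subgroup G} {b : F4 → G} {η ν : F4}

namespace ZNR

/-- coordinates over the prime field -/
def co (a a' : F4) : F4 → F4
  | .o => 0
  | .i => a
  | .w => a'
  | .v => a + a'

set_option synthInstance.maxSize 2000 in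
theorem fin8 : ∀ a1 b1 : F4, a1 * b1 = 0 → ∀ a2 b2 : F4, a2 * b2 = 0 → ∀ a3 b3 : F4, a3 * b3 = 0 →
    ∀ a4 b4 : F4, a4 * b4 = 0 → (∀ l f, (co a1 a2 l + co a3 a4 f) * (co b1 b2 l + co b3 b4 f) = l * f) →
    ∃ α : F4, α ≠ 0 ∧ ((∀ l f, co a1 a2 l + co a3 a4 f = α * l ∧ co b1 b2 l + co b3 b4 f = α * α * f) ∨
      ∀ l f, co a1 a2 l + co a3 a4 f = α * f ∧ co b1 b2 l + co b3 b4 f = α * α * l) := by decide +kernel

theorem coord {N : F4 → F4 → F4} (h : ∀ l f l' f', N (l + l') (f + f') = N l f + N l' f') (l f : F4) :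
    N l f = co (N 1 0) (N .w 0) l + co (N 0 1) (N 0 .w) f := by
  have h0 : N 0 0 = 0 := left_eq_add.1 (h 0 0 0 0)
  refine Eq.trans (by rw [add_zero, zero_add]) ((h l 0 0 f).trans (congrArg₂ _ ?_ ?_))
  · cases l
    exacts [h0, rfl, rfl, h 1 0 .w 0]
  · cases f
    exacts [h0, rfl, rfl, h 0 1 0 .w]

theorem lin {L M : F4 → F4 → F4} (hL : ∀ l f l' f', L (l + l') (f + f') = L l f + L l' f')
    (hM : ∀ l f l' f', M (l + l') (f + f') = M l f + M l' f') (hQ : ∀ l f, L l f * M l f = l * f) :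
    ∃ α : F4, α ≠ 0 ∧ ((∀ l f, L l f = α * l ∧ M l f = α * α * f) ∨ ∀ l f, L l f = α * f ∧ M l f = α * α * l) := by
  simpa only [← coord hL, ← coord hM] using fin8 _ _ (hQ 1 0) _ _ (hQ .w 0) _ _ (hQ 0 1) _ _ (hQ 0 .w)
    (fun l f => by rw [← coord hL, ← coord hM, hQ])

theorem cC (hn : x ∈ HV d ι) (k : F4) : x * ι (d.U 0 0 k) = ι (d.U 0 0 k) * x := (hn _ ⟨k, rfl⟩).symm

theorem cC' (hn : x ∈ HV d ι) (k : F4) : x * ι (d.U 0 0 k) * x⁻¹ = ι (d.U 0 0 k) := by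
  rw [cC hn, mul_inv_cancel_right]

omit [Finite G] in
theorem xe {l f k m l' f' k' m' : F4} (h1 : l = l') (h2 : f = f') (h3 : k = k') (h4 : m = m') :
    ι (d.U l f k) * b m = ι (d.U l' f' k') * b m' := by rw [h1, h2, h3, h4]

variable (h : Zf d ι t O b)
include h

omit [Finite G] in
theorem uc (l f k k' : F4) : ι (d.U l f k) * ι (d.U 0 0 k') = ι (d.U l f (k + k')) := by
  rw [← map_mul, h.hy.af.mul]; simp

omit [Finite G] in
theorem cu (l f k k' : F4) : ι (d.U 0 0 k') * ι (d.U l f k) = ι (d.U l f (k + k')) := by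
  rw [← map_mul, h.hy.af.mul]; simp [add_comm]

theorem c0 : ι (d.U 0 0 0) = 1 := by
  have := h.hy.finA
  rw [h.hy.af.U_one, map_one]

theorem cc (k : F4) : ι (d.U 0 0 k) * ι (d.U 0 0 k) = 1 := by
  rw [uc h, (by decide : ∀ k : F4, k + k = 0), c0 h]

omit [Finite G] in
theorem xm (l f k m l' f' k' m' : F4) : ι (d.U l f k) * b m * (ι (d.U l' f' k') * b m') =
    ι (d.U (l + l') (f + f') (k + k' + l * l * (l' * l') + l' * f + 1 * (m * m) * (m' * m'))) * b (m + m') := by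
  rw [mul_assoc, ← mul_assoc (b m), h.bf.cU, mul_assoc, h.bf.mul, h.bf.cU, ← mul_assoc, ← mul_assoc, ← map_mul,
    h.hy.af.mul, uc h]

omit [Finite G] in
theorem x0 (l f k : F4) : ι (d.U l f k) = ι (d.U l f k) * b 0 := by rw [h.bf.b0, mul_one]

omit [Finite G] in
theorem ti : t⁻¹ = t := inv_eq_of_mul_eq_one_right h.hy.t2

omit [Finite G] in
theorem tx (l f k m : F4) : t * (ι (d.U l f k) * b m) * t⁻¹ = ι (d.U l f k) * b m * ι (d.U 0 0 m) := by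
  rw [← mul_assoc, h.hy.tc, mul_assoc, mul_assoc, ← mul_assoc t, h.bf.tb, mul_assoc]

theorem xR (l f k m : F4) : ι (d.U l f k) * b m ∈ R0 d ι b := (h.bf.mem_R0 h.hy).2 ⟨l, f, k, m, rfl⟩

theorem R0R {y : G} (hy : y ∈ R0 d ι b) : y ∈ RR d ι t b := (h.bf.mem_RR h.hy).2 (.inl hy)

omit h [Finite G] in
theorem tR : t ∈ RR d ι t b := subset_closure (by simp)

omit [Finite G] in
theorem RH : RR d ι t b ≤ HV d ι := (closure_le _).2 (by
  rintro _ ((⟨l, f, k, rfl⟩ | ⟨m, rfl⟩) | rfl) _ ⟨k', rfl⟩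
  exacts [(cu h ..).trans (uc h ..).symm, (h.bf.cU ..).symm, (h.hy.tc _).symm])

omit [Finite G] in
theorem RO {o y : G} (ho : o ∈ O) (hy : y ∈ RR d ι t b) : o * y = y * o :=
  (show RR d ι t b ≤ centralizer {o} from (closure_le _).2 (by
    rintro _ ((⟨l, f, k, rfl⟩ | ⟨m, rfl⟩) | rfl) _ rfl
    exacts [h.AO _ ho _, h.bO _ ho _, h.hy.Ot _ ho])) hy o rfl

theorem p9 {y : G} (hy : y ∈ RR d ι t b) : y ^ 2 ^ 9 = 1 := by
  have := congrArg Subtype.val (pow_card_eq_one' (x := (⟨y, hy⟩ : RR d ι t b)))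
  rwa [h.bf.card_RR h.hy] at this

theorem nT (y : G) (hy : y ∈ R0 d ι b) : t * y * t⁻¹ ∈ R0 d ι b := by
  obtain ⟨l, f, k, m, rfl⟩ := (h.bf.mem_R0 h.hy).1 hy
  rw [tx h]
  exact mul_mem hy (x0 h 0 0 m ▸ xR h _ _ _ _)

theorem nfR {y : G} (hy : y ∈ RR d ι t b) : ∃ l f k m, y = ι (d.U l f k) * b m ∨ y = t * (ι (d.U l f k) * b m) := by
  rcases (h.bf.mem_RR h.hy).1 hy with c | c
  · obtain ⟨l, f, k, m, e⟩ := (h.bf.mem_R0 h.hy).1 c
    exact ⟨l, f, k, m, .inl e⟩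
  · obtain ⟨l, f, k, m, e⟩ := (h.bf.mem_R0 h.hy).1 (nT h _ c)
    exact ⟨l, f, k, m, .inr (by rw [← e, mul_assoc t, mul_inv_cancel_right, ← mul_assoc, h.hy.t2, one_mul])⟩

theorem cm {y y' : G} (hy : y ∈ RR d ι t b) (hy' : y' ∈ RR d ι t b) :
    ∃ k, y * y' * y⁻¹ = y' * ι (d.U 0 0 k) := by
  have p1 : ∀ l f k m l' f' k' m', ∃ c, ι (d.U l f k) * b m * (ι (d.U l' f' k') * b m') * (ι (d.U l f k) * b m)⁻¹ =
      ι (d.U l' f' k') * b m' * ι (d.U 0 0 c) := fun l f k m l' f' k' m' => ⟨l' * f + l * f', by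
    rw [mul_inv_eq_iff_eq_mul, x0 h 0 0, xm h, xm h, xm h]
    exact xe (by ring) (by ring) (by linear_combination (-(l * f')) * (by decide : (2 : F4) = 0)) (by ring)⟩
  have p2 : ∀ l f k m, ι (d.U l f k) * b m * t * (ι (d.U l f k) * b m)⁻¹ = t * ι (d.U 0 0 m) := fun l f k m => by
    rw [mul_inv_rev, show ∀ x y : G, x * y * t * (y⁻¹ * x⁻¹) = x * (y * t * y⁻¹) * x⁻¹ from fun x y => by group,
      h.bf.bt h.hy, ← mul_assoc, ← h.hy.tc, mul_assoc t, uc h, ← cu h, mul_assoc, mul_inv_cancel_right]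
  have q1 : ∀ l f k m, ∀ y' ∈ RR d ι t b, ∃ c, ι (d.U l f k) * b m * y' * (ι (d.U l f k) * b m)⁻¹ =
      y' * ι (d.U 0 0 c) := fun l f k m y' hy' => by
    obtain ⟨l', f', k', m', rfl | rfl⟩ := nfR h hy'
    · exact p1 ..
    obtain ⟨c, e⟩ := p1 l f k m l' f' k' m'
    refine ⟨m + c, ?_⟩
    rw [← conj_mul, p2, e, mul_assoc t, ← mul_assoc (ι (d.U 0 0 m)), ← cC (RH h (R0R h (xR h _ _ _ _))), mul_assoc, uc h,
      mul_assoc t]
  obtain ⟨l, f, k, m, rfl | rfl⟩ := nfR h hy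
  · exact q1 _ _ _ _ _ hy'
  obtain ⟨c, e⟩ := q1 l f k m _ hy'
  have e2 : ∃ c', t * y' * t⁻¹ = y' * ι (d.U 0 0 c') := by
    obtain ⟨l', f', k', m', rfl | rfl⟩ := nfR h hy'
    · exact ⟨_, tx h ..⟩
    · exact ⟨m', by rw [mul_assoc t, tx h, mul_assoc t]⟩
  obtain ⟨c', e2⟩ := e2
  refine ⟨c' + c, ?_⟩
  rw [show ∀ x : G, t * x * y' * (t * x)⁻¹ = t * (x * y' * x⁻¹) * t⁻¹ from fun x => by group, e, ← conj_mul, e2,
    cC' (RH h tR), mul_assoc, uc h]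

theorem comp {n n' y : G} (hn : n ∈ normalizer (B0 d ι b : Set G)) {l f k m l' f' k' m' : F4}
    (e : n * ι (d.U l f k) * n⁻¹ = ι (d.U l' f' k') * b m') (e' : n' * y * n'⁻¹ = ι (d.U l f k) * b m) :
    ∃ k m, n * n' * y * (n * n')⁻¹ = ι (d.U l' f' k) * b m := by
  obtain ⟨c, μ, e2⟩ := (h.bf.mem_B0 h.hy).1 (conj_mem_of_mem_normalizer hn (x := b m) (subset_closure (by simp)))
  have := xm h l' f' k' m' 0 0 c μ
  rw [add_zero, add_zero] at this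
  exact ⟨_, _, by rw [← this, ← e2, ← e, conj_mul, ← e']; group⟩

end ZNR

open ZNR

theorem Zf.nR (h : Zf d ι t O b) {n : G} (hn : n ∈ HV d ι) (e : n * t * n⁻¹ ∈ RR d ι t b) :
    n ∈ normalizer (RR d ι t b : Set G) := by
  refine inv_mem_iff.1 (mem_normalizer_of_conj_mem fun y hy => ?_)
  obtain ⟨k, e1⟩ := cm h hy e
  obtain ⟨o, ho, y', hy', e2⟩ := h.bf.RO h.hy (mul_mem (mul_mem (inv_mem hn) (RH h hy)) (inv_mem (inv_mem hn)))
    (k := k) (by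
      rw [show n⁻¹ * y * n⁻¹⁻¹ * t * (n⁻¹ * y * n⁻¹⁻¹)⁻¹ = n⁻¹ * (y * (n * t * n⁻¹) * y⁻¹) * n by group, e1,
        mul_assoc (n * t), cC (inv_mem hn)]; group)
  have := odd_two (h.hy.oddO ho) (RO h ho hy') (p9 h hy') (k := 9)
    (by rw [RO h ho hy', ← e2, conj_pow, p9 h hy, mul_one, mul_inv_cancel])
  rwa [e2, this, mul_one]

theorem Zf.mono (h : Zf d ι t O b) {n : G} (hn : n ∈ HV d ι)
    (hR : n ∈ normalizer (RR d ι t b : Set G)) :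
    (∃ α, α ≠ 0 ∧ (Dg d ι b n α ∨ Sw d ι b n α)) ∧ n ∈ normalizer (B0 d ι b : Set G) ∧
      ∃ k m, n * (t * ι (d.U 0 1 0)) * n⁻¹ = t * (ι (d.U 0 1 k) * b m) := by
  have k1 : ∀ y ∈ RR d ι t b, IsConj t y → t⁻¹ * (n * y * n⁻¹) ∈ R0 d ι b := fun y hy c => by
    obtain ⟨l, f, k, m, e | e⟩ := nfR h (conj_mem_of_mem_normalizer hR hy)
    · exact absurd (c.trans (isConj_iff.2 ⟨n, rfl⟩)) (h.d0 (e ▸ xR h _ _ _ _))
    · rw [e, inv_mul_cancel_left]; exact xR h _ _ _ _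
  have k2 : ∀ {l f}, l = 0 ∧ f ≠ 1 ∨ l ≠ 0 ∧ f = 1 → ∀ k m, n * (ι (d.U l f k) * b m) * n⁻¹ ∈ R0 d ι b :=
    fun e k m => by
      have := mul_mem (inv_mem (k1 t tR (IsConj.refl t))) (k1 _ (mul_mem tR (R0R h (xR h _ _ _ _))) (h.d2 e k m))
      rwa [show ∀ y : G, (t⁻¹ * (n * t * n⁻¹))⁻¹ * (t⁻¹ * (n * (t * y) * n⁻¹)) = n * y * n⁻¹ from
        fun y => by group] at this
  have k3 : ∀ f k m, n * (ι (d.U 0 f k) * b m) * n⁻¹ ∈ R0 d ι b := fun f k m => by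
    by_cases c : f = 1
    · have := mul_mem (k2 (l := 0) (f := .w) (by decide) k m) (k2 (l := 0) (f := .v) (by decide) 0 0)
      rw [conj_mul, xm h] at this
      simpa only [c, add_zero, mul_zero, zero_mul, (by decide : F4.w + F4.v = 1)] using this
    · exact k2 (.inl ⟨rfl, c⟩) k m
  have n0 : n ∈ normalizer (R0 d ι b : Set G) := mem_normalizer_of_conj_mem fun y hy => by
    obtain ⟨l, f, k, m, rfl⟩ := (h.bf.mem_R0 h.hy).1 hy
    by_cases c : l = 0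
    · exact c ▸ k3 f k m
    have := mul_mem (k2 (.inr ⟨c, rfl⟩) k m) (k3 (f + 1) 0 0)
    rw [conj_mul, xm h] at this
    simpa only [add_zero, mul_zero, zero_mul, (by decide : ∀ f : F4, 1 + (f + 1) = f)] using this
  have nB : n ∈ normalizer (B0 d ι b : Set G) := mem_normalizer_of_conj_mem fun y hy => by
    obtain ⟨k, m, rfl⟩ := (h.bf.mem_B0 h.hy).1 hy
    obtain ⟨l', f', k', m', e⟩ := (h.bf.mem_R0 h.hy).1 (k3 0 k m)
    have c : ∀ l f, l * f' = l' * f := fun l f => by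
      obtain ⟨l1, f1, k1, m1, e1⟩ := (h.bf.mem_R0 h.hy).1
        (conj_mem_of_mem_normalizer (inv_mem n0) (xR h l f 0 0))
      have e2 : ι (d.U 0 0 k) * b m * (ι (d.U l1 f1 k1) * b m1) = ι (d.U l1 f1 k1) * b m1 * (ι (d.U 0 0 k) * b m) := by
        rw [xm h, xm h]; exact xe (by ring) (by ring) (by ring) (by ring)
      have e3 : ι (d.U l' f' k') * b m' * (ι (d.U l f 0) * b 0) = ι (d.U l f 0) * b 0 * (ι (d.U l' f' k') * b m') := by
        rw [← e1] at e2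
        rw [← e]
        calc _ = n * (ι (d.U 0 0 k) * b m * (n⁻¹ * (ι (d.U l f 0) * b 0) * n⁻¹⁻¹)) * n⁻¹ := by group
          _ = _ := by rw [e2]; group
      rw [xm h, xm h] at e3
      linear_combination (h.bf.nf h.hy e3).2.2.1
    have c1 := c 1 0
    have c2 := c 0 1
    rw [mul_zero, one_mul] at c1
    rw [zero_mul, mul_one] at c2
    rw [e, c1, ← c2]
    exact (h.bf.mem_B0 h.hy).2 ⟨_, _, rfl⟩
  obtain ⟨k, m, hγ⟩ : ∃ k m, n * (t * ι (d.U 0 1 0)) * n⁻¹ = t * (ι (d.U 0 1 k) * b m) := by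
    obtain ⟨l, f, k, m, e⟩ := (h.bf.mem_R0 h.hy).1 (mul_mem (k1 t tR (IsConj.refl t)) (k3 1 0 0))
    have e1 : n * (t * (ι (d.U 0 1 0) * b 0)) * n⁻¹ = t * (ι (d.U l f k) * b m) := by rw [← e]; group
    have e2 := h.inv l f k m
    rw [← e1, conj_mul, h.inv, cC' hn, x0 h, x0 h 0 0 (l * _)] at e2
    obtain ⟨rfl, rfl⟩ := ((by decide : ∀ l f : F4, 0 * (1 + 1) = l * (f + 1) → (l = 0 ∧ f = 1) ∨
      l = 0 ∧ f ≠ 1 ∨ l ≠ 0 ∧ f = 1) l f (h.bf.nf h.hy e2).2.2.1).resolve_right fun c =>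
        h.d1 0 0 ((h.d2 c k m).trans (isConj_iff.2 ⟨n, e1⟩).symm)
    exact ⟨k, m, by rw [← e1, ← x0 h]⟩
  refine ⟨?_, nB, k, m, hγ⟩
  choose L M K μ e using fun l f => (h.bf.mem_R0 h.hy).1 (conj_mem_of_mem_normalizer n0 (xR h l f 0 0))
  have e' : ∀ l f k, n * ι (d.U l f k) * n⁻¹ = ι (d.U (L l f) (M l f) (K l f + k)) * b (μ l f) := fun l f k => by
    rw [← uc h, mul_assoc (ι _) (ι _), ← h.bf.cU, ← mul_assoc (ι _), ← e, ← cC' hn k, conj_mul, ← x0 h, uc h, zero_add]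
  have add : ∀ l f l' f', L (l + l') (f + f') = L l f + L l' f' ∧ M (l + l') (f + f') = M l f + M l' f' :=
    fun l f l' f' => by
      have := xm h (L l f) (M l f) (K l f + 0) (μ l f) (L l' f') (M l' f') (K l' f' + 0) (μ l' f')
      rw [← e', ← e', conj_mul, ← map_mul, h.hy.af.mul, e'] at this
      exact ⟨(h.bf.nf h.hy this).1, (h.bf.nf h.hy this).2.1⟩
  obtain ⟨α, h0, hα⟩ := lin (fun l f l' f' => (add l f l' f').1) (fun l f l' f' => (add l f l' f').2) fun l f => by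
    have e1 : n * (t * (ι (d.U 0 1 0) * b 0 * (ι (d.U l f 0) * b 0))) * n⁻¹ =
        t * (ι (d.U 0 1 k) * b m * (ι (d.U (L l f) (M l f) (K l f)) * b (μ l f))) := by
      rw [← e, ← mul_assoc t (_ * b m), ← hγ, ← x0 h]; group
    rw [xm h, xm h] at e1
    have e2 := congrArg (fun y => y * y) e1
    simp only [conj_mul, h.inv, cC' hn] at e2
    rw [x0 h, x0 h 0 0 ((0 + L l f) * _)] at e2
    exact (by decide : ∀ l f l' f' : F4, (0 + l) * (1 + f + 1) = (0 + l') * (1 + f' + 1) → l' * f' = l * f) _ _ _ _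
      (h.bf.nf h.hy e2).2.2.1
  refine ⟨α, h0, hα.imp (fun c l f k => ⟨K l f + k, μ l f, ?_⟩) fun c l f k => ⟨K l f + k, μ l f, ?_⟩⟩ <;>
    rw [← (c l f).1, ← (c l f).2, e']

theorem Qf.dg1 (h : Qf d ι t O b Q) {n : G} (hn : n ∈ HV d ι)
    (hR : n ∈ normalizer (RR d ι t b : Set G)) (e : Dg d ι b n 1) :
    ∃ o ∈ O, ∃ q ∈ Q, n = o * q ∨ n = o * (q * t) := by
  have z := h.zf
  obtain ⟨-, -, k, m, e1⟩ := z.mono hn hR
  obtain ⟨k', m', e2⟩ := e 0 1 0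
  obtain ⟨q, hq, c, e3⟩ := h.all (m + m')
  obtain ⟨κ, e4⟩ : ∃ κ, n * t * n⁻¹ = t * b (m + m') * ι (d.U 0 0 κ) := by
    have a2 : ι (d.U 0 1 0) * ι (d.U 0 1 0) = 1 := by
      rw [← map_mul, z.hy.af.mul, ← c0 z]; rfl
    have := xm z 0 1 k m (1 * 0) (1 * 1 * 1) k' m'
    rw [show (0 : F4) + 1 * 0 = 0 from rfl, show (1 : F4) + 1 * 1 * 1 = 0 from rfl, ← z.bf.cU (m + m')] at this
    exact ⟨_, by rw [mul_assoc t, ← this, ← mul_assoc t, ← e1, ← e2, conj_mul, mul_assoc t, a2, mul_one]⟩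
  obtain ⟨o, ho, y, hy, e5⟩ := z.bf.RO z.hy (mul_mem (inv_mem (h.leH hq)) hn) (k := c + κ) (by
    rw [show q⁻¹ * n * t * (q⁻¹ * n)⁻¹ = q⁻¹ * (n * t * n⁻¹) * q by group, e4, ← one_mul (ι (d.U 0 0 κ)), ← cc z c,
      mul_assoc (ι _), uc z, ← mul_assoc (t * _), ← e3, mul_assoc (q * t), cC (inv_mem (h.leH hq))]; group)
  have e6 : n = o * (q * y) := by rw [← mul_assoc, h.QO o ho q hq, mul_assoc, RO z ho hy, ← e5, mul_inv_cancel_left]
  rcases (z.bf.mem_RR z.hy).1 hy with c | c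
  · exact ⟨o, ho, _, mul_mem hq (h.le c), .inl e6⟩
  · exact ⟨o, ho, _, mul_mem hq (h.le c), .inr (by rw [mul_assoc q, mul_assoc y, z.hy.t2, mul_one, e6])⟩

theorem Qf.isP (h : Qf d ι t O b Q) {q : G} (hq : q ∈ Q) : q ^ 2 ^ 2 = 1 ∧ ∃ k : ℕ, (q * t) ^ 2 ^ k = 1 := by
  have k : ∀ q ∈ Q, q ^ 2 ^ 2 = 1 := fun q hq => by
    obtain ⟨k, e⟩ := h.zf.hy.mem_VV.1 (h.sq q hq)
    rw [pow_two 2, pow_mul, pow_two q, e, pow_two, cc h.zf]
  refine ⟨k q hq, 3, ?_⟩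
  rw [pow_succ' 2 2, pow_mul]
  refine k _ ?_
  rw [pow_two, mul_assoc, ← mul_assoc t]
  exact mul_mem hq (by simpa only [ti h.zf] using conj_mem_of_mem_normalizer h.nt hq)

theorem Qf.comm (h : Qf d ι t O b Q) {q q' : G} (hq : q ∈ Q) (hq' : q' ∈ Q) :
    q * q' * q⁻¹ * q'⁻¹ ∈ VV d ι := by
  obtain ⟨k, e⟩ := h.zf.hy.mem_VV.1 (h.sq q hq)
  have := mul_mem (mul_mem (h.sq _ (mul_mem hq hq')) (inv_mem (h.sq _ hq'))) (inv_mem (h.sq _ hq))
  rwa [show q * q' * (q * q') * (q' * q')⁻¹ * (q * q)⁻¹ = q * q' * q⁻¹ * (q * q * q'⁻¹ * (q * q)⁻¹) by group, e,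
    ← cC (inv_mem (h.leH hq')), mul_inv_cancel_right] at this

theorem Qf.nR (h : Qf d ι t O b Q) {q : G} (hq : q ∈ Q) :
    q ∈ normalizer (RR d ι t b : Set G) ∧ Dg d ι b q 1 := by
  have z := h.zf
  obtain ⟨ν, -, k, e⟩ := h.act q hq
  refine ⟨z.nR (h.leH hq) ?_, fun l f k => ?_⟩
  · rw [e, mul_assoc, z.bf.cU]; exact mul_mem tR (R0R z (xR z _ _ _ _))
  obtain ⟨c, e⟩ := z.hy.mem_VV.1 (h.comm hq (h.le (show ι (d.U l f k) ∈ _ from subset_closure (.inl ⟨l, f, k, rfl⟩))))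
  exact ⟨k + c, 0, by rw [one_mul, one_mul, one_mul, ← x0 z, ← cu z, ← e, inv_mul_cancel_right]⟩

/-- `(q t)² ∈ V` forces `q ∈ R0` -/
theorem Qf.qt (h : Qf d ι t O b Q) {q : G} (hq : q ∈ Q) (e : q * t * (q * t) ∈ VV d ι) :
    q ∈ R0 d ι b := by
  have z := h.zf
  obtain ⟨ν, e1, k, e2⟩ := h.act q hq
  obtain ⟨c, e⟩ := z.hy.mem_VV.1 e
  have e3 : q * t * (q * t) * t * (q * t * (q * t))⁻¹ = t := by rw [e, ← z.hy.tc, mul_inv_cancel_right]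
  rw [show q * t * (q * t) * t * (q * t * (q * t))⁻¹ = q * (t * (q * t * q⁻¹) * t⁻¹) * q⁻¹ by group, e2,
    mul_assoc t (b ν), z.bf.cU, ← conj_mul (b := t), tx z, mul_inv_cancel_right, ← conj_mul, ← conj_mul, ← conj_mul, e2, e1,
    cC' (h.leH hq), cC' (h.leH hq), mul_assoc t, mul_assoc t, mul_eq_left, z.bf.cU, z.bf.cU, ← mul_assoc (ι _) (ι _),
    uc z, x0 z 0 0 ν, xm z, xm z, ← c0 z, x0 z 0 0 0] at e3
  obtain rfl : ν = 0 := by
    have := (z.bf.nf z.hy e3).2.2.1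
    revert this; generalize ν = ν; generalize k = k; revert ν k; decide
  exact h.zero q hq k (by rw [e2, z.bf.b0, mul_one])

theorem Qf.tQ (h : Qf d ι t O b Q) : t ∉ Q := fun c => by
  obtain ⟨l, f, k, m, e⟩ := (h.zf.bf.mem_R0 h.zf.hy).1
    (h.zero t c 0 (by rw [c0 h.zf, mul_one, mul_inv_cancel_right]))
  exact h.zf.bf.nft h.zf.hy l f k m e.symm

theorem Zf.t_dg (h : Zf d ι t O b) : Dg d ι b t 1 := fun l f k =>
  ⟨k, 0, by rw [h.hy.tc, mul_inv_cancel_right, one_mul, one_mul, one_mul, ← x0 h]⟩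

theorem Zf.o_dg (h : Zf d ι t O b) {o : G} (ho : o ∈ O) : Dg d ι b o 1 := fun l f k =>
  ⟨k, 0, by rw [h.AO o ho, mul_inv_cancel_right, one_mul, one_mul, one_mul, ← x0 h]⟩

theorem Zf.g_sw (h : Zf d ι t O b) :
    gE d ι b ∈ HV d ι ∧ gE d ι b ∈ normalizer (RR d ι t b : Set G) ∧ Sw d ι b (gE d ι b) 1 := by
  have g : gE d ι b ∈ HV d ι := by
    rintro _ ⟨k, rfl⟩
    exact (h.bf.g_E h.hy 0 k).symm
  refine ⟨g, h.nR g ?_, fun l f k => ?_⟩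
  · rw [h.bf.g_t h.hy, x0 h]; exact mul_mem tR (R0R h (xR h _ _ _ _))
  obtain ⟨k', e⟩ := h.gU l f k
  exact ⟨k', _, by rw [one_mul, one_mul, one_mul, e]⟩

theorem Zf.dg_dg (h : Zf d ι t O b) {n n' : G} {α β : F4} (hn : n ∈ normalizer (B0 d ι b : Set G))
    (e : Dg d ι b n α) (e' : Dg d ι b n' β) : Dg d ι b (n * n') (α * β) := fun l f k => by
  obtain ⟨k', m, e1⟩ := e' l f k
  obtain ⟨_, _, e2⟩ := e (β * l) (β * β * f) k'
  simpa only [mul_assoc, mul_left_comm α β] using comp h hn e2 e1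

theorem Zf.dg_sw (h : Zf d ι t O b) {n n' : G} {α β : F4} (hn : n ∈ normalizer (B0 d ι b : Set G))
    (e : Dg d ι b n α) (e' : Sw d ι b n' β) : Sw d ι b (n * n') (α * β) := fun l f k => by
  obtain ⟨k', m, e1⟩ := e' l f k
  obtain ⟨_, _, e2⟩ := e (β * f) (β * β * l) k'
  simpa only [mul_assoc, mul_left_comm α β] using comp h hn e2 e1

theorem ZNR.cube : ∀ α β l : F4, β ≠ 0 → α * α * (β * l) = α * β * β * (α * β * β) * l := by decide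

theorem Zf.sw_dg (h : Zf d ι t O b) {n n' : G} {α β : F4} (hn : n ∈ normalizer (B0 d ι b : Set G))
    (e : Sw d ι b n α) (e' : Dg d ι b n' β) (hβ : β ≠ 0) : Sw d ι b (n * n') (α * β * β) := fun l f k => by
  obtain ⟨k', m, e1⟩ := e' l f k
  obtain ⟨_, _, e2⟩ := e (β * l) (β * β * f) k'
  rw [← cube α β l hβ, mul_assoc α β, mul_assoc α]
  exact comp h hn e2 e1

theorem Zf.sw_sw (h : Zf d ι t O b) {n n' : G} {α β : F4} (hn : n ∈ normalizer (B0 d ι b : Set G))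
    (e : Sw d ι b n α) (e' : Sw d ι b n' β) (hβ : β ≠ 0) : Dg d ι b (n * n') (α * β * β) := fun l f k => by
  obtain ⟨k', m, e1⟩ := e' l f k
  obtain ⟨_, _, e2⟩ := e (β * f) (β * β * l) k'
  rw [← cube α β f hβ, mul_assoc α β, mul_assoc α]
  exact comp h hn e2 e1

theorem Zf.dg_uniq (h : Zf d ι t O b) {n : G} {α β : F4} (e : Dg d ι b n α) (e' : Dg d ι b n β) :
    α = β := by
  obtain ⟨_, _, e1⟩ := e 1 0 0
  obtain ⟨_, _, e2⟩ := e' 1 0 0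
  simpa only [mul_one] using (h.bf.nf h.hy (e1.symm.trans e2)).1

theorem Zf.sw_uniq (h : Zf d ι t O b) {n : G} {α β : F4} (e : Sw d ι b n α) (e' : Sw d ι b n β) :
    α = β := by
  obtain ⟨_, _, e1⟩ := e 0 1 0
  obtain ⟨_, _, e2⟩ := e' 0 1 0
  simpa only [mul_one] using (h.bf.nf h.hy (e1.symm.trans e2)).1

theorem Zf.dg_ne_sw (h : Zf d ι t O b) {n : G} {α β : F4} (hα : α ≠ 0) (e : Dg d ι b n α)
    (e' : Sw d ι b n β) : False := by
  obtain ⟨_, _, e1⟩ := e 1 0 0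
  obtain ⟨_, _, e2⟩ := e' 1 0 0
  exact hα (by simpa only [mul_one, mul_zero] using (h.bf.nf h.hy (e1.symm.trans e2)).1)

end Cfsg.Agent.MS
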