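import Cfsg.Agent.MS.ZD
import Cfsg.Agent.MS.X2

/-! notes/MS.md, section ZQ. -/

set_option autoImplicit false
set_option linter.unusedSectionVars false

namespace Cfsg.Agent.MS

open Subgroup H29 H42

variable {A G : Type*} [Group A] [Group G] [Finite G] {d : AD A} {ι : A →* G} {t u x : G}
  {O E Q : Subgroup G} {b : F4 → G} {η ν : F4}

namespace ZQ

open X2

variable (d ι t b) in
/-- the action of an element of `Q O` -/
structure Qh (n : G) (ν : F4) : Prop where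
  c : ∀ k, cn n (ι (d.U 0 0 k)) = ι (d.U 0 0 k)
  u : ∀ l f k, ∃ k', cn n (ι (d.U l f k)) = ι (d.U l f k')
  b' : ∀ m, cn n (b m) = b m * ι (d.U 0 0 (ν * ν * (m * m)))
  t' : ∃ k, cn n t = t * b ν * ι (d.U 0 0 k)

theorem key {g n x y : G} (e : cn n (cn g x) = cn g y) : cn (g⁻¹ * n * g) x = y := by
  rw [mul_cn, mul_cn, e, ← mul_cn, inv_mul_cancel, one_cn]

variable (h : Zf d ι t O b) {n n' y : G} {ν' : F4}
include h

theorem Cb (k m : F4) : ι (d.U 0 0 k) * b m = b m * ι (d.U 0 0 k) := (h.bf.cU m 0 0 k).symm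

theorem xC' (l f k k' : F4) : ι (d.U l f k) * ι (d.U 0 0 k') = ι (d.U l f (k + k')) := by
  rw [xm h.hy]; simp only [add_zero, mul_zero, zero_mul]

theorem Qh.mul (a : Qh d ι t b n ν) (a' : Qh d ι t b n' ν') : Qh d ι t b (n * n') (ν + ν') := by
  refine ⟨fun k => by rw [mul_cn, a'.c, a.c], fun l f k => ?_, fun m => ?_, ?_⟩
  · obtain ⟨k', e⟩ := a'.u l f k
    rw [mul_cn, e]
    exact a.u l f k'
  · rw [mul_cn, a'.b', cn_mul, a.b', a.c, mul_assoc, cc h.hy,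
      (by decide : ∀ a c m : F4, a * a * (m * m) + c * c * (m * m) = (a + c) * (a + c) * (m * m))]
  · obtain ⟨k, e⟩ := a.t'
    obtain ⟨k', e'⟩ := a'.t'
    exact ⟨_, by rw [mul_cn, e', cn_mul, cn_mul, e, a.b', a.c, mul_assoc (t * b ν), ← mul_assoc _ (b ν'), Cb h,
      mul_assoc (b ν'), ← mul_assoc, mul_assoc t, h.bf.mul, ← mul_assoc t, mul_assoc (t * _), mul_assoc (t * _),
      cc h.hy, cc h.hy, cc h.hy]⟩

theorem Qh.uniq (a : Qh d ι t b n ν) {k : F4} (e : cn n t = t * b ν' * ι (d.U 0 0 k)) : ν = ν' := by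
  obtain ⟨k', e'⟩ := a.t'
  rw [e', mul_assoc, mul_assoc, mul_right_inj, ← Cb h, ← Cb h] at e
  exact (h.bf.nf h.hy e).2.2.2

theorem mkR (l f k m : F4) : ι (d.U l f k) * b m ∈ R0 d ι b := (h.bf.mem_R0 h.hy).2 ⟨l, f, k, m, rfl⟩

theorem CR (k : F4) : ι (d.U 0 0 k) ∈ R0 d ι b := subset_closure (.inl ⟨0, 0, k, rfl⟩)

theorem qhR (hy : y ∈ R0 d ι b) : Qh d ι t b y 0 := by
  obtain ⟨l, f, k, m, rfl⟩ := (h.bf.mem_R0 h.hy).1 hy
  have e : ∀ l f k, cn (b m) (ι (d.U l f k)) = ι (d.U l f k) := fun l f k => cn_iff.2 (h.bf.cU m l f k)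
  refine ⟨fun k => by rw [mul_cn, e, xC h.hy], fun l f k => ⟨_, by rw [mul_cn, e, xc h.hy]⟩, fun m' => ?_, m, ?_⟩
  · rw [mul_cn, cn_iff.2 (h.bf.comm m m'), cn_iff.2 (h.bf.cU m' l f k).symm, zero_mul, zero_mul, x0 h.hy, mul_one]
  · rw [mul_cn, show cn (b m) t = _ from h.bf.bt h.hy m, cn_mul, ct h.hy, xC h.hy, h.bf.b0, mul_one]

theorem OR {o : G} (ho : o ∈ O) (hy : y ∈ R0 d ι b) : o * y = y * o := by
  obtain ⟨l, f, k, m, rfl⟩ := (h.bf.mem_R0 h.hy).1 hy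
  rw [← mul_assoc, h.AO o ho, mul_assoc, h.bO o ho, mul_assoc]

theorem Qh.nR (a : Qh d ι t b n ν) (hy : y ∈ R0 d ι b) : cn n y ∈ R0 d ι b := by
  obtain ⟨l, f, k, m, rfl⟩ := (h.bf.mem_R0 h.hy).1 hy
  obtain ⟨k', e⟩ := a.u l f k
  rw [cn_mul, e, a.b', ← mul_assoc]
  exact mul_mem (mkR h _ _ _ _) (CR h _)

omit h in
theorem Qh.hv (a : Qh d ι t b n ν) : n ∈ HV d ι := by
  rintro _ ⟨k, rfl⟩
  exact (cn_iff.1 (a.c k)).symm

theorem Qh.zero (a : Qh d ι t b n 0) : ∃ o ∈ O, ∃ y ∈ R0 d ι b, n = o * y := by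
  obtain ⟨k, e⟩ := a.t'
  rw [h.bf.b0, mul_one] at e
  obtain ⟨o, ho, y, hy, rfl⟩ := h.bf.RO h.hy a.hv e
  rcases (h.bf.mem_RR h.hy).1 hy with hy | hy
  · exact ⟨o, ho, y, hy, (OR h ho hy).symm⟩
  · have e1 := a.b' 1
    have a' := qhR h hy
    rw [mul_cn, cn_iff.2 (h.bO o ho 1), ← mul_one y, ← h.hy.t2, ← mul_assoc, mul_cn, show cn t (b 1) = _ from h.bf.tb 1,
      cn_mul, a'.b', a'.c, mul_assoc, cc h.hy, mul_right_inj] at e1
    exact absurd (xinj h.hy e1).2.2 (by decide)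

theorem two (e : n * n ∈ R0 d ι b) : n ^ 2 ^ 9 = 1 := by
  have := congrArg Subtype.val (pow_card_eq_one' (x := (⟨_, e⟩ : R0 d ι b)))
  rw [h.bf.card_R0 h.hy] at this
  rw [pow_succ', pow_mul, sq]
  exact this

theorem Qh.zero' (a : Qh d ι t b n 0) (e : n * n ∈ R0 d ι b) : n ∈ R0 d ι b := by
  obtain ⟨o, ho, y, hy, rfl⟩ := a.zero h
  rwa [odd_two (h.hy.oddO ho) (OR h ho hy) (two h (mul_mem hy hy)) (two h e), one_mul]

theorem Qh.inv (a : Qh d ι t b n ν) (e : n * n ∈ R0 d ι b) : Qh d ι t b n⁻¹ ν := by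
  have := a.mul h (qhR h (inv_mem e))
  rwa [add_zero, mul_inv_rev, mul_inv_cancel_left] at this

theorem Qh.sq (a : Qh d ι t b n ν) (e : n * n ∈ R0 d ι b) : ∃ k, n * n = ι (d.U 0 0 k) := by
  obtain ⟨l, f, k, m, e⟩ := (h.bf.mem_R0 h.hy).1 e
  have e1 : ∀ l' f', 0 + l' * f + l * f' = 0 := fun l' f' => by
    obtain ⟨k', e2⟩ := a.u l' f' 0
    have e3 : cn (n * n) (ι (d.U l' f' 0)) = ι (d.U l' f' 0) := by
      have e4 : ι (d.U l' f' k') = ι (d.U l' f' 0) * ι (d.U 0 0 k') := by rw [xC' h, zero_add]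
      rw [mul_cn, e2, e4, cn_mul, e2, a.c, xC' h, (by decide : ∀ k : F4, k + k = 0)]
    rw [e, mul_cn, cn_iff.2 (h.bf.cU m l' f' 0), xc h.hy] at e3
    exact (xinj h.hy e3).2.2
  obtain rfl : l = 0 := by simpa using e1 0 1
  obtain rfl : f = 0 := by simpa using e1 1 0
  obtain ⟨k', e2⟩ := a.t'
  have e3 : cn (n * n) t = t * ι (d.U 0 0 0) := by
    rw [mul_cn, e2, cn_mul, cn_mul, e2, a.b', a.c, mul_assoc (t * b ν), ← mul_assoc _ (b ν), Cb h,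
      mul_assoc (b ν), ← mul_assoc, mul_assoc t, h.bf.mul, (by decide : ∀ k : F4, k + k = 0), h.bf.b0, one_mul,
      mul_assoc t, mul_assoc t, cc h.hy, cc h.hy, cc h.hy]
    congr 3
    exact (by decide : ∀ ν k : F4, 1 * (ν * ν) * (ν * ν) + (k + ν * ν * (ν * ν)) + k = 0) ν k'
  rw [e, mul_cn, show cn (b m) t = _ from h.bf.bt h.hy m, cn_mul, ct h.hy, xC h.hy, mul_right_inj] at e3
  exact ⟨k, by rw [e, (xinj h.hy e3).2.2, h.bf.b0, mul_one]⟩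

/-- the group `Q` -/
def QQ : Subgroup G where
  carrier := {n | (∃ ν, Qh d ι t b n ν) ∧ (∀ o ∈ O, o * n = n * o) ∧ n * n ∈ R0 d ι b}
  one_mem' := ⟨⟨0, qhR h (one_mem _)⟩, fun o _ => by rw [mul_one, one_mul], mul_mem (one_mem _) (one_mem _)⟩
  inv_mem' := fun {n} ⟨⟨ν, a⟩, c, e⟩ => ⟨⟨ν, a.inv h e⟩, fun o ho => (Commute.inv_right (c o ho)).eq,
    mul_inv_rev n n ▸ inv_mem e⟩
  mul_mem' := fun {n n'} ⟨⟨ν, a⟩, c, e⟩ ⟨⟨ν', a'⟩, c', e'⟩ => ⟨⟨_, a.mul h a'⟩,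
    fun o ho => (Commute.mul_right (c o ho) (c' o ho)).eq, by
      have w := ((a.mul h a').mul h (a.inv h e)).mul h (a'.inv h e')
      rw [(by decide : ∀ a c : F4, a + c + a + c = 0)] at w
      obtain ⟨o, ho, y, hy, e1⟩ := w.zero h
      have e2 : y * n' * (y * n') ∈ R0 d ι b := by
        rw [show y * n' * (y * n') = y * cn n' y * (n' * n') by simp only [cn]; group]
        exact mul_mem (mul_mem hy (a'.nR h hy)) e'
      obtain rfl := odd_two (h.hy.oddO ho) (Commute.mul_right (OR h ho hy) (c' o ho)).eq (two h e2) (k := 9) (by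
        rw [← mul_assoc, ← e1, inv_mul_cancel_right, conj_pow, two h e', mul_one, mul_inv_cancel])
      rw [show n * n' * (n * n') = n * n' * n⁻¹ * n'⁻¹ * cn n' (n * n) * (n' * n') by simp only [cn]; group, e1, one_mul]
      exact mul_mem (mul_mem hy (a'.nR h e)) e'⟩

theorem RQ : R0 d ι b ≤ QQ h := fun _ hy => ⟨⟨0, qhR h hy⟩, fun _ ho => OR h ho hy, mul_mem hy hy⟩

theorem all (ν : F4) : ∃ n ∈ QQ h, Qh d ι t b n ν := by
  obtain ⟨n, h1, h2, h3, h4, h5⟩ := h.exists_k ν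
  have a : Qh d ι t b n ν := ⟨fun k => cn_iff.2 (h1 _ ⟨k, rfl⟩).symm, h3, h4, h5⟩
  have p : ∀ i, Qh d ι t b (n ^ (2 * i + 1)) ν := fun i => by
    induction i with
    | zero => rwa [mul_zero, zero_add, pow_one]
    | succ i ih =>
      have := (ih.mul h a).mul h a
      rwa [(by decide : ∀ a : F4, a + a + a = a), ← pow_succ, ← pow_succ] at this
  have w := a.mul h a
  rw [(by decide : ∀ k : F4, k + k = 0)] at w
  obtain ⟨o, ho, y, hy, e⟩ := w.zero h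
  obtain ⟨i, hi⟩ := h.hy.oddO ho
  refine ⟨_, ⟨⟨ν, p i⟩, fun o ho => (Commute.pow_right (h2 o ho) _).eq, ?_⟩, p i⟩
  rw [← (Commute.refl n).mul_pow, e, Commute.mul_pow (OR h ho hy), ← hi, pow_orderOf_eq_one, one_mul]
  exact pow_mem hy _

theorem card : Nat.card (QQ h) = 1024 := by
  choose ν hν using fun n : QQ h => n.2.1
  let f : QQ h →* Multiplicative F4 := MonoidHom.mk' (fun n => .ofAdd (ν n)) fun n n' =>
    congrArg Multiplicative.ofAdd ((hν _).uniq h ((hν n).mul h (hν n')).t'.choose_spec)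
  have e1 : f.ker = (R0 d ι b).subgroupOf _ := by
    ext n
    refine ⟨fun e => ?_, fun e => congrArg Multiplicative.ofAdd ((hν n).uniq h (qhR h e).t'.choose_spec)⟩
    have e' : ν n = 0 := e
    exact (e' ▸ hν n).zero' h n.2.2.2
  have e2 : f.range = ⊤ := MonoidHom.range_eq_top.2 fun a => by
    obtain ⟨n, hn, e⟩ := all h a.toAdd
    exact ⟨⟨n, hn⟩, congrArg Multiplicative.ofAdd ((hν _).uniq h e.t'.choose_spec)⟩
  rw [← f.ker.index_mul_card, index_ker, e1, e2, Nat.card_congr (subgroupOfEquivOfLe (RQ h)).toEquiv,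
    h.bf.card_R0 h.hy, card_top, Nat.card_eq_fintype_card]
  rfl

theorem norm {g : G} (c : ∀ o ∈ O, Commute o g) (cv : ∀ k, ∃ k', g⁻¹ * ι (d.U 0 0 k) * g = ι (d.U 0 0 k'))
    (a : ∀ n ν, Qh d ι t b n ν → ∃ ν', Qh d ι t b (g⁻¹ * n * g) ν') : g ∈ normalizer (QQ h : Set G) := by
  rw [← inv_mem_iff]
  refine mem_normalizer_fintype fun n ⟨⟨ν, a'⟩, c', e⟩ => ?_
  rw [inv_inv]
  obtain ⟨k, e1⟩ := a'.sq h e
  obtain ⟨k', e2⟩ := cv k
  exact ⟨a n ν a', fun o ho => (((c o ho).inv_right.mul_right (c' o ho)).mul_right (c o ho)).eq, by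
    rw [show g⁻¹ * n * g * (g⁻¹ * n * g) = g⁻¹ * (n * n) * g by group, e1, e2]; exact CR h _⟩

end ZQ

open X2 ZQ

theorem Zf.exists_Q (h : Zf d ι t O b) : ∃ Q, Qf d ι t O b Q := by
  have f4 : ∀ k : F4, k * k * (k * k) = k := by decide
  refine ⟨QQ h, h, card h, RQ h, fun n ⟨⟨ν, a⟩, _⟩ => a.hv, fun n ⟨⟨ν, a⟩, _, e⟩ => h.hy.mem_VV.2 (a.sq h e),
    fun n ⟨⟨ν, a⟩, _⟩ => ⟨ν, a.b', a.t'⟩, fun ν => let ⟨n, hn, a⟩ := all h ν; ⟨n, hn, a.t'⟩,
    fun n ⟨⟨ν, a⟩, _, e⟩ k e' => ?_, mem_normalizer_fintype fun n hn => ?_, ?_, ?_, fun o ho n hn => hn.2.1 o ho⟩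
  · obtain rfl := a.uniq h (ν' := 0) (k := k) (by rw [h.bf.b0, mul_one]; exact e')
    exact a.zero' h e
  · obtain ⟨ν, -, -, -, k, e⟩ := hn.1
    have e1 : t * n * t⁻¹ = (cn t (b ν * ι (d.U 0 0 k)))⁻¹ * n := by
      rw [show b ν * ι (d.U 0 0 k) = t⁻¹ * cn n t by rw [e, mul_assoc, inv_mul_cancel_left]]
      simp only [cn]; group
    rw [e1, cn_mul, show cn t (b ν) = _ from h.bf.tb ν, cn_symm (ct h.hy _), mul_assoc, cc h.hy, ← Cb h]
    exact mul_mem (RQ h (inv_mem (mkR h _ _ _ _))) hn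
  · have s1 : ∀ l f k, cn (ι d.s) (ι (d.U l f k)) = ι (d.U (l * l) (f * f) (k * k)) := fun l f k => by
      rw [cn_map, h.hy.af.sU]
    have s2 : ∀ k, cn (ι d.s) (ι (d.U 0 0 k)) = ι (d.U 0 0 (k * k)) := fun k => by rw [s1, mul_zero]
    have s3 : ∀ m, cn (ι d.s) (b m) = b (m * m) := h.bf.sb
    refine norm h (fun o ho => h.AO o ho _) (fun k => ⟨k * k, ?_⟩) fun n ν a => ⟨ν * ν, fun k => key ?_,
      fun l f k => ?_, fun m => key ?_, ?_⟩
    · rw [← f4 k, ← s2, f4, cn]; group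
    · rw [s2, a.c]
    · obtain ⟨k', e⟩ := a.u (l * l) (f * f) (k * k)
      exact ⟨k' * k', key (by rw [s1, s1, e, f4])⟩
    · rw [cn_mul, s3, s2, a.b', (by decide : ∀ ν m : F4, ν * ν * (ν * ν) * (m * m) * (ν * ν * (ν * ν) * (m * m)) =
        ν * ν * (m * m * (m * m)))]
    · obtain ⟨k, e⟩ := a.t'
      exact ⟨k * k, key (by rw [cn_mul, cn_mul, ct h.hy, s3, s2, e, f4, f4])⟩
  · have g1 : ∀ k, cn (gE d ι b) (ι (d.U 0 0 k)) = ι (d.U 0 0 k) := fun k => cn_iff.2 (h.bf.g_E h.hy 0 k)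
    have g2 : ∀ m, cn (gE d ι b) (b m) = _ := h.gb
    have g3 : cn (gE d ι b) t = _ := h.bf.g_t h.hy
    refine norm h (fun o ho => ((Commute.mul_right (h.AO o ho _) (h.bO o ho _)).mul_right
      (Commute.inv_right (h.AO o ho _)))) (fun k => ⟨k, ?_⟩) fun n ν a => ⟨ν, fun k => key ?_,
      fun l f k => ?_, fun m => key ?_, ?_⟩
    · rw [mul_assoc, ← cn_iff.1 (g1 k), inv_mul_cancel_left]
    · rw [g1, a.c]
    · obtain ⟨k', e⟩ := h.gU l f k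
      obtain ⟨k'', e'⟩ := a.u f l k'
      refine ⟨k + (k' + k'' + ν * ν * ((l + f) * (l + f))), key ?_⟩
      rw [← xC' h, cn_mul, g1, show cn (gE d ι b) _ = _ from e, cn_mul, e', a.b', ← Cb h, ← mul_assoc (ι _), xC' h,
        mul_assoc (ι _), ← Cb h, ← mul_assoc (ι _), xC' h, (by decide : ∀ a c e : F4, a + (a + c + e) = c + e)]
    · rw [cn_mul, g2, g1, cn_mul, a.b', a.c, mul_assoc (b m), mul_assoc (b m), cc h.hy, cc h.hy, add_comm]
    · obtain ⟨k, e⟩ := a.t'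
      obtain ⟨k', e'⟩ := a.u 1 1 0
      refine ⟨ν + ν * ν + (k + k'), key ?_⟩
      rw [cn_mul, cn_mul, g3, g2, g1, cn_mul, e, e', mul_assoc (t * b ν), xm h.hy, mul_assoc t, h.bf.cU,
        mul_assoc (t * _), mul_assoc (b ν), cc h.hy, ← Cb h, mul_assoc t, ← mul_assoc (ι _), xC' h]
      congr 4
      exact (by decide : ∀ ν k k' : F4, k + k' + 0 * 0 * (1 * 1) + 1 * 0 =
        0 + (ν + ν * ν + (ν + ν * ν + (k + k')))) ν k k'

end Cfsg.Agent.MS
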