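import Cfsg.Agent.MS.XW0

/-! notes/MS.md, section ZX. -/

set_option autoImplicit false
set_option linter.unusedSectionVars false

namespace Cfsg.Agent.MS

open Subgroup H29 H42

variable {A G : Type*} [Group A] [Group G] [Finite G] {d : AD A} {ι : A →* G} {t u x : G}
  {O E Q : Subgroup G} {b : F4 → G} {η ν : F4}

namespace ZX

open XW

section
variable (hb : Bf d ι t b 1) (h : Hy d ι t ⊥)
include hb h

theorem w1 : X d ι b 0 0 (1 * F4.w) 1 = X d ι b 0 0 1 0 * X d ι b 0 0 F4.v 0 * X d ι b 0 0 0 1 := by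
  rw [X_mul hb h, X_mul hb h]; xeq

theorem ga : cn (gE d ι b) (X d ι b 0 1 0 0) = X d ι b 1 0 0 1 := by
  rw [g_a hb h, w1 hb h, cn_mul, cn_mul, p_z hb h, p_y1 hb h, p_b1 hb h, X_mul hb h, X_mul hb h,
    X_mul hb h]
  xeq

theorem g3a : cn (cn (ι d.p)⁻¹ (X d ι b 0 0 0 F4.v)) (X d ι b 0 1 0 0) =
    X d ι b 0 1 0 0 * (X d ι b 1 1 F4.w 0 * X d ι b 0 0 0 1) := by
  rw [g3_a hb h, w1 hb h, cn_mul, cn_mul, inv_cn (p_z hb h), inv_cn (p_y3 hb h),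
    inv_cn (p_b1 hb h), X_mul hb h 0 0 1 0]
  congr 2

theorem hN : ∃ k, X d ι b 0 0 0 F4.v * gE d ι b * cn (ι d.p)⁻¹ (X d ι b 0 0 0 F4.v) =
    X d ι b F4.w F4.w k 0 := by
  obtain ⟨l, k, -, e⟩ := gN hb h
  have h1 := X_X hb h l l k 0 0 1 0 0
  rw [← e, mul_cn, mul_cn, g3a hb h, cn_mul (gE d ι b), cn_mul (gE d ι b), ga hb h, g_X hb h,
    g_b1 hb h, X_mul hb h, X_mul hb h, X_X hb h] at h1
  have h2 := (X_inj hb h h1).2.2.1
  have h3 : l = F4.w := by clear * - h2; decide +revert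
  exact ⟨k, h3 ▸ e⟩

theorem gg : gE d ι b * gE d ι b = X d ι b 1 1 0 0 := by rw [← U_eq hb h]; exact hb.g_sq h

theorem gβ : cn (gE d ι b) (X d ι b 0 0 0 F4.v) = X d ι b 0 0 1 F4.v := by
  obtain ⟨k, e⟩ := hN hb h
  have h1 : cn (X d ι b 0 0 0 F4.v) (X d ι b F4.w F4.w k 0) = X d ι b F4.w F4.w k 0 := by
    rw [X_X hb h]; xeq
  have h2 : X d ι b 0 0 0 F4.v * X d ι b 0 0 0 F4.v = X d ι b 0 0 F4.v 0 := by
    rw [X_mul hb h]; xeq
  rw [aux1 e h1 (g_X hb h _ _), ← cn_mul, h2, inv_cn (p_y3 hb h), gg hb h]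
  simp only [X_inv hb h, X_mul hb h]
  xeq

theorem gb (m : F4) : cn (gE d ι b) (X d ι b 0 0 0 m) = X d ι b 0 0 (m + m * m) m := by
  cases m
  · exact g_X hb h 0 0
  · exact g_b1 hb h
  · have h1 : X d ι b 0 0 0 F4.w =
        X d ι b 0 0 F4.w 0 * X d ι b 0 0 0 1 * X d ι b 0 0 0 F4.v := by
      rw [X_mul hb h, X_mul hb h]; xeq
    rw [h1, cn_mul, cn_mul, g_X hb h, g_b1 hb h, gβ hb h, X_mul hb h, X_mul hb h]
    xeq
  · exact gβ hb h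

theorem gc : ∃ k, cn (gE d ι b) (X d ι b 0 F4.v 0 0) = X d ι b F4.v 0 k F4.v := by
  obtain ⟨k, e⟩ := hN hb h
  have h1 : X d ι b 0 F4.v 0 0 * X d ι b 0 F4.v 0 0 = 1 := by
    rw [X_mul hb h, ← X_one hb h]; xeq
  have h2 : cn (gE d ι b)⁻¹ (X d ι b 0 0 0 F4.v) = X d ι b 0 0 1 F4.v := by
    refine inv_cn ?_
    have h3 : X d ι b 0 0 1 F4.v = X d ι b 0 0 1 0 * X d ι b 0 0 0 F4.v := by
      rw [X_mul hb h]; xeq
    rw [h3, cn_mul, g_X hb h, gβ hb h, X_mul hb h]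
    xeq
  rw [aux2 e (g_X hb h _ _) h1 (c_g hb h), h2, gg hb h]
  simp only [X_inv hb h, X_mul hb h]
  exact ⟨_, X_congr (by decide) (by decide) rfl (by decide)⟩

theorem gf (f : F4) : ∃ k, cn (gE d ι b) (X d ι b 0 f 0 0) = X d ι b f 0 k f := by
  obtain ⟨k, e⟩ := gc hb h
  cases f
  · exact ⟨0, g_X hb h 0 0⟩
  · exact ⟨0, ga hb h⟩
  · have h1 : X d ι b 0 F4.w 0 0 = X d ι b 0 1 0 0 * X d ι b 0 F4.v 0 0 := by
      rw [X_mul hb h]; xeq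
    rw [h1, cn_mul, ga hb h, e, X_mul hb h]
    exact ⟨_, X_congr (by decide) (by decide) rfl (by decide)⟩
  · exact ⟨k, e⟩

theorem gU (l f k : F4) : ∃ k', cn (gE d ι b) (X d ι b l f k 0) = X d ι b f l k' (l + f) := by
  obtain ⟨k', e⟩ := gf hb h (l + f)
  have h1 : X d ι b l f k 0 = X d ι b l l k 0 * X d ι b 0 (l + f) 0 0 := by
    rw [X_mul hb h]; xeq
  rw [h1, cn_mul, g_X hb h, e, X_mul hb h]
  exact ⟨_, X_congr (by clear * -; decide +revert) (add_zero _) rfl (zero_add _)⟩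

end

end ZX

theorem Bf.zx (hb : Bf d ι t b 1) (h : Hy d ι t ⊥) : Zf d ι t ⊥ b where
  hy := h
  bf := hb
  bO := fun o ho m => by rw [Subgroup.mem_bot.1 ho, one_mul, mul_one]
  AO := fun o ho l => by rw [Subgroup.mem_bot.1 ho, one_mul, mul_one]
  gb := fun m => by
    have h1 := ZX.gb hb h m
    rw [← XW.b_eq hb h] at h1
    rw [hb.cU]
    exact h1
  gU := fun l f k => by
    obtain ⟨k', e⟩ := ZX.gU hb h l f k
    rw [← XW.U_eq hb h] at e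
    exact ⟨k', e⟩

end Cfsg.Agent.MS
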